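import Mathlib
import Cfsg.Agent.Helper13.TKDefs
import Cfsg.Agent.Helper60.TKATOM2

set_option autoImplicit false

/-!
# helper99: CALL S5956 piece SEL2 (`sel_two`): selection of an invariant nondegenerate subspace of
prescribed even dimension for a char 2 involution, by strong induction on `finrank E`.
-/

namespace Cfsg.Agent.Helper99.TI5956

open Module Polynomial
open Cfsg.Agent.Helper42.SpForm Cfsg.Agent.Helper42.SpGroup Cfsg.Agent.Helper42.SpModels
open Cfsg.Agent.Helper13.TIsp Cfsg.Agent.Helper90.BG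
open Cfsg.Agent.Helper11.TI5955 Cfsg.Agent.Helper58.TI5955 Cfsg.Agent.Helper59.TI5955
open Cfsg.Agent.Helper51.TI5955 Cfsg.Agent.Helper70.TI5955
open Cfsg.Agent.Helper39.TI5961 Cfsg.Agent.Helper58.TI5961 Cfsg.Agent.Helper59.TI5961
open Cfsg.Agent.Helper60.TI5961 Cfsg.Agent.Helper31.TI5961 Cfsg.Agent.Helper19.TI5961
open Cfsg.Agent.Helper60.TI5956

variable {F : Type*} [Field F] {V : Type*} [AddCommGroup V] [Module F V] [FiniteDimensional F V]
  (B : LinearMap.BilinForm F V)

/-- SEL2 (case b): selection by strong induction on `finrank E` with `atom_two`, `nd_perp`,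
`nd_sum`. -/
theorem sel_two (halt : ∀ v, B v v = 0) (h2 : (2 : F) = 0) (T : Module.End F V)
    (hT : Preserves B T) (hT2 : T ^ 2 = 1) :
    ∀ (E : Submodule F V), E.map T ≤ E → NondegOn B E → ∀ m : ℕ, Even m → m ≤ finrank F E →
      (m % 4 = 0 ∨ finrank F E % 4 = 2) →
      ∃ W : Submodule F V, W ≤ E ∧ W.map T ≤ W ∧ NondegOn B W ∧ finrank F W = m := by
  have key : ∀ (e : ℕ) (E : Submodule F V), finrank F E = e → E.map T ≤ E → NondegOn B E →
      ∀ m : ℕ, Even m → m ≤ finrank F E → (m % 4 = 0 ∨ finrank F E % 4 = 2) →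
      ∃ W : Submodule F V, W ≤ E ∧ W.map T ≤ W ∧ NondegOn B W ∧ finrank F W = m := by
    intro e
    induction e using Nat.strong_induction_on with
    | _ e ih =>
      intro E hEe hET hE m hme hmle hcond
      by_cases hm0 : m = 0
      · subst hm0
        refine ⟨⊥, bot_le, ?_, ?_, finrank_bot F V⟩
        · rw [Submodule.map_bot]
        · intro v hv _
          exact (Submodule.mem_bot F).mp hv
      · have hE0 : E ≠ ⊥ := by
          rintro rfl
          rw [finrank_bot] at hmle
          omega
        obtain ⟨Z, hZE, hZT, hZ, hZd⟩ := atom_two B halt h2 T hT hT2 E hET hE hE0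
        obtain ⟨P, hPE, hPT, hP, hZP, hsup, hZPo, hPZo, hdim⟩ :=
          nd_perp B halt T hT 2 (by norm_num) hT2 E Z hE hZ hZE hET hZT
        have hEev : Even (finrank F E) := (ti_lag B halt E hE).1
        obtain ⟨k, hk⟩ := hme
        obtain ⟨ke, hke⟩ := hEev
        have glue : ∀ (W' : Submodule F V) (m' : ℕ), W' ≤ P → W'.map T ≤ W' → NondegOn B W' →
            finrank F W' = m' → finrank F Z + m' = m →
            ∃ W : Submodule F V, W ≤ E ∧ W.map T ≤ W ∧ NondegOn B W ∧ finrank F W = m := by
          intro W' m' hW'P hW'T hW' hW'd hsum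
          obtain ⟨hnd, -, hfr⟩ := nd_sum B Z W' hZ hW'
            (fun u hu v hv => hZPo u hu v (hW'P hv)) (fun u hu v hv => hPZo u (hW'P hu) v hv)
          refine ⟨Z ⊔ W', sup_le hZE (hW'P.trans hPE), ?_, hnd, ?_⟩
          · rw [Submodule.map_sup]
            exact sup_le_sup hZT hW'T
          · rw [hfr, hW'd, hsum]
        have hPlt : finrank F P < e := by omega
        rcases hZd with hZd | hZd
        · by_cases hm4 : m % 4 = 0
          · by_cases he4 : finrank F E % 4 = 2
            · obtain ⟨W', h1, h2', h3, h4⟩ :=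
                ih (finrank F P) hPlt P rfl hPT hP m ⟨k, hk⟩ (by omega) (Or.inl hm4)
              exact ⟨W', h1.trans hPE, h2', h3, h4⟩
            · obtain ⟨W', h1, h2', h3, h4⟩ :=
                ih (finrank F P) hPlt P rfl hPT hP (m - 2) ⟨k - 1, by omega⟩ (by omega)
                  (Or.inr (by omega))
              exact glue W' (m - 2) h1 h2' h3 h4 (by omega)
          · obtain ⟨W', h1, h2', h3, h4⟩ :=
              ih (finrank F P) hPlt P rfl hPT hP (m - 2) ⟨k - 1, by omega⟩ (by omega)
                (Or.inl (by omega))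
            exact glue W' (m - 2) h1 h2' h3 h4 (by omega)
        · by_cases hm4 : 4 ≤ m
          · obtain ⟨W', h1, h2', h3, h4⟩ :=
              ih (finrank F P) hPlt P rfl hPT hP (m - 4) ⟨k - 2, by omega⟩ (by omega) (by omega)
            exact glue W' (m - 4) h1 h2' h3 h4 (by omega)
          · obtain ⟨W', h1, h2', h3, h4⟩ :=
              ih (finrank F P) hPlt P rfl hPT hP m ⟨k, hk⟩ (by omega) (Or.inr (by omega))
            exact ⟨W', h1.trans hPE, h2', h3, h4⟩
  intro E
  exact key _ E rfl

end Cfsg.Agent.Helper99.TI5956
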