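import Mathlib
import Cfsg.Agent.Helper21.SPDefs

set_option autoImplicit false

namespace Cfsg.Agent.Helper99.SPCONJA

open Cfsg.Agent.Helper83 Cfsg.Agent.Helper21.SP

/-- two additive-to-multiplicative maps on `Fin m → K` agreeing on the `Pi.single`s agree. -/
theorem conj_ext {K : Type*} [Field K] {m : ℕ} {Γ : Type*} [Group Γ] (L R : (Fin m → K) → Γ)
    (hL : ∀ r s, L (r + s) = L r * L s) (hR : ∀ r s, R (r + s) = R r * R s)
    (hs : ∀ c t, L (Pi.single c t) = R (Pi.single c t)) : ∀ r, L r = R r := by
  have hL0 : L 0 = 1 := by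
    have e := hL 0 0
    rw [add_zero] at e
    exact mul_eq_left.mp e.symm
  have hR0 : R 0 = 1 := by
    have e := hR 0 0
    rw [add_zero] at e
    exact mul_eq_left.mp e.symm
  intro r
  have key : ∀ S : Finset (Fin m),
      L (∑ c ∈ S, Pi.single c (r c)) = R (∑ c ∈ S, Pi.single c (r c)) := by
    intro S
    induction S using Finset.induction_on with
    | empty => rw [Finset.sum_empty, hL0, hR0]
    | insert c S hc ih => rw [Finset.sum_insert hc, hL, hR, hs, ih]
  have h := key Finset.univ
  rwa [Finset.univ_sum_single] at h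

theorem vm_single {K : Type*} [Field K] {m : ℕ} (c : Fin m) (t : K)
    (M : Matrix (Fin m) (Fin m) K) (b : Fin m) :
    Matrix.vecMul (Pi.single c t) M b = t * M c b := by
  simp only [Matrix.vecMul, dotProduct]
  rw [Finset.sum_eq_single c]
  · rw [Pi.single_eq_same]
  · intro d _ hd
    rw [Pi.single_eq_of_ne hd, zero_mul]
  · intro h
    exact absurd (Finset.mem_univ c) h

theorem conjA {K : Type*} [Field K] {k : ℕ} {Γ : Type*} [Group Γ]
    {x : Fin (k + 3) → Fin (k + 3) → K → Γ}
    {ψ : Matrix.SpecialLinearGroup (Fin (k + 2)) K →* Γ} (hx : StN x)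
    (hψ : ∀ i j, i ≠ j → ∀ t, ψ (tv i j t) = x (Fin.succ i) (Fin.succ j) t)
    (hadd : ∀ r s, alpha x (r + s) = alpha x r * alpha x s)
    (hsingle : ∀ j t, alpha x (Pi.single j t) = x 0 (Fin.succ j) t)
    (g : Matrix.SpecialLinearGroup (Fin (k + 2)) K) (r : Fin (k + 2) → K) :
    ψ g * alpha x r * (ψ g)⁻¹ =
      alpha x (Matrix.vecMul r ((g⁻¹ : Matrix.SpecialLinearGroup (Fin (k + 2)) K) :
        Matrix (Fin (k + 2)) (Fin (k + 2)) K)) := by
  revert r
  refine Cfsg.Agent.Helper5.SL_transvection_induction
    (P := fun g : Matrix.SpecialLinearGroup (Fin (k + 2)) K => ∀ r : Fin (k + 2) → K,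
      ψ g * alpha x r * (ψ g)⁻¹ =
      alpha x (Matrix.vecMul r ((g⁻¹ : Matrix.SpecialLinearGroup (Fin (k + 2)) K) :
        Matrix (Fin (k + 2)) (Fin (k + 2)) K))) ?_ ?_ g
  · intro i j hij a
    have hy : ψ (Matrix.SpecialLinearGroup.transvection hij a) =
        x (Fin.succ i) (Fin.succ j) a := by
      have h := hψ i j hij a
      rwa [tv, dif_pos hij] at h
    rw [hy, Matrix.SpecialLinearGroup.transvection_inv,
      Matrix.SpecialLinearGroup.transvection_coe]
    have hsij : Fin.succ i ≠ Fin.succ j := (Fin.succ_injective _).ne hij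
    apply conj_ext
      (L := fun r => x (Fin.succ i) (Fin.succ j) a * alpha x r * (x (Fin.succ i) (Fin.succ j) a)⁻¹)
      (R := fun r => alpha x (Matrix.vecMul r (1 + Matrix.single i j (-a))))
    · intro r s
      rw [hadd]; group
    · intro r s
      rw [Matrix.add_vecMul, hadd]
    · intro c t
      rw [hsingle]
      by_cases hc : c = i
      · rw [hc]
        have hrel := hx.rel 0 (Fin.succ i) (Fin.succ j) (Fin.succ_ne_zero i).symm hsij
          (Fin.succ_ne_zero j).symm t a
        have hXZ := hx.comm 0 (Fin.succ i) 0 (Fin.succ j) (Fin.succ_ne_zero i).symm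
          (Fin.succ_ne_zero j).symm (Fin.succ_ne_zero j).symm (Fin.succ_ne_zero i) t (t * a)
        have hv : Matrix.vecMul (Pi.single i t) (1 + Matrix.single i j (-a)) +
            Pi.single j (t * a) = Pi.single i t := by
          funext b
          rw [Pi.add_apply, vm_single, Matrix.add_apply, Matrix.one_apply, Matrix.single_apply]
          rcases eq_or_ne b j with hbj | hbj
          · rw [hbj]
            simp [hij, hij.symm]
          · rcases eq_or_ne b i with hbi | hbi
            · rw [hbi]
              simp [hij, hij.symm]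
            · simp [hbj, hbi, Ne.symm hbj, Ne.symm hbi]
        have hα : alpha x (Matrix.vecMul (Pi.single i t) (1 + Matrix.single i j (-a))) *
            x 0 (Fin.succ j) (t * a) = x 0 (Fin.succ i) t := by
          rw [← hsingle j (t * a), ← hadd, hv, hsingle]
        rw [eq_mul_inv_of_mul_eq hα]
        have e2 : x (Fin.succ i) (Fin.succ j) a * x 0 (Fin.succ i) t *
            (x (Fin.succ i) (Fin.succ j) a)⁻¹ =
            (x 0 (Fin.succ i) t * x (Fin.succ i) (Fin.succ j) a * (x 0 (Fin.succ i) t)⁻¹ *
              (x (Fin.succ i) (Fin.succ j) a)⁻¹)⁻¹ * x 0 (Fin.succ i) t := by group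
        rw [e2, hrel, inv_mul_eq_iff_eq_mul, ← mul_assoc, ← hXZ, mul_assoc, mul_inv_cancel,
          mul_one]
      · have hv : Matrix.vecMul (Pi.single c t) (1 + Matrix.single i j (-a)) =
            Pi.single c t := by
          funext b
          have hne : ¬ (i = c ∧ j = b) := fun h => hc h.1.symm
          rw [vm_single, Matrix.add_apply, Matrix.one_apply, Matrix.single_apply, if_neg hne,
            add_zero]
          rcases eq_or_ne b c with hbc | hbc
          · rw [hbc]; simp
          · simp [hbc, Ne.symm hbc]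
        rw [hv, hsingle]
        have hcomm := hx.comm (Fin.succ i) (Fin.succ j) 0 (Fin.succ c) hsij
          (Fin.succ_ne_zero c).symm ((Fin.succ_injective _).ne (Ne.symm hc))
          (Fin.succ_ne_zero j) a t
        rw [hcomm, mul_inv_cancel_right]
  · intro A B hA hB r
    have e1 : ψ (A * B) * alpha x r * (ψ (A * B))⁻¹ =
        ψ A * (ψ B * alpha x r * (ψ B)⁻¹) * (ψ A)⁻¹ := by
      rw [map_mul]; group
    rw [e1, hB r, hA, Matrix.vecMul_vecMul, ← Matrix.SpecialLinearGroup.coe_mul, ← mul_inv_rev]

end Cfsg.Agent.Helper99.SPCONJA
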