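import Mathlib
import Cfsg.Agent.Helper21.SPDefs

set_option autoImplicit false

namespace Cfsg.Agent.Helper99.SPHA

open Cfsg.Agent.Helper83 Cfsg.Agent.Helper21.SP

/-- conjugating by `h(c) = w(c) w(1)⁻¹` when the inner conjugation is known. -/
theorem ha_aux {Γ : Type*} [Group Γ] (Wc W1 a b d : Γ) (h1 : W1 * b * W1⁻¹ = a)
    (h2 : Wc * b * Wc⁻¹ = d) : (Wc * W1⁻¹) * a * (Wc * W1⁻¹)⁻¹ = d := by
  rw [← h1, ← h2]; group

theorem ha_of_wt {K : Type*} [Field K] {n : ℕ} {Γ : Type*} [Group Γ]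
    {x : Fin n → Fin n → K → Γ} (hx : StN x) (hw : WT x)
    (hr : ∀ i j, i ≠ j → StRel (x i j) (x j i)) : HA x := by
  refine ⟨?_, ?_, ?_, ?_, ?_⟩
  · intro i j k hij hik hjk c u hc
    have e1 := hw.w2 i j k hij hik hjk 1 u one_ne_zero
    rw [one_mul] at e1
    have e2 := hw.w2 i j k hij hik hjk c u hc
    exact ha_aux _ _ _ _ _ e1 e2
  · intro i j k hij hik hjk c u hc
    have e1 := hw.w1 i j k hij hik hjk 1 (-u) one_ne_zero
    have e1' : -((1 : K)⁻¹ * -u) = u := by simp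
    rw [e1'] at e1
    have e2 := hw.w1 i j k hij hik hjk c (-u) hc
    have e2' : -(c⁻¹ * -u) = c⁻¹ * u := by ring
    rw [e2'] at e2
    exact ha_aux _ _ _ _ _ e1 e2
  · intro i j k hij hik hjk c u hc
    have e1 := hw.w4 i j k hij hik hjk 1 u one_ne_zero
    have e1' : (1 : K)⁻¹ * u = u := by simp
    rw [e1'] at e1
    have e2 := hw.w4 i j k hij hik hjk c u hc
    exact ha_aux _ _ _ _ _ e1 e2
  · intro i j k hij hik hjk c u hc
    have e1 := hw.w3 i j k hij hik hjk 1 (-u) one_ne_zero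
    have e1' : -((1 : K) * -u) = u := by simp
    rw [e1'] at e1
    have e2 := hw.w3 i j k hij hik hjk c (-u) hc
    have e2' : -(c * -u) = c * u := by ring
    rw [e2'] at e2
    exact ha_aux _ _ _ _ _ e1 e2
  · intro i j k l hij hkl hki hkj hli hlj c u
    have e1 := hw.w5 i j k l hij hkl hki hkj hli hlj c u
    have e2 := hw.w5 i j k l hij hkl hki hkj hli hlj 1 u
    have e3 : (stW (x i j) (x j i) 1)⁻¹ * x k l u = x k l u * (stW (x i j) (x j i) 1)⁻¹ := by
      rw [inv_mul_eq_iff_eq_mul, ← mul_assoc, e2, mul_assoc, mul_inv_cancel, mul_one]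
    unfold stH
    rw [mul_assoc, e3, ← mul_assoc, e1, mul_assoc]

end Cfsg.Agent.Helper99.SPHA
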