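import Mathlib
import Cfsg.Agent.Helper21.SPDefs

set_option autoImplicit false

namespace Cfsg.Agent.Helper99.SPHMUL

open Cfsg.Agent.Helper83 Cfsg.Agent.Helper21.SP

section

variable {K : Type*} [Field K]

theorem hm_w_00 (t : K) (ht : t ≠ 0) : (stW (sl2U : K → _) sl2L t).1 0 0 = 0 := by
  have h1 : t * t⁻¹ = 1 := mul_inv_cancel₀ ht
  simp only [stW, sl2_mul_apply, sl2U_00, sl2U_01, sl2U_10, sl2U_11, sl2L_00, sl2L_01, sl2L_10,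
    sl2L_11]
  linear_combination (-1 : K) * h1

theorem hm_w_01 (t : K) (ht : t ≠ 0) : (stW (sl2U : K → _) sl2L t).1 0 1 = t := by
  have h1 : t * t⁻¹ = 1 := mul_inv_cancel₀ ht
  simp only [stW, sl2_mul_apply, sl2U_00, sl2U_01, sl2U_10, sl2U_11, sl2L_00, sl2L_01, sl2L_10,
    sl2L_11]
  linear_combination (-t) * h1

theorem hm_w_10 (t : K) (_ht : t ≠ 0) : (stW (sl2U : K → _) sl2L t).1 1 0 = -t⁻¹ := by
  simp only [stW, sl2_mul_apply, sl2U_00, sl2U_01, sl2U_10, sl2U_11, sl2L_00, sl2L_01, sl2L_10,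
    sl2L_11]
  ring

theorem hm_w_11 (t : K) (ht : t ≠ 0) : (stW (sl2U : K → _) sl2L t).1 1 1 = 0 := by
  have h1 : t * t⁻¹ = 1 := mul_inv_cancel₀ ht
  simp only [stW, sl2_mul_apply, sl2U_00, sl2U_01, sl2U_10, sl2U_11, sl2L_00, sl2L_01, sl2L_10,
    sl2L_11]
  linear_combination (-1 : K) * h1

theorem hm_h_eq (t : K) : stH (sl2U : K → _) sl2L t = stW sl2U sl2L t * stW sl2U sl2L (-1) := by
  unfold stH
  rw [(sl2_stRel (K := K)).w_inv 1]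

theorem hm_h_00 (t : K) (ht : t ≠ 0) : (stH (sl2U : K → _) sl2L t).1 0 0 = t := by
  have h1 : (-1 : K) ≠ 0 := neg_ne_zero.mpr one_ne_zero
  rw [hm_h_eq, sl2_mul_apply, hm_w_00 t ht, hm_w_01 t ht, hm_w_00 _ h1, hm_w_10 _ h1]
  simp [inv_neg]

theorem hm_h_01 (t : K) (ht : t ≠ 0) : (stH (sl2U : K → _) sl2L t).1 0 1 = 0 := by
  have h1 : (-1 : K) ≠ 0 := neg_ne_zero.mpr one_ne_zero
  rw [hm_h_eq, sl2_mul_apply, hm_w_00 t ht, hm_w_01 t ht, hm_w_01 _ h1, hm_w_11 _ h1]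
  simp

theorem hm_h_10 (t : K) (ht : t ≠ 0) : (stH (sl2U : K → _) sl2L t).1 1 0 = 0 := by
  have h1 : (-1 : K) ≠ 0 := neg_ne_zero.mpr one_ne_zero
  rw [hm_h_eq, sl2_mul_apply, hm_w_10 t ht, hm_w_11 t ht, hm_w_00 _ h1, hm_w_10 _ h1]
  simp

theorem hm_h_11 (t : K) (ht : t ≠ 0) : (stH (sl2U : K → _) sl2L t).1 1 1 = t⁻¹ := by
  have h1 : (-1 : K) ≠ 0 := neg_ne_zero.mpr one_ne_zero
  rw [hm_h_eq, sl2_mul_apply, hm_w_10 t ht, hm_w_11 t ht, hm_w_01 _ h1, hm_w_11 _ h1]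
  simp

theorem hm_sl2 (t u : K) (ht : t ≠ 0) (hu : u ≠ 0) :
    stH (sl2U : K → _) sl2L (t * u) = stH sl2U sl2L t * stH sl2U sl2L u := by
  have htu : t * u ≠ 0 := mul_ne_zero ht hu
  apply sl2_ext
  · rw [sl2_mul_apply, hm_h_00 _ htu, hm_h_00 _ ht, hm_h_00 _ hu, hm_h_01 _ ht, hm_h_10 _ hu]
    ring
  · rw [sl2_mul_apply, hm_h_01 _ htu, hm_h_00 _ ht, hm_h_01 _ hu, hm_h_01 _ ht, hm_h_11 _ hu]
    ring
  · rw [sl2_mul_apply, hm_h_10 _ htu, hm_h_10 _ ht, hm_h_00 _ hu, hm_h_11 _ ht, hm_h_10 _ hu]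
    ring
  · rw [sl2_mul_apply, hm_h_11 _ htu, hm_h_10 _ ht, hm_h_01 _ hu, hm_h_11 _ ht, hm_h_11 _ hu]
    rw [mul_inv]
    ring

end

theorem stRel_h_mul {K : Type*} [Field K] [Finite K] {G : Type*} [Group G] {X Y : K → G}
    (h : StRel X Y) {t u : K} (ht : t ≠ 0) (hu : u ≠ 0) :
    stH X Y (t * u) = stH X Y t * stH X Y u := by
  obtain ⟨φ, hU, hL⟩ := st_exists_hom h
  have key : ∀ s : K, stH X Y s = φ (stH sl2U sl2L s) := by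
    intro s
    unfold stH stW
    simp only [map_mul, map_inv, hU, hL]
  rw [key, key t, key u, hm_sl2 t u ht hu, map_mul]

end Cfsg.Agent.Helper99.SPHMUL
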