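import Mathlib
import Cfsg.Agent.Helper21.SPDefs

set_option autoImplicit false

namespace Cfsg.Agent.Helper99.SPQFORM

open Cfsg.Agent.Helper83 Cfsg.Agent.Helper21.SP

theorem q_alpha_zero {K : Type*} [Field K] {k : ℕ} {Γ : Type*} [Group Γ]
    {x : Fin (k + 3) → Fin (k + 3) → K → Γ}
    (hadd : ∀ r s, alpha x (r + s) = alpha x r * alpha x s) : alpha x 0 = 1 := by
  have e := hadd 0 0
  rw [add_zero] at e
  exact mul_eq_left.mp e.symm

theorem q_alpha_neg {K : Type*} [Field K] {k : ℕ} {Γ : Type*} [Group Γ]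
    {x : Fin (k + 3) → Fin (k + 3) → K → Γ}
    (hadd : ∀ r s, alpha x (r + s) = alpha x r * alpha x s) (r : Fin (k + 2) → K) :
    alpha x (-r) = (alpha x r)⁻¹ := by
  apply eq_inv_of_mul_eq_one_left
  rw [← hadd, neg_add_cancel, q_alpha_zero hadd]

theorem q_form {K : Type*} [Field K] {k : ℕ} {Γ : Type*} [Group Γ]
    {x : Fin (k + 3) → Fin (k + 3) → K → Γ}
    {π : Γ →* Matrix.SpecialLinearGroup (Fin (k + 3)) K}
    {ψ : Matrix.SpecialLinearGroup (Fin (k + 2)) K →* Γ}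
    (hc : Ctx x π ψ) (hl : Lay3 x π ψ) :
    ∀ q ∈ Qg x, ∃ (r : Fin (k + 2) → K) (g : Matrix.SpecialLinearGroup (Fin (k + 2)) K),
      q = alpha x r * ψ g := by
  intro q hq
  have h0 := q_alpha_zero hl.al_add
  unfold Qg at hq
  induction hq using Subgroup.closure_induction with
  | mem y hy =>
    obtain ⟨i, j, t, hij, hj0, rfl⟩ := hy
    obtain ⟨j', rfl⟩ := Fin.exists_succ_eq.mpr hj0
    rcases Fin.eq_zero_or_eq_succ i with rfl | ⟨i', rfl⟩
    · exact ⟨Pi.single j' t, 1, by rw [hl.al_single, map_one, mul_one]⟩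
    · have hne : i' ≠ j' := fun h => hij (by rw [h])
      exact ⟨0, tv i' j' t, by rw [h0, one_mul, hc.hψ i' j' hne t]⟩
  | one => exact ⟨0, 1, by rw [h0, map_one, mul_one]⟩
  | mul a b _ _ iha ihb =>
    obtain ⟨r, g, rfl⟩ := iha
    obtain ⟨r', g', rfl⟩ := ihb
    refine ⟨r + Matrix.vecMul r' ((g⁻¹ : Matrix.SpecialLinearGroup (Fin (k + 2)) K) :
      Matrix (Fin (k + 2)) (Fin (k + 2)) K), g * g', ?_⟩
    rw [hl.al_add, ← hl.conjA, map_mul]
    group
  | inv a _ iha =>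
    obtain ⟨r, g, rfl⟩ := iha
    refine ⟨Matrix.vecMul (-r) (((g⁻¹)⁻¹ : Matrix.SpecialLinearGroup (Fin (k + 2)) K) :
      Matrix (Fin (k + 2)) (Fin (k + 2)) K), g⁻¹, ?_⟩
    rw [← hl.conjA, q_alpha_neg hl.al_add, map_inv]
    group

theorem q_mem {K : Type*} [Field K] {k : ℕ} {Γ : Type*} [Group Γ]
    {x : Fin (k + 3) → Fin (k + 3) → K → Γ}
    {π : Γ →* Matrix.SpecialLinearGroup (Fin (k + 3)) K}
    {ψ : Matrix.SpecialLinearGroup (Fin (k + 2)) K →* Γ}
    (hc : Ctx x π ψ) (hl : Lay3 x π ψ) :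
    ∀ (r : Fin (k + 2) → K) (g : Matrix.SpecialLinearGroup (Fin (k + 2)) K),
      alpha x r * ψ g ∈ Qg x := by
  intro r g
  apply mul_mem
  · unfold alpha
    apply Subgroup.list_prod_mem
    intro y hy
    rw [List.mem_map] at hy
    obtain ⟨j, -, rfl⟩ := hy
    exact Subgroup.subset_closure
      ⟨0, Fin.succ j, r j, (Fin.succ_ne_zero j).symm, Fin.succ_ne_zero j, rfl⟩
  · refine Cfsg.Agent.Helper5.SL_transvection_induction
      (P := fun g : Matrix.SpecialLinearGroup (Fin (k + 2)) K => ψ g ∈ Qg x) ?_ ?_ g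
    · intro i j hij a
      have h := hc.hψ i j hij a
      rw [tv, dif_pos hij] at h
      rw [h]
      exact Subgroup.subset_closure
        ⟨Fin.succ i, Fin.succ j, a, (Fin.succ_injective _).ne hij, Fin.succ_ne_zero j, rfl⟩
    · intro A B hA hB
      rw [map_mul]
      exact mul_mem hA hB

end Cfsg.Agent.Helper99.SPQFORM
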