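import Mathlib
import Cfsg.Agent.Helper21.SPDefs

set_option autoImplicit false

namespace Cfsg.Agent.Helper99.SPRK1

open Cfsg.Agent.Helper83 Cfsg.Agent.Helper21.SP

theorem rk_of_wt {K : Type*} [Field K] {n : ℕ} (hn : 3 ≤ n) {Γ : Type*} [Group Γ]
    {x : Fin n → Fin n → K → Γ} (hx : StN x) (hw : WT x) (i j : Fin n) (hij : i ≠ j) :
    StRel (x i j) (x j i) := by
  obtain ⟨k, hki, hkj⟩ : ∃ k : Fin n, k ≠ i ∧ k ≠ j := by
    by_contra hcon
    push_neg at hcon
    have hsub : (Finset.univ : Finset (Fin n)) ⊆ {i, j} := by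
      intro k _
      by_cases hk : k = i
      · simp [hk]
      · simp [hcon k hk]
    have h1 := Finset.card_le_card hsub
    rw [Finset.card_univ, Fintype.card_fin, Finset.card_pair hij] at h1
    omega
  refine ⟨hx.add i j hij, hx.add j i hij.symm, ?_⟩
  intro t u ht
  have e0 := hx.rel i k j hki.symm hkj hij u 1
  rw [mul_one] at e0
  have e1 := hw.w1 i j k hij hki.symm hkj.symm t u ht
  have e4 := hw.w4 i j k hij hki.symm hkj.symm t 1 ht
  have e5 := hx.rel j k i hkj.symm hki hij.symm (-(t⁻¹ * u)) (t⁻¹ * 1)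
  change stW (x i j) (x j i) t * x i j u * (stW (x i j) (x j i) t)⁻¹ = _
  rw [← e0]
  have e6 : stW (x i j) (x j i) t * (x i k u * x k j 1 * (x i k u)⁻¹ * (x k j 1)⁻¹) *
      (stW (x i j) (x j i) t)⁻¹ =
      (stW (x i j) (x j i) t * x i k u * (stW (x i j) (x j i) t)⁻¹) *
      (stW (x i j) (x j i) t * x k j 1 * (stW (x i j) (x j i) t)⁻¹) *
      (stW (x i j) (x j i) t * x i k u * (stW (x i j) (x j i) t)⁻¹)⁻¹ *
      (stW (x i j) (x j i) t * x k j 1 * (stW (x i j) (x j i) t)⁻¹)⁻¹ := by group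
  rw [e6, e1, e4, e5]
  congr 1
  ring

end Cfsg.Agent.Helper99.SPRK1
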