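import Mathlib

set_option autoImplicit false

namespace Cfsg.Agent.Helper99

open Module

section JordanA

variable {F V : Type*} [Field F] [AddCommGroup V] [Module F V] [FiniteDimensional F V]

/-- rank-nullity for the restriction of a linear map to a submodule -/
theorem finrank_map_add_inf_ker (T : V →ₗ[F] V) (A : Submodule F V) :
    finrank F (A.map T) + finrank F (A ⊓ LinearMap.ker T : Submodule F V) = finrank F A := by
  have h := (T.domRestrict A).finrank_range_add_finrank_ker
  rw [LinearMap.range_domRestrict, LinearMap.ker_domRestrict] at h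
  have h2 : finrank F ((LinearMap.ker T).comap A.subtype) =
      finrank F (A ⊓ LinearMap.ker T : Submodule F V) := by
    have : (LinearMap.ker T).comap A.subtype = (A ⊓ LinearMap.ker T).comap A.subtype := by
      ext x; simp
    rw [this]
    exact (Submodule.comapSubtypeEquivOfLe inf_le_left).finrank_eq
  rw [← h2]; exact h

theorem kerPow_mono (T : V →ₗ[F] V) (k : ℕ) :
    LinearMap.ker (T ^ k) ≤ LinearMap.ker (T ^ (k + 1)) := by
  intro v hv
  rw [LinearMap.mem_ker] at hv ⊢
  rw [pow_succ', Module.End.mul_apply, hv, map_zero]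

/-- the sequence `k ↦ dim (X ∩ ker T^k)` is concave -/
theorem kerPow_concave (T : V →ₗ[F] V) (X : Submodule F V) (hX : ∀ v ∈ X, T v ∈ X) (k : ℕ) :
    finrank F (X ⊓ LinearMap.ker (T ^ k) : Submodule F V) +
      finrank F (X ⊓ LinearMap.ker (T ^ (k + 2)) : Submodule F V)
      ≤ 2 * finrank F (X ⊓ LinearMap.ker (T ^ (k + 1)) : Submodule F V) := by
  have hP1 : (X ⊓ LinearMap.ker (T ^ (k + 2))).map T ≤ X ⊓ LinearMap.ker (T ^ (k + 1)) := by
    rintro _ ⟨v, ⟨hvX, hv⟩, rfl⟩
    refine ⟨hX v hvX, ?_⟩
    rw [SetLike.mem_coe, LinearMap.mem_ker] at hv ⊢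
    rw [← hv, pow_succ (n := k + 1), Module.End.mul_apply]
  have hP2 : (X ⊓ LinearMap.ker (T ^ (k + 2))).map T ⊓ (X ⊓ LinearMap.ker (T ^ k)) ≤
      (X ⊓ LinearMap.ker (T ^ (k + 1))).map T := by
    rintro w ⟨⟨v, ⟨hvX, hv⟩, rfl⟩, ⟨_, hw⟩⟩
    refine ⟨v, ⟨hvX, ?_⟩, rfl⟩
    rw [SetLike.mem_coe, LinearMap.mem_ker] at hw ⊢
    rw [pow_succ, Module.End.mul_apply]; exact hw
  have hker1 : ∀ j, LinearMap.ker T ≤ LinearMap.ker (T ^ (j + 1)) := by
    intro j v hv
    rw [LinearMap.mem_ker] at hv ⊢
    rw [pow_succ, Module.End.mul_apply, hv, map_zero]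
  have hK : (X ⊓ LinearMap.ker (T ^ (k + 2))) ⊓ LinearMap.ker T =
      (X ⊓ LinearMap.ker (T ^ (k + 1))) ⊓ LinearMap.ker T := by
    rw [inf_assoc, inf_assoc, inf_eq_right.mpr (hker1 (k + 1)), inf_eq_right.mpr (hker1 k)]
  have r1 := finrank_map_add_inf_ker T (X ⊓ LinearMap.ker (T ^ (k + 2)))
  have r2 := finrank_map_add_inf_ker T (X ⊓ LinearMap.ker (T ^ (k + 1)))
  have s := Submodule.finrank_sup_add_finrank_inf_eq ((X ⊓ LinearMap.ker (T ^ (k + 2))).map T)
    (X ⊓ LinearMap.ker (T ^ k))
  have hsup : finrank F ((X ⊓ LinearMap.ker (T ^ (k + 2))).map T ⊔ (X ⊓ LinearMap.ker (T ^ k)) :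
      Submodule F V) ≤ finrank F (X ⊓ LinearMap.ker (T ^ (k + 1)) : Submodule F V) :=
    Submodule.finrank_mono (sup_le hP1 (inf_le_inf_left X (kerPow_mono T k)))
  have hinf := Submodule.finrank_mono hP2
  rw [hK] at r1
  omega

theorem pow_mem_of_invariant (T : V →ₗ[F] V) (X : Submodule F V) (hX : ∀ v ∈ X, T v ∈ X)
    (k : ℕ) : ∀ v ∈ X, (T ^ k) v ∈ X := by
  induction k with
  | zero => intro v hv; simpa using hv
  | succ k ih =>
    intro v hv
    rw [pow_succ, Module.End.mul_apply]
    exact ih _ (hX v hv)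

/-- kernel dimensions are additive over invariant complements -/
theorem kerPow_add (T : V →ₗ[F] V) (X Y : Submodule F V) (hXY : IsCompl X Y)
    (hX : ∀ v ∈ X, T v ∈ X) (hY : ∀ v ∈ Y, T v ∈ Y) (k : ℕ) :
    finrank F (LinearMap.ker (T ^ k)) =
      finrank F (X ⊓ LinearMap.ker (T ^ k) : Submodule F V) +
      finrank F (Y ⊓ LinearMap.ker (T ^ k) : Submodule F V) := by
  have hXk := pow_mem_of_invariant T X hX k
  have hYk := pow_mem_of_invariant T Y hY k
  have hsup : (X ⊓ LinearMap.ker (T ^ k)) ⊔ (Y ⊓ LinearMap.ker (T ^ k)) = LinearMap.ker (T ^ k) := by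
    apply le_antisymm (sup_le inf_le_right inf_le_right)
    intro v hv
    have hvtop : v ∈ X ⊔ Y := by rw [hXY.sup_eq_top]; exact Submodule.mem_top
    obtain ⟨x, hx, y, hy, rfl⟩ := Submodule.mem_sup.mp hvtop
    have hsum : (T ^ k) x + (T ^ k) y = 0 := by rw [← map_add]; exact hv
    have hx0 : (T ^ k) x = 0 := by
      have h1 : (T ^ k) x ∈ Y := by
        have : (T ^ k) x = -((T ^ k) y) := eq_neg_of_add_eq_zero_left hsum
        rw [this]; exact Y.neg_mem (hYk y hy)
      exact Submodule.disjoint_def.mp hXY.disjoint _ (hXk x hx) h1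
    have hy0 : (T ^ k) y = 0 := by rw [hx0, zero_add] at hsum; exact hsum
    exact Submodule.add_mem_sup ⟨hx, hx0⟩ ⟨hy, hy0⟩
  have hinf : (X ⊓ LinearMap.ker (T ^ k)) ⊓ (Y ⊓ LinearMap.ker (T ^ k)) = ⊥ := by
    rw [eq_bot_iff]
    intro v hv
    rw [Submodule.mem_bot]
    exact Submodule.disjoint_def.mp hXY.disjoint v hv.1.1 hv.2.1
  have s := Submodule.finrank_sup_add_finrank_inf_eq (X ⊓ LinearMap.ker (T ^ k))
    (Y ⊓ LinearMap.ker (T ^ k))
  rw [hsup, hinf, finrank_bot, add_zero] at s
  exact s

end JordanA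

theorem minsum_count (μ : Multiset ℕ) (k : ℕ) :
    μ.count (k + 1) + (μ.map (min k)).sum + (μ.map (min (k + 2))).sum =
      2 * (μ.map (min (k + 1))).sum := by
  induction μ using Multiset.induction_on with
  | empty => simp
  | cons b μ ih =>
    simp only [Multiset.map_cons, Multiset.sum_cons, Multiset.count_cons]
    split_ifs with h <;> omega

theorem minsum_top (μ : Multiset ℕ) (k : ℕ) (h : ∀ b ∈ μ, b ≤ k) :
    (μ.map (min k)).sum = μ.sum := by
  induction μ using Multiset.induction_on with
  | empty => simp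
  | cons b μ ih =>
    simp only [Multiset.map_cons, Multiset.sum_cons]
    rw [ih (fun c hc => h c (Multiset.mem_cons_of_mem hc))]
    have := h b (Multiset.mem_cons_self b μ)
    omega

theorem minsum_pred (μ : Multiset ℕ) (p : ℕ) (h : ∀ b ∈ μ, b ≤ p) (hp : 1 ≤ p) :
    (μ.map (min (p - 1))).sum + μ.count p = μ.sum := by
  induction μ using Multiset.induction_on with
  | empty => simp
  | cons b μ ih =>
    simp only [Multiset.map_cons, Multiset.sum_cons, Multiset.count_cons]
    have ih' := ih (fun c hc => h c (Multiset.mem_cons_of_mem hc))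
    have := h b (Multiset.mem_cons_self b μ)
    split_ifs with h' <;> omega

theorem minsum_one (μ : Multiset ℕ) (h : ∀ b ∈ μ, 1 ≤ b) :
    (μ.map (min 1)).sum = Multiset.card μ := by
  induction μ using Multiset.induction_on with
  | empty => simp
  | cons b μ ih =>
    simp only [Multiset.map_cons, Multiset.sum_cons, Multiset.card_cons]
    rw [ih (fun c hc => h c (Multiset.mem_cons_of_mem hc))]
    have := h b (Multiset.mem_cons_self b μ)
    omega

theorem all_one_of_card_eq_sum (μ : Multiset ℕ) (h : ∀ b ∈ μ, 1 ≤ b)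
    (hc : Multiset.card μ = μ.sum) : ∀ b ∈ μ, b = 1 := by
  induction μ using Multiset.induction_on with
  | empty => simp
  | cons c μ ih =>
    have h1 := h c (Multiset.mem_cons_self c μ)
    have h' : ∀ b ∈ μ, 1 ≤ b := fun b hb => h b (Multiset.mem_cons_of_mem hb)
    have h2 : Multiset.card μ ≤ μ.sum := by
      have := Multiset.card_nsmul_le_sum h'
      simpa using this
    rw [Multiset.card_cons, Multiset.sum_cons] at hc
    intro b hb
    rcases Multiset.mem_cons.mp hb with rfl | hb'
    · omega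
    · exact ih h' (by omega) b hb'

section JordanA2

variable {F V : Type*} [Field F] [AddCommGroup V] [Module F V] [FiniteDimensional F V]

/-- if `T` has Jordan type `μ` (encoded by the kernel dimensions of its powers) and `X` is an
invariant direct summand, then the Jordan type of `T` on `X` is a sub-multiset of `μ` -/
theorem exists_sub_partition (T : V →ₗ[F] V) (X Y : Submodule F V) (hXY : IsCompl X Y)
    (hX : ∀ v ∈ X, T v ∈ X) (hY : ∀ v ∈ Y, T v ∈ Y) (μ : Multiset ℕ) (m : ℕ)
    (hm : ∀ b ∈ μ, b ≤ m) (hV : finrank F V = μ.sum)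
    (hker : ∀ k, finrank F (LinearMap.ker (T ^ k)) = (μ.map (min k)).sum) :
    ∃ ν : Multiset ℕ, ν ≤ μ ∧ ν.sum = finrank F X := by
  classical
  set dX := fun k => finrank F (X ⊓ LinearMap.ker (T ^ k) : Submodule F V) with hdX
  set dY := fun k => finrank F (Y ⊓ LinearMap.ker (T ^ k) : Submodule F V) with hdY
  have hadd : ∀ k, (μ.map (min k)).sum = dX k + dY k := fun k => by
    rw [← hker]; exact kerPow_add T X Y hXY hX hY k
  have hcX : ∀ k, dX k + dX (k + 2) ≤ 2 * dX (k + 1) := kerPow_concave T X hX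
  have hcY : ∀ k, dY k + dY (k + 2) ≤ 2 * dY (k + 1) := kerPow_concave T Y hY
  have htop : ∀ k, m ≤ k → LinearMap.ker (T ^ k) = ⊤ := by
    intro k hk
    apply Submodule.eq_top_of_finrank_eq
    rw [hker, hV]
    exact minsum_top μ k (fun b hb => (hm b hb).trans hk)
  have hdXm : ∀ k, m ≤ k → dX k = finrank F X := by
    intro k hk
    simp only [dX]
    rw [htop k hk, inf_top_eq]
  have hdX0 : dX 0 = 0 := by
    simp only [dX]
    rw [pow_zero, Module.End.one_eq_id, LinearMap.ker_id, inf_bot_eq, finrank_bot]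
  let c : ℕ → ℕ := fun k => 2 * dX (k + 1) - dX k - dX (k + 2)
  have hc : ∀ k, c k + dX k + dX (k + 2) = 2 * dX (k + 1) := fun k => by
    have := hcX k
    simp only [c]
    omega
  refine ⟨∑ k ∈ Finset.range m, Multiset.replicate (c k) (k + 1), ?_, ?_⟩
  · rw [Multiset.le_iff_count]
    intro j
    rw [Multiset.count_sum']
    simp only [Multiset.count_replicate]
    rcases j with _ | j
    · simp
    · by_cases hj : j < m
      · rw [Finset.sum_eq_single j]
        · simp only [if_true]
          have h1 := minsum_count μ j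
          rw [hadd, hadd, hadd] at h1
          have h2 := hc j
          have h3 := hcY j
          omega
        · intro b _ hb
          rw [if_neg]
          omega
        · intro h
          exact absurd (Finset.mem_range.mpr hj) h
      · rw [Finset.sum_eq_zero]
        · exact Nat.zero_le _
        · intro k hk
          rw [Finset.mem_range] at hk
          rw [if_neg]
          omega
  · rw [Multiset.sum_sum]
    simp only [Multiset.sum_replicate, smul_eq_mul]
    have key : ∀ M, ∑ k ∈ Finset.range M, c k * (k + 1) + M * dX (M + 1) + dX 0 =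
        (M + 1) * dX M := by
      intro M
      induction M with
      | zero => simp
      | succ M ih =>
        rw [Finset.sum_range_succ]
        have := hc M
        nlinarith
    have h1 := key m
    rw [hdXm (m + 1) (by omega), hdXm m le_rfl, hdX0] at h1
    nlinarith

end JordanA2

end Cfsg.Agent.Helper99
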