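import Mathlib

set_option autoImplicit false

namespace Cfsg.Agent.Helper99

open Module

section JordanB

variable {F : Type*} [Field F] {B : Type*} [Fintype B] (L : B → ℕ)

/-- the block shift operator on functions on `Σ i, Fin (L i)` -/
def shiftMap : ((Σ i : B, Fin (L i)) → F) →ₗ[F] ((Σ i : B, Fin (L i)) → F) where
  toFun f := fun x => if h : x.2.val + 1 < L x.1 then f ⟨x.1, ⟨x.2.val + 1, h⟩⟩ else 0
  map_add' f g := by
    ext x
    simp only [Pi.add_apply]
    split_ifs <;> simp
  map_smul' c f := by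
    ext x
    simp only [Pi.smul_apply, RingHom.id_apply]
    split_ifs <;> simp

theorem shiftMap_apply (f : (Σ i : B, Fin (L i)) → F) (x : Σ i : B, Fin (L i)) :
    shiftMap L f x = if h : x.2.val + 1 < L x.1 then f ⟨x.1, ⟨x.2.val + 1, h⟩⟩ else 0 := rfl

theorem shiftMap_pow_apply (k : ℕ) (f : (Σ i : B, Fin (L i)) → F) (x : Σ i : B, Fin (L i)) :
    ((shiftMap L) ^ k) f x =
      if h : x.2.val + k < L x.1 then f ⟨x.1, ⟨x.2.val + k, h⟩⟩ else 0 := by
  induction k generalizing x with
  | zero =>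
    have h : x.2.val + 0 < L x.1 := by simp
    rw [dif_pos h]
    simp
  | succ k ih =>
    rw [pow_succ', Module.End.mul_apply, shiftMap_apply]
    by_cases h1 : x.2.val + 1 < L x.1
    · rw [dif_pos h1, ih]
      dsimp only
      by_cases h2 : x.2.val + (k + 1) < L x.1
      · have h3 : x.2.val + 1 + k < L x.1 := by omega
        rw [dif_pos h2, dif_pos h3]
        congr 3
        omega
      · have h3 : ¬ (x.2.val + 1 + k < L x.1) := by omega
        rw [dif_neg h2, dif_neg h3]
    · have h2 : ¬ (x.2.val + (k + 1) < L x.1) := by omega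
      rw [dif_neg h1, dif_neg h2]

theorem shiftMap_ker_pow (k : ℕ) :
    LinearMap.ker ((shiftMap (F := F) L) ^ k) =
      LinearMap.ker (LinearMap.funLeft F F
        (Subtype.val : {x : Σ i : B, Fin (L i) // k ≤ x.2.val} → (Σ i : B, Fin (L i)))) := by
  ext f
  simp only [LinearMap.mem_ker]
  constructor
  · intro hf
    ext ⟨⟨i, j⟩, hj⟩
    have hj' : k ≤ j.val := hj
    have h1 := congrFun hf ⟨i, ⟨j.val - k, by omega⟩⟩
    rw [shiftMap_pow_apply] at h1
    have h2 : j.val - k + k < L i := by have := j.2; omega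
    rw [dif_pos h2] at h1
    simp only [LinearMap.funLeft_apply, Pi.zero_apply] at h1 ⊢
    rw [← h1]
    congr 2
    ext
    simp only
    omega
  · intro hf
    ext x
    rw [shiftMap_pow_apply]
    by_cases h : x.2.val + k < L x.1
    · rw [dif_pos h]
      exact congrFun hf ⟨⟨x.1, ⟨x.2.val + k, h⟩⟩, by simp⟩
    · rw [dif_neg h]; rfl

theorem sum_range_ite_le (k m : ℕ) :
    ∑ j ∈ Finset.range m, (if k ≤ j then 1 else 0) = m - k := by
  induction m with
  | zero => simp
  | succ m ih =>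
    rw [Finset.sum_range_succ, ih]
    split_ifs <;> omega

theorem shiftMap_finrank_ker_pow (k : ℕ) :
    finrank F (LinearMap.ker ((shiftMap (F := F) L) ^ k)) = ∑ i, min k (L i) := by
  rw [shiftMap_ker_pow]
  have hsurj := LinearMap.funLeft_surjective_of_injective F F
    (Subtype.val : {x : Σ i : B, Fin (L i) // k ≤ x.2.val} → (Σ i : B, Fin (L i)))
    Subtype.val_injective
  have h := (LinearMap.funLeft F F
    (Subtype.val : {x : Σ i : B, Fin (L i) // k ≤ x.2.val} →
      (Σ i : B, Fin (L i)))).finrank_range_add_finrank_ker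
  rw [LinearMap.range_eq_top.mpr hsurj, finrank_top, Module.finrank_fintype_fun_eq_card,
    Module.finrank_fintype_fun_eq_card] at h
  have hc1 : Fintype.card (Σ i : B, Fin (L i)) = ∑ i, L i := by simp
  have hc2 : Fintype.card {x : Σ i : B, Fin (L i) // k ≤ x.2.val} = ∑ i, (L i - k) := by
    rw [Fintype.card_subtype, Finset.card_filter, Fintype.sum_sigma]
    apply Finset.sum_congr rfl
    intro i _
    rw [Fin.sum_univ_eq_sum_range (fun j => if k ≤ j then 1 else 0) (L i)]
    exact sum_range_ite_le k (L i)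
  rw [hc1, hc2] at h
  have h3 : ∑ i, (L i - k) + ∑ i, min k (L i) = ∑ i, L i := by
    rw [← Finset.sum_add_distrib]
    apply Finset.sum_congr rfl
    intros
    omega
  omega

theorem shiftMap_pow_eq_zero (m : ℕ) (hL : ∀ i, L i ≤ m) : (shiftMap (F := F) L) ^ m = 0 := by
  ext f x
  rw [shiftMap_pow_apply, dif_neg]
  · rfl
  · have := hL x.1
    omega

theorem exists_unipotent_of_blocks {p : ℕ} [Fact p.Prime] [CharP F p] (n : ℕ) (hn : 0 < n)
    (L : B → ℕ) (hL : ∑ i, L i = n) (hLp : ∀ i, L i ≤ p) :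
    ∃ x : Matrix.SpecialLinearGroup (Fin n) F, (x : Matrix (Fin n) (Fin n) F) ^ p = 1 ∧
      ∀ k, finrank F (LinearMap.ker
        ((Matrix.toLin' (x : Matrix (Fin n) (Fin n) F) - 1) ^ k)) = ∑ i, min k (L i) := by
  classical
  have : NeZero n := ⟨by omega⟩
  let e : (Σ i : B, Fin (L i)) ≃ Fin n := Fintype.equivFinOfCardEq (by simp [hL])
  let ψ : ((Σ i : B, Fin (L i)) → F) ≃ₗ[F] (Fin n → F) := LinearEquiv.funCongrLeft F F e.symm
  let NV : Module.End F (Fin n → F) := ψ.conjAlgEquiv F (shiftMap L)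
  let M : Matrix (Fin n) (Fin n) F := LinearMap.toMatrix' NV
  have hM : Matrix.toLin' M = NV := Matrix.toLin'_toMatrix' NV
  have hNVpow : ∀ k, NV ^ k = ψ.conjAlgEquiv F ((shiftMap L) ^ k) := fun k =>
    (map_pow _ _ k).symm
  have hMp : M ^ p = 0 := by
    apply Matrix.toLin'.injective
    rw [Matrix.toLin'_pow, hM, hNVpow, shiftMap_pow_eq_zero L p hLp, map_zero, map_zero]
  have hxp : (1 + M) ^ p = 1 := by
    rw [add_pow_char_of_commute p (Commute.one_left M), one_pow, hMp, add_zero]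
  have hdet : (1 + M).det = 1 := by
    have h1 : (1 + M).det ^ p = 1 := by rw [← Matrix.det_pow, hxp, Matrix.det_one]
    have h2 : ((1 + M).det - 1) ^ p = 0 := by rw [sub_pow_char, h1, one_pow, sub_self]
    exact sub_eq_zero.mp ((pow_eq_zero_iff (Fact.out : p.Prime).ne_zero).mp h2)
  refine ⟨⟨1 + M, hdet⟩, hxp, fun k => ?_⟩
  have hsub : Matrix.toLin' (1 + M) - 1 = NV := by
    rw [map_add, hM, Matrix.toLin'_one, ← Module.End.one_eq_id, add_sub_cancel_left]
  show finrank F (LinearMap.ker ((Matrix.toLin' (1 + M) - 1) ^ k)) = _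
  rw [hsub, hNVpow, ← shiftMap_finrank_ker_pow (F := F) L k]
  have hker : LinearMap.ker (ψ.conjAlgEquiv F ((shiftMap L) ^ k)) =
      (LinearMap.ker ((shiftMap (F := F) L) ^ k)).map ψ.toLinearMap := by
    ext v
    rw [LinearMap.mem_ker, LinearEquiv.conjAlgEquiv_apply, Submodule.mem_map]
    constructor
    · intro h
      refine ⟨ψ.symm v, ?_, by simp⟩
      rw [LinearMap.mem_ker]
      simpa using h
    · rintro ⟨w, hw, rfl⟩
      rw [LinearMap.mem_ker] at hw
      simp [hw]
  rw [hker, LinearEquiv.finrank_map_eq]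

end JordanB

theorem exists_unipotent_of_multiset {F : Type*} [Field F] {p : ℕ} [Fact p.Prime] [CharP F p]
    (n : ℕ) (hn : 0 < n) (μ : Multiset ℕ) (hμ : ∀ b ∈ μ, b ≤ p) (hsum : μ.sum = n) :
    ∃ x : Matrix.SpecialLinearGroup (Fin n) F, (x : Matrix (Fin n) (Fin n) F) ^ p = 1 ∧
      ∀ k, finrank F (LinearMap.ker
        ((Matrix.toLin' (x : Matrix (Fin n) (Fin n) F) - 1) ^ k)) = (μ.map (min k)).sum := by
  obtain ⟨x, hx, hk⟩ := exists_unipotent_of_blocks (F := F) (p := p) n hn
    (fun x : μ.ToType => (x : ℕ)) (by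
      show (Finset.univ.val.map (fun x : μ.ToType => (x : ℕ))).sum = n
      rw [Multiset.map_univ_coe, hsum]) (fun x => hμ _ (Multiset.coe_mem))
  refine ⟨x, hx, fun k => ?_⟩
  rw [hk, ← Multiset.map_univ_comp_coe μ (min k)]
  rfl

end Cfsg.Agent.Helper99
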