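import Mathlib
import Cfsg.Prelude.Def_GeometricClasses
import Cfsg.Agent.Helper90.SFRDefs
import Cfsg.Agent.Helper90.BGChain

set_option autoImplicit false

namespace Cfsg.Agent.Helper99

open Module Polynomial Cfsg.Agent.Helper90.SFR

section lin
variable {F : Type*} [Field F] {V : Type*} [AddCommGroup V] [Module F V] [FiniteDimensional F V]

theorem sfr_pow_apply (T : V →ₗ[F] V) (μ : F) (w : V) (h : T w = μ • w) (k : ℕ) :
    (T ^ k) w = μ ^ k • w := by
  induction k with
  | zero => simp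
  | succ k ih =>
    rw [pow_succ, Module.End.mul_apply, h, map_smul, ih, smul_smul, pow_succ, mul_comm]

/-- an eigenvector inside an invariant subspace on which a split polynomial of `T` vanishes. -/
theorem sfr_eigen_of_prod (T : V →ₗ[F] V) (Q : Submodule F V) (hQ : Q.map T ≤ Q) :
    ∀ s : Finset F, ∀ v ∈ Q, v ≠ 0 → aeval T (∏ μ ∈ s, (X - C μ)) v = 0 →
      ∃ μ : F, ∃ w ∈ Q, w ≠ 0 ∧ T w = μ • w := by
  classical
  intro s
  induction s using Finset.induction_on with
  | empty =>
    intro v _ hv0 h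
    simp at h
    exact absurd h hv0
  | insert μ₀ s hμ ih =>
    intro v hvQ hv0 h
    rw [Finset.prod_insert hμ, map_mul, Module.End.mul_apply] at h
    by_cases h1 : aeval T (∏ μ ∈ s, (X - C μ)) v = 0
    · exact ih v hvQ hv0 h1
    · refine ⟨μ₀, _, Cfsg.Agent.Helper90.BG.aeval_mem T Q hQ _ hvQ, h1, ?_⟩
      simp only [map_sub, aeval_X, aeval_C, LinearMap.sub_apply, Module.algebraMap_end_apply] at h
      exact sub_eq_zero.mp h

/-! ## PIECE DIAG (CALL S5965, helper90) -/
theorem diag_basis (T : V →ₗ[F] V) (r : ℕ) [Fact r.Prime] (hrF : (r : F) ≠ 0) (hT : T ^ r = 1)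
    (ζ : F) (hζ : ζ ^ r = 1) (hζ1 : ζ ≠ 1) (n : ℕ) (hn : finrank F V = n) :
    ∃ (b : Basis (Fin n) F V) (e : Fin n → ℕ), ∀ i, T (b i) = ζ ^ (e i) • b i := by
  classical
  have hrp : r.Prime := Fact.out
  haveI : NeZero r := ⟨hrp.ne_zero⟩
  have hprim : IsPrimitiveRoot ζ r := by
    rw [IsPrimitiveRoot.iff_orderOf]
    rcases (Nat.dvd_prime hrp).mp (orderOf_dvd_of_pow_eq_one hζ) with h | h
    · exact absurd (orderOf_eq_one_iff.mp h) hζ1
    · exact h
  have hss : Module.End.IsSemisimple T := by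
    apply Module.End.isSemisimple_of_squarefree_aeval_eq_zero (p := X ^ r - C (1 : F))
    · exact (Polynomial.separable_X_pow_sub_C (1 : F) hrF one_ne_zero).squarefree
    · simp [hT]
  have hpoly : (X ^ r - 1 : F[X]) = ∏ μ ∈ Polynomial.nthRootsFinset r (1 : F), (X - C μ) :=
    X_pow_sub_one_eq_prod hrp.pos hprim
  have hsup : ⨆ μ : F, Module.End.eigenspace T μ = ⊤ := by
    by_contra hne
    have hSinv : (⨆ μ : F, Module.End.eigenspace T μ) ∈ Module.End.invtSubmodule T := by
      rw [Module.End.mem_invtSubmodule]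
      refine iSup_le fun μ => ?_
      intro w hw
      rw [Submodule.mem_comap, Module.End.mem_eigenspace_iff.mp hw]
      exact Submodule.smul_mem _ μ (le_iSup (fun μ => Module.End.eigenspace T μ) μ hw)
    rw [Module.End.isSemisimple_iff] at hss
    obtain ⟨Q, hQ, hc⟩ := hss _ hSinv
    rw [Module.End.mem_invtSubmodule] at hQ
    have hQne : Q ≠ ⊥ := by
      rintro rfl
      apply hne
      have := hc.sup_eq_top
      rwa [sup_bot_eq] at this
    obtain ⟨q, hqQ, hq0⟩ := (Submodule.ne_bot_iff Q).mp hQne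
    have h0 : aeval T (∏ μ ∈ Polynomial.nthRootsFinset r (1 : F), (X - C μ)) q = 0 := by
      rw [← hpoly]
      simp [hT]
    obtain ⟨μ, w, hwQ, hw0, hw⟩ :=
      sfr_eigen_of_prod T Q (Submodule.map_le_iff_le_comap.mpr hQ) _ q hqQ hq0 h0
    have hwS : w ∈ ⨆ μ : F, Module.End.eigenspace T μ :=
      le_iSup (fun μ => Module.End.eigenspace T μ) μ (Module.End.mem_eigenspace_iff.mpr hw)
    have hmem : w ∈ (⨆ μ : F, Module.End.eigenspace T μ) ⊓ Q := ⟨hwS, hwQ⟩
    rw [hc.inf_eq_bot] at hmem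
    exact hw0 ((Submodule.mem_bot F).mp hmem)
  let eigenDecomp := DirectSum.isInternal_submodule_of_iSupIndep_of_iSup_eq_top
    (Module.End.eigenspaces_iSupIndep T) hsup
  let I := (ν : F) × Fin (finrank F (Module.End.eigenspace T ν))
  let v : Basis I F V := eigenDecomp.collectedBasis fun μ ↦ Module.finBasis F (Module.End.eigenspace T μ)
  haveI : Fintype I := FiniteDimensional.fintypeBasisIndex v
  have hTv : ∀ i : I, T (v i) = i.1 • v i := fun i =>
    Module.End.mem_eigenspace_iff.mp (eigenDecomp.collectedBasis_mem _ i)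
  have hcard : Fintype.card I = n := by rw [← hn, Module.finrank_eq_card_basis v]
  let eqv : I ≃ Fin n := Fintype.equivFinOfCardEq hcard
  have hb : ∀ i : Fin n, T ((v.reindex eqv) i) = (eqv.symm i).1 • (v.reindex eqv) i := by
    intro i
    rw [Basis.reindex_apply]
    exact hTv _
  have hμ : ∀ i : Fin n, ∃ e : ℕ, ζ ^ e = (eqv.symm i).1 := by
    intro i
    have h1 := sfr_pow_apply T _ _ (hb i) r
    rw [hT, Module.End.one_apply] at h1
    have h2 : ((eqv.symm i).1 ^ r - 1) • (v.reindex eqv) i = 0 := by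
      rw [sub_smul, one_smul, ← h1, sub_self]
    have h3 : (eqv.symm i).1 ^ r = 1 := by
      rcases smul_eq_zero.mp h2 with h | h
      · exact sub_eq_zero.mp h
      · exact absurd h ((v.reindex eqv).ne_zero i)
    obtain ⟨e, -, he⟩ := hprim.eq_pow_of_pow_eq_one h3
    exact ⟨e, he⟩
  choose e he using hμ
  exact ⟨v.reindex eqv, e, fun i => by rw [he i]; exact hb i⟩

end lin

end Cfsg.Agent.Helper99
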