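import Mathlib
import Cfsg.Prelude.Def_GeometricClasses
import Cfsg.Prelude.Def_Classical
import Cfsg.Agent.Helper99.SFRDIAG

/-!
# helper99: CALL S5981 piece EXD (`exc_diag`): a matrix with `x ^ r = 1` is diagonalisable with
eigenvalues powers of a primitive `r`-th root of unity.
-/

set_option autoImplicit false
open Matrix Polynomial

namespace Cfsg.Agent.Helper99.THEXD

variable {F : Type*} [Field F] [Fintype F]

/-- EXD -/
theorem exc_diag (r : ℕ) (hr : r.Prime) (hrF : (r : F) ≠ 0) {n : ℕ} (x : Matrix (Fin n) (Fin n) F)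
    (hx : x ^ r = 1) (ζ : F) (hζ : ζ ^ r = 1) (hζ1 : ζ ≠ 1) :
    ∃ (h : GL (Fin n) F) (e : Fin n → ℕ),
      x = (h : Matrix (Fin n) (Fin n) F) * Matrix.diagonal (fun i => ζ ^ e i) *
        ((h⁻¹ : GL (Fin n) F) : Matrix (Fin n) (Fin n) F) := by
  classical
  haveI : Fact r.Prime := ⟨hr⟩
  have hT : (Matrix.toLinAlgEquiv' x : (Fin n → F) →ₗ[F] (Fin n → F)) ^ r = 1 := by
    rw [← map_pow, hx, map_one]
  obtain ⟨b, e, hb⟩ := diag_basis (Matrix.toLinAlgEquiv' x) r hrF hT ζ hζ hζ1 n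
    (Module.finrank_fin_fun F)
  have hb' : ∀ i, x *ᵥ b i = ζ ^ e i • b i := by
    intro i
    rw [← hb i, Matrix.toLinAlgEquiv'_apply]
  let hM : Matrix (Fin n) (Fin n) F := (Pi.basisFun F (Fin n)).toMatrix b
  let hI : Matrix (Fin n) (Fin n) F := b.toMatrix (Pi.basisFun F (Fin n))
  have h1 : hM * hI = 1 := Module.Basis.toMatrix_mul_toMatrix_flip _ _
  have h2 : hI * hM = 1 := Module.Basis.toMatrix_mul_toMatrix_flip _ _
  have hMij : ∀ i j, hM i j = b j i := by
    intro i j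
    simp [hM, Module.Basis.toMatrix_apply]
  have hxM : x * hM = hM * Matrix.diagonal (fun i => ζ ^ e i) := by
    ext i j
    rw [Matrix.mul_diagonal, Matrix.mul_apply]
    have h3 := congrFun (hb' j) i
    simp only [Matrix.mulVec, dotProduct, Pi.smul_apply, smul_eq_mul] at h3
    simp only [hMij]
    rw [h3, mul_comm]
  refine ⟨⟨hM, hI, h1, h2⟩, e, ?_⟩
  show x = hM * Matrix.diagonal (fun i => ζ ^ e i) * hI
  rw [← hxM, mul_assoc, h1, mul_one]

end Cfsg.Agent.Helper99.THEXD
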