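import Mathlib
import Cfsg.Prelude.Def_GeometricClasses
import Cfsg.Prelude.Def_Classical
import Cfsg.Agent.Helper99.THEXD

/-!
# helper99: CALL S5981 piece INVSQ (`invol_diag`, double): an involutory matrix in odd
characteristic is diagonalisable with entries `±1`.
-/

set_option autoImplicit false
open Matrix Polynomial

namespace Cfsg.Agent.Helper99.THINVSQ

variable {F : Type*} [Field F] [Fintype F]

/-- INVSQ -/
theorem invol_diag (h2 : (2 : F) ≠ 0) {n : ℕ} (x : Matrix (Fin n) (Fin n) F) (hx : x * x = 1) :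
    ∃ (h : GL (Fin n) F) (ε : Fin n → F), (∀ i, ε i = 1 ∨ ε i = -1) ∧
      x = (h : Matrix (Fin n) (Fin n) F) * Matrix.diagonal ε *
        ((h⁻¹ : GL (Fin n) F) : Matrix (Fin n) (Fin n) F) := by
  have h2' : ((2 : ℕ) : F) ≠ 0 := by exact_mod_cast h2
  have hx2 : x ^ 2 = 1 := by rw [pow_two, hx]
  have hne : (-1 : F) ≠ 1 := by
    intro h
    apply h2
    have h3 : (2 : F) = 1 - (-1) := by ring
    rw [h3, h, sub_self]
  obtain ⟨h, e, he⟩ := Cfsg.Agent.Helper99.THEXD.exc_diag 2 Nat.prime_two h2' x hx2 (-1)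
    (by norm_num) hne
  exact ⟨h, fun i => (-1) ^ e i, fun i => neg_one_pow_eq_or F (e i), he⟩

end Cfsg.Agent.Helper99.THINVSQ
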