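import Mathlib
import Cfsg.Prelude.Def_GeometricClasses
import Cfsg.Agent.Helper90.SFRDefs

set_option autoImplicit false

namespace Cfsg.Agent.Helper99

open Module Polynomial Cfsg.Agent.Helper90.SFR

section lin
variable {F : Type*} [Field F] {V : Type*} [AddCommGroup V] [Module F V] [FiniteDimensional F V]

/-! ## PIECE RATSUM (CALL S5965, helper90) -/
theorem rat_sum (F₀ : Subfield F) (T : V →ₗ[F] V) (W W' : Submodule F V)
    (hW : ∀ v ∈ W, T v ∈ W) (hW' : ∀ v ∈ W', T v ∈ W') (hc : IsCompl W W')
    (h1 : IsRat F₀ (T.restrict hW)) (h2 : IsRat F₀ (T.restrict hW')) : IsRat F₀ T := by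
  obtain ⟨ι, hι, b, hb⟩ := h1
  obtain ⟨ι', hι', b', hb'⟩ := h2
  refine ⟨ι ⊕ ι', inferInstance, (b.prod b').map (Submodule.prodEquivOfIsCompl W W' hc), ?_⟩
  have key1 : ∀ (w : W) (j : ι ⊕ ι'),
      ((b.prod b').map (Submodule.prodEquivOfIsCompl W W' hc)).repr (w : V) j =
        Sum.elim (fun j => b.repr w j) (fun _ => 0) j := by
    intro w j
    rw [Basis.map_repr, LinearEquiv.trans_apply, Submodule.prodEquivOfIsCompl_symm_apply_left]
    rcases j with j | j
    · rw [Basis.prod_repr_inl]; rfl
    · rw [Basis.prod_repr_inr]; simp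
  have key2 : ∀ (w : W') (j : ι ⊕ ι'),
      ((b.prod b').map (Submodule.prodEquivOfIsCompl W W' hc)).repr (w : V) j =
        Sum.elim (fun _ => 0) (fun j => b'.repr w j) j := by
    intro w j
    rw [Basis.map_repr, LinearEquiv.trans_apply, Submodule.prodEquivOfIsCompl_symm_apply_right]
    rcases j with j | j
    · rw [Basis.prod_repr_inl]; simp
    · rw [Basis.prod_repr_inr]; rfl
  intro i j
  rcases i with i | i
  · have h1 : ((b.prod b').map (Submodule.prodEquivOfIsCompl W W' hc)) (Sum.inl i) =
        ((b i : W) : V) := by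
      rw [Basis.map_apply]
      simp [Basis.prod_apply, Submodule.coe_prodEquivOfIsCompl']
    have h2 : T ((b i : W) : V) = ((T.restrict hW (b i) : W) : V) := rfl
    rw [h1, h2, key1]
    rcases j with j | j
    · exact hb i j
    · exact zero_mem F₀
  · have h1 : ((b.prod b').map (Submodule.prodEquivOfIsCompl W W' hc)) (Sum.inr i) =
        ((b' i : W') : V) := by
      rw [Basis.map_apply]
      simp [Basis.prod_apply, Submodule.coe_prodEquivOfIsCompl']
    have h2 : T ((b' i : W') : V) = ((T.restrict hW' (b' i) : W') : V) := rfl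
    rw [h1, h2, key2]
    rcases j with j | j
    · exact zero_mem F₀
    · exact hb' i j

end lin

end Cfsg.Agent.Helper99
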