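import Mathlib
import Cfsg.Prelude.Def_GeometricClasses
import Cfsg.Agent.Helper71.T4Defs
import Cfsg.Agent.Helper96.T5Defs

/-!
# Helper99: PIECE GMB of CALL S5704 (helper96): `gm_conjU`, `gm_conjW`, `gm_heis`.
-/

set_option autoImplicit false
set_option linter.unusedVariables false
set_option linter.unusedSectionVars false
set_option linter.unusedSimpArgs false

namespace Cfsg.Agent.Helper99.T5GMB

open Matrix Cfsg Cfsg.Geo Cfsg.Agent.Helper71.T4 Cfsg.Agent.Helper96.T5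
open scoped Kronecker

section Gen

variable {F : Type*} [Field F] {n : ℕ}

/-- An alternating Gram matrix is skew-symmetric. -/
theorem gmb_transpose (J : Matrix (Fin n) (Fin n) F) (halt : ∀ x, bf J x x = 0) : Jᵀ = -J := by
  ext i j
  have h := bf_swap J halt (Pi.single j 1) (Pi.single i 1)
  simp only [bf, Matrix.mulVec_single_one, single_one_dotProduct, Matrix.col_apply] at h
  simpa using h

theorem gmb_adj_mul (J : Matrix (Fin n) (Fin n) F) (hJ : J.det ≠ 0)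
    (X Y : Matrix (Fin n) (Fin n) F) : adj J (X * Y) = adj J Y * adj J X := by
  have hu : IsUnit J.det := isUnit_iff_ne_zero.mpr hJ
  simp only [adj, Matrix.transpose_mul, Matrix.mul_assoc]
  rw [Matrix.mul_nonsing_inv_cancel_left _ _ hu]

theorem gmb_adj_rk (J : Matrix (Fin n) (Fin n) F) (halt : ∀ x, bf J x x = 0) (hJ : J.det ≠ 0)
    (x y : Fin n → F) : adj J (rk J x y) = - rk J y x := by
  have hu : IsUnit J.det := isUnit_iff_ne_zero.mpr hJ
  rw [adj, rk, rk, Matrix.transpose_vecMulVec, Matrix.mul_vecMulVec, Matrix.vecMulVec_mul,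
    Matrix.mulVec_mulVec, Matrix.nonsing_inv_mul _ hu, Matrix.one_mulVec,
    ← Matrix.mulVec_transpose, gmb_transpose J halt, Matrix.neg_mulVec]
  ext i j
  simp [Matrix.vecMulVec_apply]

theorem gmb_adj_one (J : Matrix (Fin n) (Fin n) F) (hJ : J.det ≠ 0) :
    adj J (1 : Matrix (Fin n) (Fin n) F) = 1 := by
  have hu : IsUnit J.det := isUnit_iff_ne_zero.mpr hJ
  rw [adj, Matrix.transpose_one, Matrix.mul_one, Matrix.nonsing_inv_mul _ hu]

theorem gmb_adj_add (J : Matrix (Fin n) (Fin n) F) (X Y : Matrix (Fin n) (Fin n) F) :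
    adj J (X + Y) = adj J X + adj J Y := by
  simp only [adj, Matrix.transpose_add, Matrix.mul_add, Matrix.add_mul]

theorem gmb_adj_smul (J : Matrix (Fin n) (Fin n) F) (c : F) (X : Matrix (Fin n) (Fin n) F) :
    adj J (c • X) = c • adj J X := by
  simp only [adj, Matrix.transpose_smul, Matrix.mul_smul, Matrix.smul_mul]

theorem gmb_adj_tv (J : Matrix (Fin n) (Fin n) F) (halt : ∀ x, bf J x x = 0) (hJ : J.det ≠ 0)
    (z : Fin n → F) (c : F) : adj J (tv J z c) = tv J z (-c) := by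
  rw [tv, tv, gmb_adj_add, gmb_adj_one J hJ, gmb_adj_smul, gmb_adj_rk J halt hJ]
  simp

theorem gmb_tv_mul_neg (J : Matrix (Fin n) (Fin n) F) (halt : ∀ x, bf J x x = 0)
    (z : Fin n → F) (c : F) : tv J z c * tv J z (-c) = 1 := by
  have h : rk J z z * rk J z z = 0 := by rw [rk_mul_rk, halt, zero_smul]
  have e : tv J z c * tv J z (-c)
      = 1 + (c • rk J z z + (-c) • rk J z z) + (c * (-c)) • (rk J z z * rk J z z) := by
    simp only [tv, mul_add, add_mul, mul_one, one_mul, Matrix.smul_mul, Matrix.mul_smul,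
      smul_smul]
    module
  rw [e, h, smul_zero, add_zero, ← add_smul, add_neg_cancel, zero_smul, add_zero]

theorem gmb_ext {A B : Matrix (Fin n) (Fin n) F} (h : ∀ v, A *ᵥ v = B *ᵥ v) : A = B := by
  ext i j
  have := congrFun (h (Pi.single j 1)) i
  simpa [Matrix.mulVec_single_one] using this

/-- Conjugating a rank one operator by a transvection. -/
theorem gmb_tv_conj_rk (J : Matrix (Fin n) (Fin n) F) (halt : ∀ x, bf J x x = 0)
    (z : Fin n → F) (c : F) (x y : Fin n → F) :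
    tv J z c * rk J x y * tv J z (-c) = rk J (tv J z c *ᵥ x) (tv J z c *ᵥ y) := by
  apply gmb_ext
  intro v
  rw [← Matrix.mulVec_mulVec, ← Matrix.mulVec_mulVec, rk_mulVec, rk_mulVec, Matrix.mulVec_smul]
  congr 1
  rw [tv_mulVec, tv_mulVec, bf_add_left, bf_add_right, bf_smul_left, bf_smul_right,
    bf_swap J halt z y]
  ring

end Gen

variable {F : Type*} [Field F] {a b : ℕ}
variable {J₁ : Matrix (Fin a) (Fin a) F} {J₂ : Matrix (Fin b) (Fin b) F}
  {Q : (Fin a × Fin b → F) → F}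

/-- PIECE GMB (1/3) -/
theorem gm_conjU (hT : TQ J₁ J₂ Q) (d w : Fin b → F) (u : Fin a → F) (c : F)
    (A S : Matrix (Fin a) (Fin a) F) :
    (tv J₁ u c ⊗ₖ (1 : Matrix (Fin b) (Fin b) F)) * Gm J₁ J₂ d w A S *
        (tv J₁ u (-c) ⊗ₖ (1 : Matrix (Fin b) (Fin b) F))
      = Gm J₁ J₂ d w (tv J₁ u c * A * tv J₁ u (-c)) (tv J₁ u c * S * tv J₁ u (-c)) := by
  have hadj : adj J₁ (tv J₁ u c * A * tv J₁ u (-c))
      = tv J₁ u c * adj J₁ A * tv J₁ u (-c) := by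
    rw [gmb_adj_mul J₁ hT.det₁, gmb_adj_mul J₁ hT.det₁, gmb_adj_tv J₁ hT.alt₁ hT.det₁,
      gmb_adj_tv J₁ hT.alt₁ hT.det₁, neg_neg, Matrix.mul_assoc]
  rw [Gm, Gm, hadj]
  simp only [mul_add, add_mul, mul_one, ← Matrix.mul_kronecker_mul, Matrix.one_mul,
    Matrix.mul_one, gmb_tv_mul_neg J₁ hT.alt₁, Matrix.one_kronecker_one]

/-- PIECE GMB (2/3) -/
theorem gm_conjW (hT : TQ J₁ J₂ Q) (d w w' : Fin b → F) (hwd : bf J₂ w d = 0)
    (hwd' : bf J₂ w' d = 0) (hww : bf J₂ w w' ≠ 0) (A S : Matrix (Fin a) (Fin a) F) :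
    ((1 : Matrix (Fin a) (Fin a) F) ⊗ₖ tv J₂ (w - w') (bf J₂ w w')⁻¹) * Gm J₁ J₂ d w A S *
        ((1 : Matrix (Fin a) (Fin a) F) ⊗ₖ tv J₂ (w - w') (-(bf J₂ w w')⁻¹))
      = Gm J₁ J₂ d w' A S := by
  have hd : tv J₂ (w - w') (bf J₂ w w')⁻¹ *ᵥ d = d := by
    rw [tv_mulVec, bf_sub_right, bf_swap J₂ hT.alt₂ d w, bf_swap J₂ hT.alt₂ d w', hwd, hwd']
    simp
  have hw : tv J₂ (w - w') (bf J₂ w w')⁻¹ *ᵥ w = w' := by
    rw [tv_mulVec, bf_sub_right, hT.alt₂ w, zero_sub, mul_neg, inv_mul_cancel₀ hww]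
    simp
  have h1 := gmb_tv_conj_rk J₂ hT.alt₂ (w - w') (bf J₂ w w')⁻¹ w d
  have h2 := gmb_tv_conj_rk J₂ hT.alt₂ (w - w') (bf J₂ w w')⁻¹ d w
  have h3 := gmb_tv_conj_rk J₂ hT.alt₂ (w - w') (bf J₂ w w')⁻¹ d d
  rw [hd, hw] at h1 h2
  rw [hd] at h3
  rw [Gm, Gm]
  simp only [mul_add, add_mul, mul_one, ← Matrix.mul_kronecker_mul, Matrix.one_mul,
    Matrix.mul_one, gmb_tv_mul_neg J₂ hT.alt₂, Matrix.one_kronecker_one, h1, h2, h3]

theorem gmb_rk_add_left (J : Matrix (Fin b) (Fin b) F) (x x' y : Fin b → F) :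
    rk J (x + x') y = rk J x y + rk J x' y := by
  simp only [rk, Matrix.add_vecMulVec]

theorem gmb_rk_add_right (J : Matrix (Fin b) (Fin b) F) (x y y' : Fin b → F) :
    rk J x (y + y') = rk J x y + rk J x y' := by
  simp only [rk, Matrix.mulVec_add, Matrix.vecMulVec_add]

theorem gmb_rk_smul_left (J : Matrix (Fin b) (Fin b) F) (c : F) (x y : Fin b → F) :
    rk J (c • x) y = c • rk J x y := by
  simp only [rk, Matrix.smul_vecMulVec]

theorem gmb_rk_smul_right (J : Matrix (Fin b) (Fin b) F) (c : F) (x y : Fin b → F) :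
    rk J x (c • y) = c • rk J x y := by
  simp only [rk, Matrix.mulVec_smul, Matrix.vecMulVec_smul]

/-- PIECE GMB (3/3) -/
theorem gm_heis (hT : TQ J₁ J₂ Q) (d w : Fin b → F) (hwd : bf J₂ w d = 0) (c s : F) :
    Gm J₁ J₂ d w (c • (1 : Matrix (Fin a) (Fin a) F)) (s • (1 : Matrix (Fin a) (Fin a) F))
      = ((1 : Matrix (Fin a) (Fin a) F) ⊗ₖ tv J₂ (d + c • w) 1) *
        ((1 : Matrix (Fin a) (Fin a) F) ⊗ₖ tv J₂ w (-c ^ 2)) *
        ((1 : Matrix (Fin a) (Fin a) F) ⊗ₖ tv J₂ d (s - 1)) := by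
  have hdw : bf J₂ d w = 0 := by rw [bf_swap J₂ hT.alt₂, hwd, neg_zero]
  have hdd := hT.alt₂ d
  have hw := hT.alt₂ w
  have e1 : rk J₂ d d * rk J₂ d d = 0 := by rw [rk_mul_rk, hdd, zero_smul]
  have e2 : rk J₂ d d * rk J₂ d w = 0 := by rw [rk_mul_rk, hdd, zero_smul]
  have e3 : rk J₂ d d * rk J₂ w d = 0 := by rw [rk_mul_rk, hwd, zero_smul]
  have e4 : rk J₂ d d * rk J₂ w w = 0 := by rw [rk_mul_rk, hwd, zero_smul]
  have e5 : rk J₂ d w * rk J₂ d d = 0 := by rw [rk_mul_rk, hdw, zero_smul]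
  have e6 : rk J₂ d w * rk J₂ d w = 0 := by rw [rk_mul_rk, hdw, zero_smul]
  have e7 : rk J₂ d w * rk J₂ w d = 0 := by rw [rk_mul_rk, hw, zero_smul]
  have e8 : rk J₂ d w * rk J₂ w w = 0 := by rw [rk_mul_rk, hw, zero_smul]
  have e9 : rk J₂ w d * rk J₂ d d = 0 := by rw [rk_mul_rk, hdd, zero_smul]
  have e10 : rk J₂ w d * rk J₂ d w = 0 := by rw [rk_mul_rk, hdd, zero_smul]
  have e11 : rk J₂ w d * rk J₂ w d = 0 := by rw [rk_mul_rk, hwd, zero_smul]
  have e12 : rk J₂ w d * rk J₂ w w = 0 := by rw [rk_mul_rk, hwd, zero_smul]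
  have e13 : rk J₂ w w * rk J₂ d d = 0 := by rw [rk_mul_rk, hdw, zero_smul]
  have e14 : rk J₂ w w * rk J₂ d w = 0 := by rw [rk_mul_rk, hdw, zero_smul]
  have e15 : rk J₂ w w * rk J₂ w d = 0 := by rw [rk_mul_rk, hw, zero_smul]
  have e16 : rk J₂ w w * rk J₂ w w = 0 := by rw [rk_mul_rk, hw, zero_smul]
  have key : tv J₂ (d + c • w) 1 * tv J₂ w (-c ^ 2) * tv J₂ d (s - 1)
      = 1 + c • rk J₂ w d + c • rk J₂ d w + s • rk J₂ d d := by
    simp only [tv, gmb_rk_add_left, gmb_rk_add_right, gmb_rk_smul_left, gmb_rk_smul_right,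
      mul_add, add_mul, mul_one, one_mul, Matrix.smul_mul, Matrix.mul_smul, smul_add,
      e1, e2, e3, e4, e5, e6, e7, e8, e9, e10, e11, e12, e13, e14, e15, e16, smul_zero, add_zero,
      zero_add, one_smul]
    module
  have hadj : adj J₁ (c • (1 : Matrix (Fin a) (Fin a) F)) = c • 1 := by
    rw [gmb_adj_smul, gmb_adj_one J₁ hT.det₁]
  rw [Gm, hadj, ← Matrix.mul_kronecker_mul, ← Matrix.mul_kronecker_mul, Matrix.one_mul,
    Matrix.one_mul, key]
  simp only [Matrix.kronecker_add, Matrix.smul_kronecker, Matrix.kronecker_smul,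
    Matrix.one_kronecker_one]

end Cfsg.Agent.Helper99.T5GMB
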