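import Mathlib
import Cfsg.Agent.Helper71.SQMain
import Cfsg.Agent.Helper71.SGDefs

/-!
# CALL S5666 (helper71), piece LG: the fixed-space lemma `lemG`.
-/

set_option autoImplicit false
set_option linter.unusedVariables false

namespace Cfsg.Agent.Helper99.SGLG

open Matrix Cfsg.Agent.Helper71.T4 Cfsg.Agent.Helper71.SO Cfsg.Agent.Helper71.SQ
open Cfsg.Agent.Helper71.SG
open scoped Kronecker

variable {F : Type*} [Field F] {m n : ℕ}

/-- The contraction `v ↦ (j ↦ ∑ i, (J a) i * v (i, j))`. -/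
def sglgF (J : Matrix (Fin m) (Fin m) F) (a : Fin m → F) :
    (Fin m × Fin n → F) →ₗ[F] (Fin n → F) where
  toFun v j := ∑ i, (J *ᵥ a) i * v (i, j)
  map_add' v w := by
    funext j
    simp only [Pi.add_apply, mul_add, Finset.sum_add_distrib]
  map_smul' c v := by
    funext j
    simp only [Pi.smul_apply, smul_eq_mul, RingHom.id_apply, Finset.mul_sum]
    refine Finset.sum_congr rfl fun i _ => ?_
    ring

theorem sglgF_apply (J : Matrix (Fin m) (Fin m) F) (a : Fin m → F) (v : Fin m × Fin n → F)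
    (j : Fin n) : sglgF J a v j = ∑ i, (J *ᵥ a) i * v (i, j) := rfl

theorem sglg_pt_zero (a : Fin m → F) : pt a (0 : Fin n → F) = 0 := by
  funext p
  simp [pt]

theorem sglg_tac (J : Matrix (Fin m) (Fin m) F) (a : Fin m → F) (v : Fin m × Fin n → F) :
    (Tac J a 1 ⊗ₖ (1 : Matrix (Fin n) (Fin n) F)) *ᵥ v = v + pt a (sglgF J a v) := by
  classical
  funext p
  obtain ⟨i, j⟩ := p
  simp only [Matrix.mulVec, dotProduct, Fintype.sum_prod_type, Matrix.kroneckerMap_apply, Tac,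
    Matrix.add_apply, Matrix.smul_apply, Matrix.vecMulVec_apply, Matrix.one_apply, Pi.add_apply,
    pt, sglgF_apply, one_smul, smul_eq_mul]
  have h1 : ∀ i' : Fin m, (∑ j' : Fin n,
      ((if i = i' then (1 : F) else 0) + a i * (J *ᵥ a) i') * (if j = j' then (1 : F) else 0)
        * v (i', j'))
      = ((if i = i' then (1 : F) else 0) + a i * (J *ᵥ a) i') * v (i', j) := by
    intro i'
    rw [Finset.sum_eq_single j]
    · simp
    · intro j' _ hj'
      simp [Ne.symm hj']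
    · intro h
      exact absurd (Finset.mem_univ j) h
  simp only [Matrix.mulVec, dotProduct] at h1
  rw [Finset.sum_congr rfl fun i' _ => h1 i']
  simp only [add_mul, Finset.sum_add_distrib, ite_mul, one_mul, zero_mul, Finset.sum_ite_eq,
    Finset.mem_univ, if_true]
  congr 1
  rw [Finset.mul_sum]
  refine Finset.sum_congr rfl fun x _ => ?_
  ring

theorem sglgF_pt (J : Matrix (Fin m) (Fin m) F) (a x : Fin m → F) (s : Fin n → F) :
    sglgF J a (pt x s) = ((J *ᵥ a) ⬝ᵥ x) • s := by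
  funext j
  simp only [sglgF_apply, pt, Pi.smul_apply, smul_eq_mul, dotProduct, Finset.sum_mul, mul_assoc]

theorem sglg_inj (J : Matrix (Fin m) (Fin m) F) (hdetJ : J.det ≠ 0) (x y : Fin m → F)
    (h : J *ᵥ x = J *ᵥ y) : x = y := by
  have hu : IsUnit J.det := isUnit_iff_ne_zero.2 hdetJ
  have := congrArg (fun v => J⁻¹ *ᵥ v) h
  simpa [Matrix.mulVec_mulVec, Matrix.nonsing_inv_mul J hu] using this

theorem lemG (h2 : (2 : F) ≠ 0) (J : Matrix (Fin m) (Fin m) F) (hJ : Jᵀ = -J)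
    (hdetJ : J.det ≠ 0) (b a₁ : Fin m → F) (hb : b ≠ 0) (hind : ∀ c : F, a₁ ≠ c • b)
    (μ : Matrix (Fin m × Fin n) (Fin m × Fin n) F)
    (hfix : ∀ v : Fin m × Fin n → F,
      (Tac J b 1 ⊗ₖ (1 : Matrix (Fin n) (Fin n) F)) *ᵥ v = v →
      (Tac J a₁ 1 ⊗ₖ (1 : Matrix (Fin n) (Fin n) F)) *ᵥ (μ *ᵥ v) = μ *ᵥ v → μ *ᵥ v = v)
    (d : Fin m → F) (hdb : bl J d b = 0) (hda : bl J d a₁ = 0) (z : Fin n → F) :
    μ *ᵥ pt d z = pt d z := by
  classical
  -- dual vectors
  have hub : J *ᵥ b ≠ 0 := by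
    intro h
    apply hb
    apply sglg_inj J hdetJ
    rw [h, Matrix.mulVec_zero]
  obtain ⟨i₀, hi₀⟩ := Function.ne_iff.mp hub
  have hi₀' : (J *ᵥ b) i₀ ≠ 0 := by simpa using hi₀
  have hy : ∃ y : Fin m → F, (J *ᵥ b) ⬝ᵥ y = 0 ∧ (J *ᵥ a₁) ⬝ᵥ y ≠ 0 := by
    by_contra hcon
    push_neg at hcon
    apply hind ((J *ᵥ a₁) i₀ / (J *ᵥ b) i₀)
    apply sglg_inj J hdetJ
    rw [Matrix.mulVec_smul]
    funext k
    have hk := hcon (Pi.single k 1 - ((J *ᵥ b) k / (J *ᵥ b) i₀) • Pi.single i₀ 1) (by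
      rw [dotProduct_sub, dotProduct_smul, dotProduct_single, dotProduct_single, smul_eq_mul,
        mul_one, mul_one]
      field_simp
      ring)
    rw [dotProduct_sub, dotProduct_smul, dotProduct_single, dotProduct_single, smul_eq_mul,
      mul_one, mul_one] at hk
    rw [Pi.smul_apply, smul_eq_mul]
    field_simp
    field_simp at hk
    linear_combination hk
  obtain ⟨y, hy1, hy2⟩ := hy
  set φ : (Fin m × Fin n → F) →ₗ[F] (Fin n → F) × (Fin n → F) :=
    (sglgF J b).prod (sglgF J a₁) with hφ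
  set ψ : (Fin m × Fin n → F) →ₗ[F] (Fin n → F) × (Fin n → F) :=
    (sglgF J b).prod ((sglgF J a₁).comp (Matrix.mulVecLin μ)) with hψ
  have hφv : ∀ v, φ v = (sglgF J b v, sglgF J a₁ v) := fun v => rfl
  have hψv : ∀ v, ψ v = (sglgF J b v, sglgF J a₁ (μ *ᵥ v)) := fun v => rfl
  have hle : LinearMap.ker ψ ≤ LinearMap.ker φ := by
    intro v hv
    rw [LinearMap.mem_ker] at hv ⊢
    rw [hψv] at hv
    have h1 : sglgF J b v = 0 := congrArg Prod.fst hv
    have h2' : sglgF J a₁ (μ *ᵥ v) = 0 := congrArg Prod.snd hv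
    have h3 : μ *ᵥ v = v := hfix v (by rw [sglg_tac, h1, sglg_pt_zero, add_zero])
      (by rw [sglg_tac, h2', sglg_pt_zero, add_zero])
    rw [h3] at h2'
    rw [hφv, h1, h2']
    rfl
  have hsurj : Function.Surjective φ := by
    rintro ⟨s, t⟩
    refine ⟨pt (Pi.single i₀ 1) (((J *ᵥ b) i₀)⁻¹ • s)
      + pt y (((J *ᵥ a₁) ⬝ᵥ y)⁻¹ • (t - ((J *ᵥ a₁) i₀ * ((J *ᵥ b) i₀)⁻¹) • s)), ?_⟩
    rw [hφv, map_add, map_add, sglgF_pt, sglgF_pt, sglgF_pt, sglgF_pt, hy1, dotProduct_single,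
      dotProduct_single, mul_one, mul_one, zero_smul, add_zero, smul_smul, smul_smul, smul_smul,
      mul_inv_cancel₀ hi₀', mul_inv_cancel₀ hy2, one_smul, one_smul]
    refine Prod.ext rfl ?_
    show ((J *ᵥ a₁) i₀ * ((J *ᵥ b) i₀)⁻¹) • s + (t - ((J *ᵥ a₁) i₀ * ((J *ᵥ b) i₀)⁻¹) • s) = t
    abel
  have hrank : Module.finrank F (LinearMap.ker φ) ≤ Module.finrank F (LinearMap.ker ψ) := by
    have e1 := LinearMap.finrank_range_add_finrank_ker φ
    have e2 := LinearMap.finrank_range_add_finrank_ker ψ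
    have e3 : Module.finrank F (LinearMap.range φ)
        = Module.finrank F ((Fin n → F) × (Fin n → F)) := by
      rw [LinearMap.range_eq_top.2 hsurj]
      exact finrank_top F _
    have e4 : Module.finrank F (LinearMap.range ψ)
        ≤ Module.finrank F ((Fin n → F) × (Fin n → F)) := Submodule.finrank_le _
    omega
  have heq : LinearMap.ker ψ = LinearMap.ker φ := Submodule.eq_of_le_of_finrank_le hle hrank
  have hmem : pt d z ∈ LinearMap.ker φ := by
    rw [LinearMap.mem_ker, hφv, sglgF_pt, sglgF_pt]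
    have e1 : (J *ᵥ b) ⬝ᵥ d = 0 := by
      rw [dotProduct_comm]
      exact hdb
    have e2 : (J *ᵥ a₁) ⬝ᵥ d = 0 := by
      rw [dotProduct_comm]
      exact hda
    rw [e1, e2, zero_smul]
    rfl
  rw [← heq, LinearMap.mem_ker, hψv] at hmem
  have h1 : sglgF J b (pt d z) = 0 := congrArg Prod.fst hmem
  have h2' : sglgF J a₁ (μ *ᵥ pt d z) = 0 := congrArg Prod.snd hmem
  exact hfix _ (by rw [sglg_tac, h1, sglg_pt_zero, add_zero])
    (by rw [sglg_tac, h2', sglg_pt_zero, add_zero])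

end Cfsg.Agent.Helper99.SGLG
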