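import Mathlib
import Cfsg.Agent.Helper71.SQMain
import Cfsg.Agent.Helper71.SGDefs

/-!
# CALL S5666 (helper71), piece SIM: a Kronecker product preserving `J ⊗ S` is a product of
similarities with inverse multipliers (needs `0 < m`, `0 < n`; the skeleton statement is false
for an empty index type).
-/

set_option autoImplicit false
set_option linter.unusedVariables false

namespace Cfsg.Agent.Helper99.SGSIM

open Matrix Cfsg.Agent.Helper71.T4 Cfsg.Agent.Helper71.SO Cfsg.Agent.Helper71.SQ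
open Cfsg.Agent.Helper71.SG
open scoped Kronecker

variable {F : Type*} [Field F] {m n : ℕ}

theorem sgsim_exists_ne (hm : 0 < m) (J : Matrix (Fin m) (Fin m) F) (hdetJ : J.det ≠ 0) :
    ∃ i i' : Fin m, J i i' ≠ 0 := by
  by_contra hcon
  push_neg at hcon
  have hJ0 : J = 0 := by
    ext i i'
    exact hcon i i'
  haveI : Nonempty (Fin m) := ⟨⟨0, hm⟩⟩
  exact hdetJ (by rw [hJ0]; exact Matrix.det_zero)

theorem kron_simil (hm : 0 < m) (hn : 0 < n) (J : Matrix (Fin m) (Fin m) F) (hdetJ : J.det ≠ 0)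
    (S : Matrix (Fin n) (Fin n) F) (hdetS : S.det ≠ 0)
    (A : Matrix (Fin m) (Fin m) F) (B : Matrix (Fin n) (Fin n) F)
    (hsp : IsSpG J S (A ⊗ₖ B)) :
    ∃ ν μ : F, ν * μ = 1 ∧ Aᵀ * J * A = ν • J ∧ Bᵀ * S * B = μ • S := by
  have hkey : (Aᵀ * J * A) ⊗ₖ (Bᵀ * S * B) = J ⊗ₖ S := by
    have h := hsp
    unfold IsSpG OmG at h
    rw [← Matrix.kroneckerMap_transpose, ← Matrix.mul_kronecker_mul, ← Matrix.mul_kronecker_mul]
      at h
    exact h
  have hent : ∀ (i i' : Fin m) (j j' : Fin n),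
      (Aᵀ * J * A) i i' * (Bᵀ * S * B) j j' = J i i' * S j j' := by
    intro i i' j j'
    have h := congrFun (congrFun hkey (i, j)) (i', j')
    simpa [Matrix.kroneckerMap_apply] using h
  obtain ⟨i₀, i₀', hJ0⟩ := sgsim_exists_ne hm J hdetJ
  obtain ⟨j₀, j₀', hS0⟩ := sgsim_exists_ne hn S hdetS
  set P := Aᵀ * J * A with hP
  set Q := Bᵀ * S * B with hQ
  have h00 : P i₀ i₀' * Q j₀ j₀' = J i₀ i₀' * S j₀ j₀' := hent i₀ i₀' j₀ j₀'
  have hP0 : P i₀ i₀' ≠ 0 := by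
    intro h
    rw [h, zero_mul] at h00
    exact mul_ne_zero hJ0 hS0 h00.symm
  have hQ0 : Q j₀ j₀' ≠ 0 := by
    intro h
    rw [h, mul_zero] at h00
    exact mul_ne_zero hJ0 hS0 h00.symm
  refine ⟨P i₀ i₀' / J i₀ i₀', Q j₀ j₀' / S j₀ j₀', ?_, ?_, ?_⟩
  · rw [div_mul_div_comm, h00]
    exact div_self (mul_ne_zero hJ0 hS0)
  · ext i i'
    rw [Matrix.smul_apply, smul_eq_mul]
    have h1 := hent i i' j₀ j₀'
    field_simp
    have : P i i' * J i₀ i₀' * (Q j₀ j₀' * S j₀ j₀') = P i₀ i₀' * J i i' * (Q j₀ j₀' * S j₀ j₀') := by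
      calc P i i' * J i₀ i₀' * (Q j₀ j₀' * S j₀ j₀')
          = (P i i' * Q j₀ j₀') * J i₀ i₀' * S j₀ j₀' := by ring
        _ = (J i i' * S j₀ j₀') * J i₀ i₀' * S j₀ j₀' := by rw [h1]
        _ = (J i₀ i₀' * S j₀ j₀') * J i i' * S j₀ j₀' := by ring
        _ = (P i₀ i₀' * Q j₀ j₀') * J i i' * S j₀ j₀' := by rw [h00]
        _ = P i₀ i₀' * J i i' * (Q j₀ j₀' * S j₀ j₀') := by ring
    exact mul_right_cancel₀ (mul_ne_zero hQ0 hS0) this
  · ext j j'
    rw [Matrix.smul_apply, smul_eq_mul]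
    have h1 := hent i₀ i₀' j j'
    field_simp
    have : Q j j' * S j₀ j₀' * (P i₀ i₀' * J i₀ i₀') = Q j₀ j₀' * S j j' * (P i₀ i₀' * J i₀ i₀') := by
      calc Q j j' * S j₀ j₀' * (P i₀ i₀' * J i₀ i₀')
          = (P i₀ i₀' * Q j j') * J i₀ i₀' * S j₀ j₀' := by ring
        _ = (J i₀ i₀' * S j j') * J i₀ i₀' * S j₀ j₀' := by rw [h1]
        _ = (J i₀ i₀' * S j₀ j₀') * J i₀ i₀' * S j j' := by ring
        _ = (P i₀ i₀' * Q j₀ j₀') * J i₀ i₀' * S j j' := by rw [h00]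
        _ = Q j₀ j₀' * S j j' * (P i₀ i₀' * J i₀ i₀') := by ring
    exact mul_right_cancel₀ (mul_ne_zero hP0 hJ0) this

end Cfsg.Agent.Helper99.SGSIM
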