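import Mathlib

set_option autoImplicit false

namespace Cfsg.Agent.Helper99

section blocks

variable {ι : Type*} [LinearOrder ι]

/-- Peeling step: a `π`-stable set of size `a * (t+1)` contains a set of size `a` that is either
`π`-invariant or disjoint from its image (the latter only when `t ≥ 1`). -/
theorem exists_block (π : ι → ι) (hπ : ∀ x, π (π x) = x) (a : ℕ) (ha : 0 < a) (t : ℕ)
    (X : Finset ι) (hX : ∀ x ∈ X, π x ∈ X) (hcard : X.card = a * (t + 1)) :
    ∃ S : Finset ι, S ⊆ X ∧ S.card = a ∧
      (S.image π = S ∨ (Disjoint S (S.image π) ∧ 1 ≤ t)) := by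
  classical
  set Fx := X.filter (fun x => π x = x) with hFx
  set R := X.filter (fun x => x < π x) with hR
  set R' := X.filter (fun x => π x < x) with hR'
  have hπinj : Function.Injective π := fun x y h => by rw [← hπ x, ← hπ y, h]
  have hRR' : R.image π = R' := by
    ext y
    simp only [Finset.mem_image, hR, hR', Finset.mem_filter]
    constructor
    · rintro ⟨x, ⟨hxX, hx⟩, rfl⟩
      exact ⟨hX x hxX, by rw [hπ]; exact hx⟩
    · rintro ⟨hyX, hy⟩
      exact ⟨π y, ⟨hX y hyX, by rw [hπ]; exact hy⟩, hπ y⟩
  have hcR' : R'.card = R.card := by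
    rw [← hRR', Finset.card_image_of_injective _ hπinj]
  have hdFR : Disjoint Fx R := by
    rw [Finset.disjoint_left]
    intro x hx1 hx2
    simp only [hFx, hR, Finset.mem_filter] at hx1 hx2
    rw [hx1.2] at hx2
    exact lt_irrefl _ hx2.2
  have hdFR' : Disjoint Fx R' := by
    rw [Finset.disjoint_left]
    intro x hx1 hx2
    simp only [hFx, hR', Finset.mem_filter] at hx1 hx2
    rw [hx1.2] at hx2
    exact lt_irrefl _ hx2.2
  have hdRR' : Disjoint R R' := by
    rw [Finset.disjoint_left]
    intro x hx1 hx2
    simp only [hR, hR', Finset.mem_filter] at hx1 hx2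
    exact lt_asymm hx1.2 hx2.2
  have hXeq : X = Fx ∪ R ∪ R' := by
    ext x
    simp only [hFx, hR, hR', Finset.mem_union, Finset.mem_filter]
    constructor
    · intro hx
      rcases lt_trichotomy x (π x) with h | h | h
      · exact Or.inl (Or.inr ⟨hx, h⟩)
      · exact Or.inl (Or.inl ⟨hx, h.symm⟩)
      · exact Or.inr ⟨hx, h⟩
    · rintro ((h | h) | h) <;> exact h.1
  have hcX : X.card = Fx.card + 2 * R.card := by
    conv_lhs => rw [hXeq]
    rw [Finset.card_union_of_disjoint (Finset.disjoint_union_left.mpr ⟨hdFR', hdRR'⟩),
      Finset.card_union_of_disjoint hdFR, hcR']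
    ring
  have hFxX : Fx ⊆ X := Finset.filter_subset _ _
  have hRX : R ⊆ X := Finset.filter_subset _ _
  by_cases hcase : Fx.card = 0 ∧ a % 2 = 1
  · -- swapped block
    obtain ⟨hF0, hodd⟩ := hcase
    have h2 : a * (t + 1) = 2 * R.card := by rw [← hcard, hcX, hF0, zero_add]
    have ht1 : 1 ≤ t := by
      by_contra hlt
      have ht0 : t = 0 := by omega
      rw [ht0] at h2
      omega
    have haR : a ≤ R.card := by
      have : a * 2 ≤ a * (t + 1) := Nat.mul_le_mul_left a (by omega)
      omega
    obtain ⟨S, hSR, hScard⟩ := Finset.exists_subset_card_eq haR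
    refine ⟨S, hSR.trans hRX, hScard, Or.inr ⟨?_, ht1⟩⟩
    rw [Finset.disjoint_left]
    intro x hx1 hx2
    have hxR := hSR hx1
    have hxR' : x ∈ R' := by
      rw [← hRR']
      exact Finset.image_subset_image hSR hx2
    exact Finset.disjoint_left.mp hdRR' hxR hxR'
  · -- invariant block
    set α := min R.card (a / 2) with hα
    have hαR : α ≤ R.card := min_le_left _ _
    have hβ : a - 2 * α ≤ Fx.card := by
      rcases le_total R.card (a / 2) with h | h
      · have : α = R.card := min_eq_left h
        rw [this]
        have : a ≤ a * (t + 1) := Nat.le_mul_of_pos_right a (Nat.succ_pos t)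
        omega
      · have hα' : α = a / 2 := min_eq_right h
        rw [hα']
        by_cases hF0 : Fx.card = 0
        · have : a % 2 ≠ 1 := fun h1 => hcase ⟨hF0, h1⟩
          omega
        · omega
    have h2α : 2 * α ≤ a := by
      have : α ≤ a / 2 := min_le_right _ _
      omega
    obtain ⟨A, hAR, hAcard⟩ := Finset.exists_subset_card_eq hαR
    obtain ⟨Bf, hBF, hBcard⟩ := Finset.exists_subset_card_eq hβ
    have hAim : A.image π ⊆ R' := by rw [← hRR']; exact Finset.image_subset_image hAR
    have hd1 : Disjoint A (A.image π) := Finset.disjoint_of_subset_left hAR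
      (Finset.disjoint_of_subset_right hAim hdRR')
    have hd2 : Disjoint (A ∪ A.image π) Bf := by
      rw [Finset.disjoint_union_left]
      exact ⟨Finset.disjoint_of_subset_left hAR (Finset.disjoint_of_subset_right hBF hdFR.symm),
        Finset.disjoint_of_subset_left hAim (Finset.disjoint_of_subset_right hBF hdFR'.symm)⟩
    refine ⟨A ∪ A.image π ∪ Bf, ?_, ?_, Or.inl ?_⟩
    · intro x hx
      simp only [Finset.mem_union] at hx
      rcases hx with (hx | hx) | hx
      · exact hRX (hAR hx)
      · have := hAim hx
        rw [hR'] at this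
        exact (Finset.mem_filter.mp this).1
      · exact hFxX (hBF hx)
    · rw [Finset.card_union_of_disjoint hd2, Finset.card_union_of_disjoint hd1,
        Finset.card_image_of_injective _ hπinj, hAcard, hBcard]
      omega
    · have hBfix : Bf.image π = Bf := by
        ext y
        simp only [Finset.mem_image]
        constructor
        · rintro ⟨x, hx, rfl⟩
          have := hBF hx
          rw [hFx] at this
          rw [(Finset.mem_filter.mp this).2]
          exact hx
        · intro hy
          have := hBF hy
          rw [hFx] at this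
          exact ⟨y, hy, (Finset.mem_filter.mp this).2⟩
      have hAA : (A.image π).image π = A := by
        rw [Finset.image_image]
        have : (π ∘ π) = id := funext hπ
        rw [this, Finset.image_id]
      rw [Finset.image_union, Finset.image_union, hAA, hBfix, Finset.union_comm (A.image π) A]

/-- Partition a finite set with an involution into `t` blocks of size `a` permuted by the involution. -/
theorem exists_blocks (π : ι → ι) (hπ : ∀ x, π (π x) = x) (a : ℕ) (ha : 0 < a) :
    ∀ (t : ℕ) (X : Finset ι), (∀ x ∈ X, π x ∈ X) → X.card = a * t →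
    ∃ B : Fin t → Finset ι, (∀ k, (B k).card = a) ∧ (∀ k, B k ⊆ X) ∧
      (∀ k k', k ≠ k' → Disjoint (B k) (B k')) ∧ (∀ x ∈ X, ∃ k, x ∈ B k) ∧
      (∀ k, ∃ k', (B k).image π = B k') := by
  classical
  have hπinj : Function.Injective π := fun x y h => by rw [← hπ x, ← hπ y, h]
  intro t
  induction t using Nat.strong_induction_on with
  | _ t ih =>
  intro X hX hcard
  rcases t with _ | t
  · refine ⟨Fin.elim0, fun k => k.elim0, fun k => k.elim0, fun k => k.elim0, ?_, fun k => k.elim0⟩
    intro x hx
    rw [mul_zero, Finset.card_eq_zero] at hcard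
    rw [hcard] at hx
    exact absurd hx (Finset.notMem_empty x)
  · obtain ⟨S, hSX, hScard, hS⟩ := exists_block π hπ a ha t X hX hcard
    rcases hS with hinv | ⟨hdisj, ht1⟩
    · -- invariant block
      have hX' : ∀ x ∈ X \ S, π x ∈ X \ S := by
        intro x hx
        rw [Finset.mem_sdiff] at hx ⊢
        refine ⟨hX x hx.1, fun h => hx.2 ?_⟩
        have : π (π x) ∈ S.image π := Finset.mem_image_of_mem π h
        rwa [hπ, hinv] at this
      have hcard' : (X \ S).card = a * t := by
        rw [Finset.card_sdiff_of_subset hSX, hcard, hScard]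
        rw [Nat.mul_succ]; omega
      obtain ⟨B', hB1, hB2, hB3, hB4, hB5⟩ := ih t (Nat.lt_succ_self t) (X \ S) hX' hcard'
      refine ⟨Fin.cons S B', ?_, ?_, ?_, ?_, ?_⟩
      · intro k
        refine Fin.cases ?_ (fun j => ?_) k
        · simpa using hScard
        · simpa using hB1 j
      · intro k
        refine Fin.cases ?_ (fun j => ?_) k
        · simpa using hSX
        · simpa using (hB2 j).trans Finset.sdiff_subset
      · intro k k'
        refine Fin.cases ?_ (fun j => ?_) k <;> refine Fin.cases ?_ (fun j' => ?_) k'
        · intro h; exact absurd rfl h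
        · intro _
          simp only [Fin.cons_zero, Fin.cons_succ]
          exact Finset.disjoint_of_subset_right (hB2 j') Finset.disjoint_sdiff
        · intro _
          simp only [Fin.cons_zero, Fin.cons_succ]
          exact Finset.disjoint_of_subset_left (hB2 j) Finset.sdiff_disjoint
        · intro h
          simp only [Fin.cons_succ]
          exact hB3 j j' (fun h' => h (by rw [h']))
      · intro x hx
        by_cases hxS : x ∈ S
        · exact ⟨0, by simpa using hxS⟩
        · obtain ⟨k, hk⟩ := hB4 x (Finset.mem_sdiff.mpr ⟨hx, hxS⟩)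
          exact ⟨k.succ, by simpa using hk⟩
      · intro k
        refine Fin.cases ?_ (fun j => ?_) k
        · exact ⟨0, by simpa using hinv⟩
        · obtain ⟨j', hj'⟩ := hB5 j
          exact ⟨j'.succ, by simpa using hj'⟩
    · -- swapped pair of blocks
      obtain ⟨t', rfl⟩ : ∃ t', t = t' + 1 := ⟨t - 1, by omega⟩
      have hSπX : S.image π ⊆ X := by
        intro y hy
        obtain ⟨x, hx, rfl⟩ := Finset.mem_image.mp hy
        exact hX x (hSX hx)
      have hSS : (S.image π).image π = S := by
        rw [Finset.image_image]
        have : (π ∘ π) = id := funext hπ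
        rw [this, Finset.image_id]
      have hX' : ∀ x ∈ X \ (S ∪ S.image π), π x ∈ X \ (S ∪ S.image π) := by
        intro x hx
        rw [Finset.mem_sdiff, Finset.mem_union, not_or] at hx ⊢
        refine ⟨hX x hx.1, fun h => hx.2.2 ?_, fun h => hx.2.1 ?_⟩
        · have : π (π x) ∈ S.image π := Finset.mem_image_of_mem π h
          rwa [hπ] at this
        · have : π (π x) ∈ (S.image π).image π := Finset.mem_image_of_mem π h
          rwa [hπ, hSS] at this
      have hcard' : (X \ (S ∪ S.image π)).card = a * t' := by
        rw [Finset.card_sdiff_of_subset (Finset.union_subset hSX hSπX), hcard,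
          Finset.card_union_of_disjoint hdisj, Finset.card_image_of_injective _ hπinj, hScard]
        rw [Nat.mul_succ, Nat.mul_succ]; omega
      obtain ⟨B', hB1, hB2, hB3, hB4, hB5⟩ := ih t' (by omega) (X \ (S ∪ S.image π)) hX' hcard'
      have hB2S : ∀ j, Disjoint S (B' j) := fun j =>
        Finset.disjoint_of_subset_right (hB2 j)
          (Finset.disjoint_of_subset_left Finset.subset_union_left Finset.disjoint_sdiff)
      have hB2S' : ∀ j, Disjoint (S.image π) (B' j) := fun j =>
        Finset.disjoint_of_subset_right (hB2 j)
          (Finset.disjoint_of_subset_left Finset.subset_union_right Finset.disjoint_sdiff)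
      refine ⟨Fin.cons S (Fin.cons (S.image π) B'), ?_, ?_, ?_, ?_, ?_⟩
      · intro k
        refine Fin.cases ?_ (fun j => Fin.cases ?_ (fun j => ?_) j) k
        · simpa using hScard
        · simp only [Fin.cons_succ, Fin.cons_zero]
          rw [Finset.card_image_of_injective _ hπinj, hScard]
        · simpa using hB1 j
      · intro k
        refine Fin.cases ?_ (fun j => Fin.cases ?_ (fun j => ?_) j) k
        · simpa using hSX
        · simpa using hSπX
        · simpa using (hB2 j).trans Finset.sdiff_subset
      · intro k k'
        refine Fin.cases ?_ (fun j => Fin.cases ?_ (fun j => ?_) j) k <;>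
          refine Fin.cases ?_ (fun j' => Fin.cases ?_ (fun j' => ?_) j') k'
        · intro h; exact absurd rfl h
        · intro _
          simpa using hdisj
        · intro _
          simpa using hB2S j'
        · intro _
          simpa using hdisj.symm
        · intro h; exact absurd rfl h
        · intro _
          simpa using hB2S' j'
        · intro _
          simpa using (hB2S j).symm
        · intro _
          simpa using (hB2S' j).symm
        · intro h
          simp only [Fin.cons_succ]
          exact hB3 j j' (fun h' => h (by rw [h']))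
      · intro x hx
        by_cases hxS : x ∈ S
        · exact ⟨0, by simpa using hxS⟩
        · by_cases hxS' : x ∈ S.image π
          · exact ⟨Fin.succ 0, by simpa using hxS'⟩
          · obtain ⟨k, hk⟩ := hB4 x (Finset.mem_sdiff.mpr ⟨hx, by
              rw [Finset.mem_union, not_or]; exact ⟨hxS, hxS'⟩⟩)
            exact ⟨k.succ.succ, by simpa using hk⟩
      · intro k
        refine Fin.cases ?_ (fun j => Fin.cases ?_ (fun j => ?_) j) k
        · exact ⟨Fin.succ 0, by simp⟩
        · exact ⟨0, by simpa using hSS⟩
        · obtain ⟨j', hj'⟩ := hB5 j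
          exact ⟨j'.succ.succ, by simpa using hj'⟩

end blocks

end Cfsg.Agent.Helper99
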