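import Mathlib
import Cfsg.Agent.Helper99.Blocks

set_option autoImplicit false

namespace Cfsg.Agent.Helper99

open Module

universe u

section linear

variable {F : Type*} [Field F]

/-- A linear map with `T² = z ≠ 0` has a basis whose lines are permuted by `T` through an involution
of the index set. -/
theorem exists_ps_basis (z : F) (hz : z ≠ 0) :
    ∀ (n : ℕ) (V : Type u) [AddCommGroup V] [Module F V] [FiniteDimensional F V] (T : V →ₗ[F] V),
      Module.finrank F V = n → (∀ u, T (T u) = z • u) →
      ∃ (ι : Type) (_ : Fintype ι) (b : Basis ι F V) (π : ι → ι) (c : ι → F),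
        (∀ x, π (π x) = x) ∧ (∀ x, c x ≠ 0) ∧ ∀ x, T (b x) = c x • b (π x) := by
  intro n
  induction n using Nat.strong_induction_on with
  | _ n ih =>
  intro V _ _ _ T hn hT
  by_cases hall : ∀ v : V, ∃ μ : F, T v = μ • v
  · -- every vector is an eigenvector
    choose μ hμ using hall
    refine ⟨Fin (Module.finrank F V), inferInstance, Module.finBasis F V, id,
      fun x => μ (Module.finBasis F V x), fun x => rfl, ?_, fun x => hμ _⟩
    intro x h0
    have h0' : μ (Module.finBasis F V x) = 0 := h0
    have h2 : T (Module.finBasis F V x) = 0 := by rw [hμ, h0', zero_smul]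
    have h1 := hT (Module.finBasis F V x)
    rw [h2, map_zero] at h1
    exact (Module.finBasis F V).ne_zero x ((smul_eq_zero.mp h1.symm).resolve_left hz)
  · push Not at hall
    obtain ⟨v, hv⟩ := hall
    have hv0 : v ≠ 0 := by
      intro h
      exact hv 0 (by rw [h, map_zero, smul_zero])
    have hTv : T v ∉ Submodule.span F {v} := by
      intro h
      obtain ⟨μ, hμ⟩ := Submodule.mem_span_singleton.mp h
      exact hv μ hμ.symm
    obtain ⟨f, hf1, hf2⟩ := Submodule.exists_dual_map_eq_bot_of_notMem hTv inferInstance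
    have hfv : f v = 0 := by
      have : f v ∈ (Submodule.span F {v}).map f :=
        Submodule.mem_map_of_mem (Submodule.mem_span_singleton_self v)
      rw [hf2] at this
      exact (Submodule.mem_bot F).mp this
    set φ : V →ₗ[F] F := (f (T v))⁻¹ • f with hφ
    have hφv : φ v = 0 := by rw [hφ, LinearMap.smul_apply, hfv, smul_zero]
    have hφTv : φ (T v) = 1 := by
      rw [hφ, LinearMap.smul_apply, smul_eq_mul, inv_mul_cancel₀ hf1]
    -- the equivariant projection
    set P : V →ₗ[F] V := (φ.comp T).smulRight v + φ.smulRight (T v) with hP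
    have hPapp : ∀ u, P u = φ (T u) • v + φ u • T v := fun u => by
      rw [hP]; simp
    have hPv : P v = v := by rw [hPapp, hφTv, hφv, one_smul, zero_smul, add_zero]
    have hPTv : P (T v) = T v := by
      rw [hPapp, hT, map_smul, hφv, smul_zero, zero_smul, zero_add, hφTv, one_smul]
    have hPT : ∀ u, P (T u) = T (P u) := by
      intro u
      rw [hPapp, hPapp, hT, map_add, map_smul, map_smul, map_smul, hT, smul_eq_mul, add_comm,
        smul_smul, mul_comm]
    have hli : LinearIndependent F ![v, T v] := by
      rw [LinearIndependent.pair_iff' hv0]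
      intro a h
      exact hv a h.symm
    set W : Submodule F V := Submodule.span F (Set.range ![v, T v]) with hW
    have hPW : ∀ w ∈ W, P w = w := by
      intro w hw
      rw [hW] at hw
      induction hw using Submodule.span_induction with
      | mem x hx =>
        obtain ⟨i, rfl⟩ := hx
        fin_cases i
        · exact hPv
        · exact hPTv
      | zero => exact map_zero P
      | add x y _ _ hx hy => rw [map_add, hx, hy]
      | smul a x _ hx => rw [map_smul, hx]
    have hPmem : ∀ u, P u ∈ W := by
      intro u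
      rw [hPapp, hW]
      refine Submodule.add_mem _ (Submodule.smul_mem _ _ (Submodule.subset_span ⟨0, rfl⟩))
        (Submodule.smul_mem _ _ (Submodule.subset_span ⟨1, rfl⟩))
    set K : Submodule F V := LinearMap.ker P with hK
    have hcompl : IsCompl K W := by
      constructor
      · rw [Submodule.disjoint_def]
        intro x hxK hxW
        have h1 : P x = 0 := hxK
        rw [hPW x hxW] at h1
        exact h1
      · rw [codisjoint_iff, eq_top_iff]
        intro u _
        have h1 : u - P u ∈ K := by
          rw [hK, LinearMap.mem_ker, map_sub, hPW _ (hPmem u), sub_self]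
        have h2 : u = (u - P u) + P u := by abel
        rw [h2]
        exact Submodule.add_mem _ (Submodule.mem_sup_left h1) (Submodule.mem_sup_right (hPmem u))
    have hKinv : ∀ x ∈ K, T x ∈ K := by
      intro x hx
      have h1 : P x = 0 := hx
      rw [hK, LinearMap.mem_ker, hPT, h1, map_zero]
    have hWdim : Module.finrank F W = 2 := by
      rw [hW, finrank_span_eq_card hli, Fintype.card_fin]
    have hKdim : Module.finrank F K < n := by
      have := Submodule.finrank_add_eq_of_isCompl hcompl
      omega
    obtain ⟨ι', hι', b', π', c', hπ', hc', hb'⟩ := ih _ hKdim K (T.restrict hKinv) rfl (by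
      intro u
      apply Subtype.ext
      simp only [LinearMap.coe_restrict_apply, Submodule.coe_smul]
      exact hT u)
    let bW : Basis (Fin 2) F W := Basis.span hli
    let b : Basis (ι' ⊕ Fin 2) F V := (b'.prod bW).map (Submodule.prodEquivOfIsCompl K W hcompl)
    have hb_inl : ∀ x, b (Sum.inl x) = (b' x : V) := by
      intro x
      simp [b, Basis.prod_apply, Submodule.coe_prodEquivOfIsCompl']
    have hb_inr : ∀ i, b (Sum.inr i) = ![v, T v] i := by
      intro i
      simp only [b, bW, Basis.map_apply, Basis.prod_apply, Sum.elim_inr, Function.comp_apply,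
        Submodule.coe_prodEquivOfIsCompl', LinearMap.inr_apply, Submodule.coe_zero, zero_add]
      exact congrArg Subtype.val (Basis.span_apply hli i)
    refine ⟨ι' ⊕ Fin 2, inferInstance, b,
      Sum.elim (fun x => Sum.inl (π' x)) (fun i => Sum.inr (Equiv.swap 0 1 i)),
      Sum.elim c' ![1, z], ?_, ?_, ?_⟩
    · rintro (x | i)
      · simp [hπ']
      · simp
    · rintro (x | i)
      · simpa using hc' x
      · fin_cases i
        · simp
        · simpa using hz
    · rintro (x | i)
      · simp only [Sum.elim_inl, hb_inl]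
        have h1 := congrArg Subtype.val (hb' x)
        simp only [LinearMap.coe_restrict_apply, Submodule.coe_smul] at h1
        exact h1
      · fin_cases i
        · simp [hb_inr]
        · simp [hb_inr, hT]

variable {V : Type u} [AddCommGroup V] [Module F V] [FiniteDimensional F V]

/-- Spans of blocks of basis vectors. -/
theorem blocks_decomposition {N t a : ℕ} (b : Basis (Fin N) F V) (B : Fin t → Finset (Fin N))
    (hB1 : ∀ k, (B k).card = a) (hB3 : ∀ k k', k ≠ k' → Disjoint (B k) (B k'))
    (hB4 : ∀ x, ∃ k, x ∈ B k) :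
    (∀ k, Module.finrank F (Submodule.span F (b '' (B k : Set (Fin N)))) = a) ∧
    iSupIndep (fun k => Submodule.span F (b '' (B k : Set (Fin N)))) ∧
    (⨆ k, Submodule.span F (b '' (B k : Set (Fin N)))) = ⊤ := by
  classical
  refine ⟨?_, ?_, ?_⟩
  · intro k
    have hli : LinearIndependent F (fun x : B k => b x.1) :=
      b.linearIndependent.comp _ Subtype.val_injective
    have hrange : Set.range (fun x : B k => b x.1) = b '' (B k : Set (Fin N)) := by
      ext y
      constructor
      · rintro ⟨x, rfl⟩
        exact ⟨x.1, x.2, rfl⟩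
      · rintro ⟨x, hx, rfl⟩
        exact ⟨⟨x, hx⟩, rfl⟩
    rw [← hrange, finrank_span_eq_card hli, Fintype.card_coe, hB1]
  · rw [iSupIndep_def]
    intro k
    have h1 : (⨆ j, ⨆ (_ : j ≠ k), Submodule.span F (b '' (B j : Set (Fin N)))) =
        Submodule.span F (b '' (⋃ j, ⋃ (_ : j ≠ k), (B j : Set (Fin N)))) := by
      rw [Set.image_iUnion₂, Submodule.span_iUnion₂]
    rw [h1]
    apply b.linearIndependent.disjoint_span_image
    rw [Set.disjoint_left]
    intro x hx hx'
    simp only [Set.mem_iUnion] at hx'
    obtain ⟨j, hj, hxj⟩ := hx'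
    exact Finset.disjoint_left.mp (hB3 k j (Ne.symm hj)) hx hxj
  · rw [← Submodule.span_iUnion, ← Set.image_iUnion]
    have : (⋃ k, (B k : Set (Fin N))) = Set.univ := by
      ext x
      simp only [Set.mem_iUnion, Set.mem_univ, iff_true]
      exact hB4 x
    rw [this, Set.image_univ, b.span_eq]

/-- A linear map with `T² = z ≠ 0` permutes the members of some decomposition of the space into
`t` subspaces of dimension `a`. -/
theorem exists_decomposition (T : V →ₗ[F] V) (z : F) (hz : z ≠ 0) (hT : ∀ u, T (T u) = z • u)
    (a t : ℕ) (ha : 0 < a) (hdim : Module.finrank F V = a * t) :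
    ∃ D : Fin t → Submodule F V, (∀ i, Module.finrank F (D i) = a) ∧ iSupIndep D ∧ iSup D = ⊤ ∧
      ∃ σ : Equiv.Perm (Fin t), ∀ j, (D j).map T = D (σ j) := by
  classical
  obtain ⟨ι, hι, b₀, π₀, c₀, hπ₀, hc₀, hb₀⟩ := exists_ps_basis z hz _ V T rfl hT
  -- reindex by `Fin N`
  let e : ι ≃ Fin (Fintype.card ι) := Fintype.equivFin ι
  have hN : Fintype.card ι = a * t := by rw [← hdim, Module.finrank_eq_card_basis b₀]
  obtain ⟨N, hNeq⟩ : ∃ N, N = Fintype.card ι := ⟨_, rfl⟩
  let e' : ι ≃ Fin N := e.trans (finCongr hNeq.symm)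
  let b : Basis (Fin N) F V := b₀.reindex e'
  let π : Fin N → Fin N := fun x => e' (π₀ (e'.symm x))
  let c : Fin N → F := fun x => c₀ (e'.symm x)
  have hπ : ∀ x, π (π x) = x := by
    intro x
    simp [π, hπ₀]
  have hc : ∀ x, c x ≠ 0 := fun x => hc₀ _
  have hb : ∀ x, T (b x) = c x • b (π x) := by
    intro x
    simp [b, π, c, hb₀]
  have hπinj : Function.Injective π := fun x y h => by rw [← hπ x, ← hπ y, h]
  obtain ⟨B, hB1, -, hB3, hB4, hB5⟩ := exists_blocks π hπ a ha t (Finset.univ : Finset (Fin N))
    (fun x _ => Finset.mem_univ _) (by rw [Finset.card_univ, Fintype.card_fin, hNeq, hN])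
  obtain ⟨h1, h2, h3⟩ := blocks_decomposition b B hB1 hB3 (fun x => hB4 x (Finset.mem_univ x))
  choose σ₀ hσ₀ using hB5
  have hσinj : Function.Injective σ₀ := by
    intro k j hkj
    by_contra hne
    have h4 : (B k).image π = (B j).image π := by rw [hσ₀ k, hσ₀ j, hkj]
    have h5 : B k = B j := Finset.image_injective hπinj h4
    have h6 := hB3 k j hne
    rw [h5, Finset.disjoint_self_iff_empty] at h6
    have h7 := hB1 j
    rw [h6, Finset.card_empty] at h7
    omega
  refine ⟨fun k => Submodule.span F (b '' (B k : Set (Fin N))), h1, h2, h3,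
    Equiv.ofBijective σ₀ (Finite.injective_iff_bijective.mp hσinj), ?_⟩
  intro k
  rw [Equiv.ofBijective_apply, Submodule.map_span]
  apply le_antisymm
  · rw [Submodule.span_le]
    rintro _ ⟨_, ⟨x, hx, rfl⟩, rfl⟩
    rw [hb x]
    refine Submodule.smul_mem _ _ (Submodule.subset_span ⟨π x, ?_, rfl⟩)
    rw [← hσ₀ k]
    exact Finset.mem_coe.mpr (Finset.mem_image_of_mem π hx)
  · rw [Submodule.span_le]
    rintro _ ⟨y, hy, rfl⟩
    rw [← hσ₀ k] at hy
    obtain ⟨x, hx, rfl⟩ := Finset.mem_image.mp (Finset.mem_coe.mp hy)
    have h4 : b (π x) = (c x)⁻¹ • T (b x) := by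
      rw [hb x, smul_smul, inv_mul_cancel₀ (hc x), one_smul]
    rw [h4]
    exact Submodule.smul_mem _ _ (Submodule.subset_span ⟨b x, ⟨x, hx, rfl⟩, rfl⟩)

end linear

end Cfsg.Agent.Helper99
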