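import Cfsg.Agent.Helper96.CWDefs

/-!
# helper99: CALL S5707 piece C2
-/

set_option autoImplicit false
set_option linter.unusedSectionVars false
set_option linter.unusedSimpArgs false
set_option linter.unusedVariables false

namespace Cfsg.Agent.Helper99.CWC2

open Matrix Cfsg Cfsg.Geo Cfsg.Agent.Helper96 Cfsg.Agent.Helper96.CW

variable {F : Type*} [Field F] {k t : ℕ}

/-- PIECE C2: Clifford relation for `k = 2`. -/
theorem c2 (h2 : (2 : F) = 0) (c : F) (W : Matrix (Fin 2) (Fin 2) F) (hW : W ∈ S2 F) :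
    ∃ l : F, (c • E2 F) * W + W * (c • E2 F) = l • (1 : Matrix (Fin 2) (Fin 2) F) := by
  have htr : W 0 0 + W 1 1 = 0 := by
    have h : W.trace = 0 := hW
    rwa [Matrix.trace_fin_two] at h
  have e00 : E2 F 0 0 = 0 := by simp [E2]
  have e01 : E2 F 0 1 = 0 := by simp [E2]
  have e10 : E2 F 1 0 = 1 := by simp [E2]
  have e11 : E2 F 1 1 = 0 := by simp [E2]
  refine ⟨c * W 0 1, ?_⟩
  ext i j
  fin_cases i <;> fin_cases j <;>
    simp [Matrix.mul_apply, Fin.sum_univ_two, Matrix.one_apply, e00, e01, e10, e11] <;>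
    first | linear_combination c * htr | ring

end Cfsg.Agent.Helper99.CWC2
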