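import Cfsg.Agent.Helper96.CWDefs

/-!
# helper99: CALL S5707 piece I2
-/

set_option autoImplicit false
set_option linter.unusedSectionVars false
set_option linter.unusedSimpArgs false
set_option linter.unusedVariables false

namespace Cfsg.Agent.Helper99.CWI2

open Matrix Cfsg Cfsg.Geo Cfsg.Agent.Helper96 Cfsg.Agent.Helper96.CW

variable {F : Type*} [Field F] {k t : ℕ}

/-- PIECE I2: trace zero is conjugation invariant. -/
theorem i2 (a ainv : Matrix (Fin 2) (Fin 2) F) (h1 : a * ainv = 1) (h2 : ainv * a = 1)
    (W : Matrix (Fin 2) (Fin 2) F) (hW : W ∈ S2 F) :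
    a * W * ainv ∈ Submodule.span F (S2 F) := by
  apply Submodule.subset_span
  show (a * W * ainv).trace = 0
  rw [Matrix.trace_mul_comm, ← mul_assoc, h2, one_mul]
  exact hW

end Cfsg.Agent.Helper99.CWI2
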