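import Cfsg.Agent.Helper96.CWDefs

/-!
# helper99: CALL S5707 piece SB2
-/

set_option autoImplicit false
set_option linter.unusedSectionVars false
set_option linter.unusedSimpArgs false
set_option linter.unusedVariables false

namespace Cfsg.Agent.Helper99.CWSB2

open Matrix Cfsg Cfsg.Geo Cfsg.Agent.Helper96 Cfsg.Agent.Helper96.CW

variable {F : Type*} [Field F] {k t : ℕ}

/-- PIECE SB2: symplectic basis in dimension 2 (characteristic 2). -/
theorem sb2 (h2 : (2 : F) = 0) (G : Matrix (Fin 2) (Fin 2) F) (halt : ∀ u, T5.bf G u u = 0)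
    (hdet : G.det ≠ 0) :
    ∃ A Ainv : Matrix (Fin 2) (Fin 2) F, A * Ainv = 1 ∧ Ainv * A = 1 ∧ Aᵀ * G * A = G2 F := by
  have e : ∀ u : Fin 2 → F, T5.bf G u u =
      u 0 * (G 0 0 * u 0 + G 0 1 * u 1) + u 1 * (G 1 0 * u 0 + G 1 1 * u 1) := by
    intro u
    simp only [T5.bf, Matrix.mulVec, dotProduct, Fin.sum_univ_two]
  have h00 : G 0 0 = 0 := by
    have h := halt ![1, 0]
    rw [e] at h
    simpa using h
  have h11 : G 1 1 = 0 := by
    have h := halt ![0, 1]
    rw [e] at h
    simpa using h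
  have h01 : G 0 1 + G 1 0 = 0 := by
    have h := halt ![1, 1]
    rw [e, h00, h11] at h
    simpa using h
  have hg : G 0 1 ≠ 0 := by
    intro h
    apply hdet
    rw [Matrix.det_fin_two, h00, h]
    ring
  have h10 : G 1 0 = G 0 1 := by
    have h2' : (G 0 1) + (G 0 1) = 0 := by
      have h3 : (G 0 1) + (G 0 1) = 2 * G 0 1 := by ring
      rw [h3, h2, zero_mul]
    linear_combination h01 - h2'
  refine ⟨!![1, 0; 0, (G 0 1)⁻¹], !![1, 0; 0, G 0 1], ?_, ?_, ?_⟩
  · ext i j
    fin_cases i <;> fin_cases j <;> simp [Matrix.mul_apply, Fin.sum_univ_two, hg]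
  · ext i j
    fin_cases i <;> fin_cases j <;> simp [Matrix.mul_apply, Fin.sum_univ_two, hg]
  · ext i j
    fin_cases i <;> fin_cases j <;>
      simp [G2, Matrix.mul_apply, Fin.sum_univ_two, h00, h11, h10, hg]

end Cfsg.Agent.Helper99.CWSB2
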