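import Mathlib
import Cfsg.Agent.Helper97.TMDefs

set_option autoImplicit false

/-!
Helper library (helper99), piece GUA of CALL S2415 (helper97): the images of the standard basis
vectors under the unipotent element `gU = E(e_i + z₁ - f_i, z₂ - a f_i)`.
-/

universe u

namespace Cfsg.Agent.Helper99

open Cfsg Matrix Cfsg.Agent.Helper45 Cfsg.Agent.Helper98 Cfsg.Agent.Helper97.TM

section minus

variable {k : ℕ} {F : Type u} [Field F]

theorem tm_gua_Qy (a b : F) (i : Fin k) :
    QM k F a b (zM k F 1 - a • fM k F i) = b := by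
  rw [QM_apply]
  simp

/-- the general formula for the action of `gU` -/
theorem tm_gua_mv (a b : F) (i : Fin k) (x : (Fin k ⊕ Fin k) ⊕ Fin 2 → F) :
    mv ⇑(QM k F a b) (gU a b i) x =
      x + ((a * x (Sum.inr 0) + 2 * b * x (Sum.inr 1) - a * x (Sum.inl (Sum.inl i)))
          - b * (x (Sum.inl (Sum.inr i)) + (2 * x (Sum.inr 0) + a * x (Sum.inr 1))
              - x (Sum.inl (Sum.inl i)))) • (eM k F i + zM k F 0 - fM k F i)
        - (x (Sum.inl (Sum.inr i)) + (2 * x (Sum.inr 0) + a * x (Sum.inr 1))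
              - x (Sum.inl (Sum.inl i))) • (zM k F 1 - a • fM k F i) := by
  unfold gU
  rw [mv_eichO]
  unfold Helper44.eich
  rw [tm_gua_Qy]
  simp only [QuadraticMap.polar_sub_left, QuadraticMap.polar_add_left,
    QuadraticMap.polar_smul_left, polar_eM_left, polar_zM0_left, polar_zM1_left, polar_fM_left,
    smul_eq_mul]

/-- GUA (six statements) -/
theorem tm_gU_e (a b : F) (i : Fin k) :
    mv ⇑(QM k F a b) (gU a b i) (eM k F i) =
      eM k F i + (b - a) • (eM k F i + zM k F 0 - fM k F i) + (zM k F 1 - a • fM k F i) := by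
  rw [tm_gua_mv]
  simp only [eM_ee, eM_ff, eM_zz, if_true]
  module

theorem tm_gU_f (a b : F) (i : Fin k) :
    mv ⇑(QM k F a b) (gU a b i) (fM k F i) =
      fM k F i - b • (eM k F i + zM k F 0 - fM k F i) - (zM k F 1 - a • fM k F i) := by
  rw [tm_gua_mv]
  simp only [fM_ee, fM_ff, fM_zz, if_true]
  module

theorem tm_gU_z0 (a b : F) (i : Fin k) :
    mv ⇑(QM k F a b) (gU a b i) (zM k F 0) =
      zM k F 0 + (a - 2 * b) • (eM k F i + zM k F 0 - fM k F i)
        - (2 : F) • (zM k F 1 - a • fM k F i) := by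
  rw [tm_gua_mv]
  simp only [zM_ee, zM_ff, zM_zz, if_true]
  have h10 : ((1 : Fin 2) = 0) = False := by simp
  simp only [h10, if_false]
  module

theorem tm_gU_z1 (a b : F) (i : Fin k) :
    mv ⇑(QM k F a b) (gU a b i) (zM k F 1) =
      zM k F 1 + (2 * b - a * b) • (eM k F i + zM k F 0 - fM k F i)
        - a • (zM k F 1 - a • fM k F i) := by
  rw [tm_gua_mv]
  simp only [zM_ee, zM_ff, zM_zz, if_true]
  have h01 : ((0 : Fin 2) = 1) = False := by simp
  simp only [h01, if_false]
  module

theorem tm_gU_other_e (a b : F) (i c : Fin k) (hc : c ≠ i) :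
    mv ⇑(QM k F a b) (gU a b i) (eM k F c) = eM k F c := by
  rw [tm_gua_mv]
  have hic : (i = c) = False := by simpa using (Ne.symm hc)
  simp only [eM_ee, eM_ff, eM_zz, hic, if_false]
  module

theorem tm_gU_other_f (a b : F) (i c : Fin k) (hc : c ≠ i) :
    mv ⇑(QM k F a b) (gU a b i) (fM k F c) = fM k F c := by
  rw [tm_gua_mv]
  have hic : (i = c) = False := by simpa using (Ne.symm hc)
  simp only [fM_ee, fM_ff, fM_zz, hic, if_false]
  module

end minus

end Cfsg.Agent.Helper99
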