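import Mathlib
import Cfsg.Prelude.Def_OddOrderLocal
import Cfsg.Agent.S1446
import Cfsg.Agent.Helper51.Replace

/-!
# helper99: CALL S1356 piece FROB (`bg56_frob_section`): row S1446 applied in `M/Q₀`.
-/

set_option autoImplicit false
set_option maxHeartbeats 1000000

namespace Cfsg.Agent.Helper99

open Cfsg Subgroup

universe u

variable {G : Type u} [Group G] [Finite G]

/-- A `q`-element and an element of a `q'`-subgroup have coprime orders. -/
theorem bg56f_coprime {Q H : Subgroup G} {q : ℕ} (hq : q.Prime) (hQ : IsPGroup q Q)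
    (hH : ¬ q ∣ Nat.card H) {z d : G} (hz : z ∈ Q) (hd : d ∈ H) :
    (orderOf z).Coprime (orderOf d) := by
  obtain ⟨k, hk⟩ := hQ ⟨z, hz⟩
  have hk' : z ^ q ^ k = 1 := by
    have := congrArg Subtype.val hk
    simpa using this
  have h1 : orderOf z ∣ q ^ k := orderOf_dvd_of_pow_eq_one hk'
  have h2 : orderOf d ∣ Nat.card H := by
    have h' := orderOf_dvd_natCard (⟨d, hd⟩ : H)
    rwa [Subgroup.orderOf_mk] at h'
  have h3 : (q ^ k).Coprime (Nat.card H) :=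
    Nat.Coprime.pow_left k ((Nat.Prime.coprime_iff_not_dvd hq).2 hH)
  exact Nat.Coprime.coprime_dvd_left h1 (Nat.Coprime.coprime_dvd_right h2 h3)

/-- An element of a `q`-group lying in a subgroup of order prime to `q` is trivial. -/
theorem bg56f_eq_one {Q H : Subgroup G} {q : ℕ} (hq : q.Prime) (hQ : IsPGroup q Q)
    (hH : ¬ q ∣ Nat.card H) {y : G} (hyQ : y ∈ Q) (hyH : y ∈ H) : y = 1 :=
  orderOf_eq_one_iff.1 ((Nat.coprime_self _).1 (bg56f_coprime hq hQ hH hyQ hyH))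

/-- If `z = x⁻¹ d⁻¹ x d` commutes with `d` and has order prime to that of `d`, then `z = 1`. -/
theorem bg56f_stab {d x : G} (hdz : Commute d (x⁻¹ * d⁻¹ * x * d))
    (hcop : (orderOf (x⁻¹ * d⁻¹ * x * d)).Coprime (orderOf d)) : x⁻¹ * d⁻¹ * x * d = 1 := by
  have key : ∀ n : ℕ, (d⁻¹) ^ n * x * d ^ n = x * (x⁻¹ * d⁻¹ * x * d) ^ n := by
    intro n
    induction n with
    | zero => simp
    | succ n ih =>
      have h1 : (d⁻¹) ^ (n + 1) * x * d ^ (n + 1) = d⁻¹ * ((d⁻¹) ^ n * x * d ^ n) * d := by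
        rw [pow_succ', pow_succ]; group
      have h2 : d⁻¹ * (x⁻¹ * d⁻¹ * x * d) ^ n * d = (x⁻¹ * d⁻¹ * x * d) ^ n := by
        have h := (hdz.pow_right n).eq
        rw [mul_assoc, ← h, inv_mul_cancel_left]
      have h3 : d⁻¹ * x * d = x * (x⁻¹ * d⁻¹ * x * d) := by group
      rw [h1, ih]
      calc d⁻¹ * (x * (x⁻¹ * d⁻¹ * x * d) ^ n) * d
          = (d⁻¹ * x * d) * (d⁻¹ * (x⁻¹ * d⁻¹ * x * d) ^ n * d) := by group
        _ = x * (x⁻¹ * d⁻¹ * x * d) * (x⁻¹ * d⁻¹ * x * d) ^ n := by rw [h3, h2]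
        _ = x * (x⁻¹ * d⁻¹ * x * d) ^ (n + 1) := by rw [pow_succ', mul_assoc]
  have h := key (orderOf d)
  rw [inv_pow, pow_orderOf_eq_one, inv_one, one_mul, mul_one] at h
  have hz1 : (x⁻¹ * d⁻¹ * x * d) ^ orderOf d = 1 := by
    have h' : x * 1 = x * (x⁻¹ * d⁻¹ * x * d) ^ orderOf d := by rw [mul_one]; exact h
    exact (mul_left_cancel h').symm
  have h5 : orderOf (x⁻¹ * d⁻¹ * x * d) ∣ orderOf d := orderOf_dvd_of_pow_eq_one hz1
  exact orderOf_eq_one_iff.1 (Nat.Coprime.eq_one_of_dvd hcop h5)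

/-- FROB. `D'` centralizes `Q/Q₀`. -/
theorem bg56_frob_section {M Q Q₀ D K : Subgroup G} {q : ℕ} (hq : q.Prime)
    (hodd : Odd (Nat.card G)) (hsol : Group.IsSolvable ↥M)
    (hQM : Q ≤ M) (hDM : D ≤ M) (hKM : K ≤ M)
    (hQn : M ≤ normalizer (Q : Set G)) (hQ₀n : M ≤ normalizer (Q₀ : Set G))
    (hQ₀ : Q₀ = Q ⊓ centralizer (D : Set G)) (hQ : IsPGroup q Q)
    (hDq : ¬ q ∣ Nat.card D) (hD1 : D ≠ ⊥) (hKD : K ≤ normalizer (D : Set G))
    (hKp : (Nat.card K).Prime) (hKq : Nat.card K ≠ q) (hKD0 : K ⊓ D = ⊥)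
    (hfpf : ∀ r ∈ K, r ≠ 1 → D ⊓ centralizer ({r} : Set G) = ⊥)
    (hcard : Nat.card Q = Nat.card Q₀ * q ^ Nat.card K) :
    ∀ d ∈ ⁅D, D⁆, ∀ x ∈ Q, d * x * d⁻¹ * x⁻¹ ∈ Q₀ := by
  classical
  haveI : Fact q.Prime := ⟨hq⟩
  haveI := hsol
  have hQ₀Q : Q₀ ≤ Q := by rw [hQ₀]; exact inf_le_left
  have hQ₀cD : Q₀ ≤ centralizer (D : Set G) := by rw [hQ₀]; exact inf_le_right
  haveI hN : (Q₀.subgroupOf M).Normal := Subgroup.normal_subgroupOf_of_le_normalizer hQ₀n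
  haveI hQnorm : (Q.subgroupOf M).Normal := Subgroup.normal_subgroupOf_of_le_normalizer hQn
  obtain ⟨π, hπdef⟩ : ∃ π : ↥M →* ↥M ⧸ Q₀.subgroupOf M, π = QuotientGroup.mk' (Q₀.subgroupOf M) :=
    ⟨_, rfl⟩
  have hπ1 : ∀ m : ↥M, π m = 1 ↔ (m : G) ∈ Q₀ := by
    intro m
    rw [hπdef, QuotientGroup.mk'_apply, QuotientGroup.eq_one_iff, Subgroup.mem_subgroupOf]
  have hπsurj : Function.Surjective π := by
    rw [hπdef]; exact QuotientGroup.mk'_surjective _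
  have hker : π.ker = Q₀.subgroupOf M := by
    rw [hπdef]; exact QuotientGroup.ker_mk' _
  -- arithmetic facts
  have hKcard : ¬ q ∣ Nat.card K := fun h => hKq ((Nat.prime_dvd_prime_iff_eq hq hKp).1 h).symm
  have hDKcard : ¬ q ∣ Nat.card ↥(K ⊔ D) := by
    intro h
    have h1 := Cfsg.Agent.Helper51.card_sup_mul_card_inf_of_le_normalizer K D hKD
    have h2 : q ∣ Nat.card K * Nat.card D := by
      rw [← h1]; exact Dvd.dvd.mul_right h _
    rcases (Nat.Prime.dvd_mul hq).1 h2 with h3 | h3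
    · exact hKcard h3
    · exact hDq h3
  have hK1 : K ≠ ⊥ := by
    intro e
    rw [e, Subgroup.card_bot] at hKp
    exact Nat.not_prime_one hKp
  have hDDle : ⁅D, D⁆ ≤ D :=
    Subgroup.commutator_le.2 (fun a ha b hb => by
      rw [commutatorElement_def]
      exact D.mul_mem (D.mul_mem (D.mul_mem ha hb) (D.inv_mem ha)) (D.inv_mem hb))
  -- (1) `K_X ≠ ⊥`
  have hKX1 : (D.subgroupOf M).map π ≠ ⊥ := by
    obtain ⟨⟨d, hd⟩, hd1⟩ := (Subgroup.ne_bot_iff_exists_ne_one).mp hD1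
    have hd1' : d ≠ 1 := fun e => hd1 (Subtype.ext e)
    intro e
    have hmem : π ⟨d, hDM hd⟩ ∈ (D.subgroupOf M).map π :=
      ⟨⟨d, hDM hd⟩, Subgroup.mem_subgroupOf.2 hd, rfl⟩
    rw [e, Subgroup.mem_bot, hπ1] at hmem
    exact hd1' (bg56f_eq_one hq hQ hDq (hQ₀Q hmem) hd)
  -- (2) `R_X ≠ ⊥`
  have hRX1 : (K.subgroupOf M).map π ≠ ⊥ := by
    obtain ⟨⟨k, hk⟩, hk1⟩ := (Subgroup.ne_bot_iff_exists_ne_one).mp hK1
    have hk1' : k ≠ 1 := fun e => hk1 (Subtype.ext e)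
    intro e
    have hmem : π ⟨k, hKM hk⟩ ∈ (K.subgroupOf M).map π :=
      ⟨⟨k, hKM hk⟩, Subgroup.mem_subgroupOf.2 hk, rfl⟩
    rw [e, Subgroup.mem_bot, hπ1] at hmem
    exact hk1' (bg56f_eq_one hq hQ hKcard (hQ₀Q hmem) hk)
  -- (3) `K_X ⊓ R_X = ⊥`
  have hKR : (D.subgroupOf M).map π ⊓ (K.subgroupOf M).map π = ⊥ := by
    rw [Subgroup.eq_bot_iff_forall]
    rintro y ⟨hy1, hy2⟩
    obtain ⟨d, hd, rfl⟩ := Subgroup.mem_map.1 hy1
    obtain ⟨k, hk, hdk⟩ := Subgroup.mem_map.1 hy2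
    rw [Subgroup.mem_subgroupOf] at hd hk
    have h1 : π (d⁻¹ * k) = 1 := by rw [map_mul, map_inv, hdk, inv_mul_cancel]
    have h2 : (d : G)⁻¹ * (k : G) ∈ Q₀ := (hπ1 _).1 h1
    have h3 : (d : G)⁻¹ * (k : G) = 1 :=
      bg56f_eq_one hq hQ hDKcard (hQ₀Q h2)
        (Subgroup.mul_mem _ (Subgroup.inv_mem _ (Subgroup.mem_sup_right hd))
          (Subgroup.mem_sup_left hk))
    have h4 : (d : G) = k := inv_mul_eq_one.1 h3
    have h5 : (d : G) = 1 := by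
      have h6 : (d : G) ∈ K ⊓ D := ⟨h4 ▸ hk, hd⟩
      rw [hKD0] at h6
      exact Subgroup.mem_bot.1 h6
    have h6 : d = 1 := Subtype.ext h5
    rw [h6, map_one]
  -- (4) `R_X` normalizes `K_X`
  have hRK : (K.subgroupOf M).map π ≤
      normalizer (((D.subgroupOf M).map π : Subgroup (↥M ⧸ Q₀.subgroupOf M)) : Set _) := by
    rw [Subgroup.le_normalizer_iff]
    rintro _ ⟨k, hk, rfl⟩ _ ⟨d, hd, rfl⟩
    rw [SetLike.mem_coe, Subgroup.mem_subgroupOf] at hd hk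
    refine ⟨k * d * k⁻¹, ?_, by simp⟩
    rw [SetLike.mem_coe, Subgroup.mem_subgroupOf]
    have h := (Subgroup.le_normalizer_iff.1 hKD) k hk d hd
    simpa using h
  -- (5) Frobenius action
  have hfrob : ∀ r ∈ (K.subgroupOf M).map π, r ≠ 1 →
      (D.subgroupOf M).map π ⊓ centralizer ({r} : Set (↥M ⧸ Q₀.subgroupOf M)) = ⊥ := by
    rintro _ ⟨k, hk, rfl⟩ hr1
    rw [SetLike.mem_coe, Subgroup.mem_subgroupOf] at hk
    have hk1 : (k : G) ≠ 1 := by
      intro e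
      apply hr1
      have e' : k = 1 := Subtype.ext e
      rw [e', map_one]
    rw [Subgroup.eq_bot_iff_forall]
    rintro _ ⟨⟨d, hd, rfl⟩, hc⟩
    rw [SetLike.mem_coe, Subgroup.mem_subgroupOf] at hd
    have hc' : π k * π d = π d * π k :=
      (Subgroup.mem_centralizer_iff.1 hc) (π k) (Set.mem_singleton _)
    have h1 : π (d⁻¹ * k⁻¹ * d * k) = 1 := by
      rw [map_mul, map_mul, map_mul, map_inv, map_inv, mul_assoc _ (π d) (π k), ← hc']
      group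
    have h2 : (d : G)⁻¹ * (k : G)⁻¹ * d * k ∈ Q₀ := (hπ1 _).1 h1
    have h3 : (d : G)⁻¹ * (k : G)⁻¹ * d * k ∈ D := by
      have h := (Subgroup.le_normalizer_iff.1 hKD) (k : G)⁻¹ (K.inv_mem hk) d hd
      rw [inv_inv] at h
      have e : (d : G)⁻¹ * (k : G)⁻¹ * d * k = (d : G)⁻¹ * ((k : G)⁻¹ * d * k) := by group
      rw [e]
      exact D.mul_mem (D.inv_mem hd) h
    have h4 : (d : G)⁻¹ * (k : G)⁻¹ * d * k = 1 := bg56f_eq_one hq hQ hDq (hQ₀Q h2) h3
    have h5 : (k : G) * d = d * k := by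
      have e : (k : G) * d = d * k * ((d : G)⁻¹ * (k : G)⁻¹ * d * k)⁻¹ := by group
      rw [e, h4, inv_one, mul_one]
    have h6 : (d : G) ∈ D ⊓ centralizer ({(k : G)} : Set G) := by
      refine Subgroup.mem_inf.2 ⟨hd, ?_⟩
      rw [Subgroup.mem_centralizer_iff]
      intro h hh
      rw [Set.mem_singleton_iff] at hh
      rw [hh]
      exact h5
    rw [hfpf k hk hk1] at h6
    have h7 : d = 1 := Subtype.ext (Subgroup.mem_bot.1 h6)
    rw [h7, map_one]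
  -- (6), (7)
  have hsolv : Group.IsSolvable ↥((D.subgroupOf M).map π ⊔ (K.subgroupOf M).map π) :=
    inferInstance
  have hoddX : Odd (Nat.card ↥((D.subgroupOf M).map π ⊔ (K.subgroupOf M).map π)) := by
    have h1 : Nat.card ↥((D.subgroupOf M).map π ⊔ (K.subgroupOf M).map π) ∣
        Nat.card (↥M ⧸ Q₀.subgroupOf M) := Subgroup.card_subgroup_dvd_card _
    have h2 : Nat.card (↥M ⧸ Q₀.subgroupOf M) ∣ Nat.card ↥M := Subgroup.card_quotient_dvd_card _
    have h3 : Nat.card ↥M ∣ Nat.card G := Subgroup.card_subgroup_dvd_card M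
    exact hodd.of_dvd_nat (h1.trans (h2.trans h3))
  -- (8) `M_X ≠ ⊥`
  have hQne : ∃ x ∈ Q, x ∉ Q₀ := by
    by_contra hcon
    push_neg at hcon
    have heq : Q = Q₀ := le_antisymm hcon hQ₀Q
    have hpos : 0 < Nat.card Q₀ := Nat.card_pos
    have h1 : Nat.card Q₀ * 1 = Nat.card Q₀ * q ^ Nat.card K := by
      rw [mul_one, ← hcard, heq]
    have h2 : 1 = q ^ Nat.card K := Nat.eq_of_mul_eq_mul_left hpos h1
    have h3 : 1 < q ^ Nat.card K := Nat.one_lt_pow hKp.pos.ne' hq.one_lt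
    omega
  have hMX1 : (Q.subgroupOf M).map π ≠ ⊥ := by
    obtain ⟨x, hx, hx0⟩ := hQne
    intro e
    have hmem : π ⟨x, hQM hx⟩ ∈ (Q.subgroupOf M).map π :=
      ⟨⟨x, hQM hx⟩, Subgroup.mem_subgroupOf.2 hx, rfl⟩
    rw [e, Subgroup.mem_bot, hπ1] at hmem
    exact hx0 hmem
  -- (9) nilpotent
  have hMXp : IsPGroup q ↥((Q.subgroupOf M).map π) := (hQ.comap_subtype).map π
  -- (10) normal
  have hMXn : ((Q.subgroupOf M).map π).Normal := Subgroup.Normal.map hQnorm π hπsurj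
  have hXn : ∀ A : Subgroup (↥M ⧸ Q₀.subgroupOf M),
      A ≤ normalizer (((Q.subgroupOf M).map π : Subgroup (↥M ⧸ Q₀.subgroupOf M)) : Set _) := by
    intro A
    rw [Subgroup.le_normalizer_iff]
    intro h _ k hk
    exact hMXn.conj_mem k hk h
  -- (11) coprime
  have hcop : (Nat.card ↥((D.subgroupOf M).map π ⊔ (K.subgroupOf M).map π)).Coprime
      (Nat.card ↥((Q.subgroupOf M).map π)) := by
    have e : (D.subgroupOf M).map π ⊔ (K.subgroupOf M).map π = ((K ⊔ D).subgroupOf M).map π := by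
      rw [Subgroup.subgroupOf_sup hKM hDM, Subgroup.map_sup, sup_comm]
    rw [e]
    obtain ⟨n, hn⟩ := IsPGroup.iff_card.1 hMXp
    rw [hn]
    apply Nat.Coprime.pow_right
    rw [Nat.coprime_comm, Nat.Prime.coprime_iff_not_dvd hq]
    intro h
    have h1 : Nat.card ↥(((K ⊔ D).subgroupOf M).map π) ∣ Nat.card ↥((K ⊔ D).subgroupOf M) :=
      Subgroup.card_map_dvd _ π
    have h2 : Nat.card ↥((K ⊔ D).subgroupOf M) = Nat.card ↥(K ⊔ D) :=
      Nat.card_congr (Subgroup.subgroupOfEquivOfLe (sup_le hKM hDM)).toEquiv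
    exact hDKcard (h2 ▸ (h.trans h1))
  -- (12) `C_{M_X}(K_X) = 1`
  have hCK : (Q.subgroupOf M).map π ⊓
      centralizer (((D.subgroupOf M).map π : Subgroup (↥M ⧸ Q₀.subgroupOf M)) : Set _) = ⊥ := by
    rw [Subgroup.eq_bot_iff_forall]
    rintro _ ⟨⟨x, hx, rfl⟩, hc⟩
    rw [SetLike.mem_coe, Subgroup.mem_subgroupOf] at hx
    have hxD : (x : G) ∈ centralizer (D : Set G) := by
      rw [Subgroup.mem_centralizer_iff]
      intro d hd
      have hdM : d ∈ M := hDM hd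
      have hc' : π ⟨d, hdM⟩ * π x = π x * π ⟨d, hdM⟩ :=
        (Subgroup.mem_centralizer_iff.1 hc) (π ⟨d, hdM⟩)
          ⟨⟨d, hdM⟩, Subgroup.mem_subgroupOf.2 hd, rfl⟩
      have h1 : π (x⁻¹ * (⟨d, hdM⟩ : ↥M)⁻¹ * x * ⟨d, hdM⟩) = 1 := by
        rw [map_mul, map_mul, map_mul, map_inv, map_inv, mul_assoc _ (π x) _, ← hc']
        group
      have h2 : (x : G)⁻¹ * d⁻¹ * x * d ∈ Q₀ := (hπ1 _).1 h1
      have hz : Commute d ((x : G)⁻¹ * d⁻¹ * x * d) :=
        (Subgroup.mem_centralizer_iff.1 (hQ₀cD h2)) d hd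
      have h3 := bg56f_stab hz (bg56f_coprime hq hQ hDq (hQ₀Q h2) hd)
      have e : d * (x : G) = x * d * ((x : G)⁻¹ * d⁻¹ * x * d)⁻¹ := by group
      rw [e, h3, inv_one, mul_one]
    have hxQ₀ : (x : G) ∈ Q₀ := by rw [hQ₀]; exact ⟨hx, hxD⟩
    exact (hπ1 x).2 hxQ₀
  -- (13) prime action
  have hpr : ∀ x ∈ (K.subgroupOf M).map π, x ≠ 1 →
      (Q.subgroupOf M).map π ⊓ centralizer ({x} : Set (↥M ⧸ Q₀.subgroupOf M)) =
        (Q.subgroupOf M).map π ⊓
          centralizer (((K.subgroupOf M).map π : Subgroup (↥M ⧸ Q₀.subgroupOf M)) : Set _) := by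
    rintro _ ⟨k, hk, rfl⟩ hr1
    rw [SetLike.mem_coe, Subgroup.mem_subgroupOf] at hk
    have hk1 : (k : G) ≠ 1 := by
      intro e
      apply hr1
      have e' : k = 1 := Subtype.ext e
      rw [e', map_one]
    have hKz : Subgroup.zpowers (k : G) = K := by
      apply Subgroup.eq_of_le_of_card_ge ((Subgroup.zpowers_le).2 hk)
      rw [Nat.card_zpowers]
      have h1 : orderOf (k : G) ∣ Nat.card K := by
        have h' := orderOf_dvd_natCard (⟨k, hk⟩ : K)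
        rwa [Subgroup.orderOf_mk] at h'
      rcases (Nat.dvd_prime hKp).1 h1 with h | h
      · exact absurd (orderOf_eq_one_iff.1 h) hk1
      · exact le_of_eq h.symm
    congr 1
    ext y
    rw [Subgroup.mem_centralizer_iff, Subgroup.mem_centralizer_iff]
    constructor
    · rintro h _ ⟨k', hk', rfl⟩
      rw [SetLike.mem_coe, Subgroup.mem_subgroupOf, ← hKz] at hk'
      obtain ⟨n, hn⟩ := Subgroup.mem_zpowers_iff.1 hk'
      have e : k' = k ^ n := Subtype.ext (by rw [Subgroup.coe_zpow]; exact hn.symm)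
      rw [e, map_zpow]
      have hc : Commute (π k) y := h (π k) (Set.mem_singleton _)
      exact (hc.zpow_left n).eq
    · intro h r hr
      rw [Set.mem_singleton_iff] at hr
      rw [hr]
      exact h (π k) ⟨k, Subgroup.mem_subgroupOf.2 hk, rfl⟩
  -- apply row S1446
  obtain ⟨-, hcardX, hcyc⟩ := Cfsg.Agent.S1446.result ((D.subgroupOf M).map π)
    ((K.subgroupOf M).map π) ((Q.subgroupOf M).map π) hKX1 hRX1 hKR hRK hfrob hsolv hoddX hMX1
    hMXp.isNilpotent (hXn _) (hXn _) hcop hCK hpr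
  -- cardinalities
  have hcardMX : Nat.card ↥((Q.subgroupOf M).map π) = q ^ Nat.card K := by
    rw [← Subgroup.relIndex_ker, hker, Subgroup.relIndex_subgroupOf hQM]
    have h1 : (⊥ : Subgroup G).relIndex Q₀ * Q₀.relIndex Q = (⊥ : Subgroup G).relIndex Q :=
      Subgroup.relIndex_mul_relIndex _ _ _ bot_le hQ₀Q
    rw [Subgroup.relIndex_bot_left, Subgroup.relIndex_bot_left, hcard] at h1
    exact Nat.eq_of_mul_eq_mul_left Nat.card_pos h1
  have hcardRX : Nat.card ↥((K.subgroupOf M).map π) = Nat.card K := by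
    rw [← Subgroup.relIndex_ker, hker, Subgroup.relIndex_subgroupOf hKM,
      ← Subgroup.inf_relIndex_right]
    have h0 : Q₀ ⊓ K = ⊥ := by
      rw [Subgroup.eq_bot_iff_forall]
      rintro y ⟨hy1, hy2⟩
      exact bg56f_eq_one hq hQ hKcard (hQ₀Q hy1) hy2
    rw [h0, Subgroup.relIndex_bot_left]
  rw [hcardMX, hcardRX] at hcardX
  have hC : Nat.card ↥((Q.subgroupOf M).map π ⊓
      centralizer (((K.subgroupOf M).map π : Subgroup (↥M ⧸ Q₀.subgroupOf M)) : Set _)) = q :=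
    (Nat.pow_left_injective hKp.pos.ne' hcardX).symm
  have hcomm := hcyc (isCyclic_of_prime_card hC)
  have hDD : ⁅D.subgroupOf M, D.subgroupOf M⁆ ≤
      (centralizer (((Q.subgroupOf M).map π : Subgroup (↥M ⧸ Q₀.subgroupOf M)) : Set _)).comap π := by
    rw [← Subgroup.map_le_iff_le_comap, Subgroup.map_commutator]
    exact hcomm
  intro d hd x hx
  have hdM : d ∈ M := hDM (hDDle hd)
  have hd' : (⟨d, hdM⟩ : ↥M) ∈ ⁅D.subgroupOf M, D.subgroupOf M⁆ := by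
    have e : (⁅D.subgroupOf M, D.subgroupOf M⁆).map M.subtype = ⁅D, D⁆ := by
      rw [Subgroup.map_commutator, Subgroup.map_subgroupOf_eq_of_le hDM]
    rw [← e] at hd
    obtain ⟨y, hy, hyd⟩ := hd
    have e2 : y = ⟨d, hdM⟩ := Subtype.ext hyd
    rwa [← e2]
  have hcd := hDD hd'
  rw [Subgroup.mem_comap, Subgroup.mem_centralizer_iff] at hcd
  have hxM : x ∈ M := hQM hx
  have hc := hcd (π ⟨x, hxM⟩) ⟨⟨x, hxM⟩, Subgroup.mem_subgroupOf.2 hx, rfl⟩
  have h1 : π (⟨d, hdM⟩ * ⟨x, hxM⟩ * ⟨d, hdM⟩⁻¹ * ⟨x, hxM⟩⁻¹) = 1 := by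
    rw [map_mul, map_mul, map_mul, map_inv, map_inv, ← hc]
    group
  exact (hπ1 _).1 h1

end Cfsg.Agent.Helper99
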