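import Cfsg.Agent.Helper85.CEDefs

/-!
# helper99: CALL S5155 piece CONV (`ce_conv`): the extension condition of `IsNormalIn` in Prelude
form from `CGood F Y (autFun a)`.
-/

set_option autoImplicit false

namespace Cfsg.Agent.Helper99.CECONV

open Cfsg Cfsg.FusionSystem Cfsg.Agent.Helper85 Cfsg.Agent.Helper88

variable {Ω : Type*} [Group Ω] {S : Subgroup Ω}

theorem ce_conv [Finite S] {F : FusionSystem S} {Y : Subgroup Ω} (hYS : Y ≤ S) {a : MulAut Y}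
    (h : CGood F Y (autFun a)) :
    ∃ β ∈ F.autGroup (Y ⊔ centralizerIn S Y),
      (∀ x : Y, ((β (Subgroup.inclusion le_sup_left x) : ↥(Y ⊔ centralizerIn S Y)) : Ω) =
        ((a x : Y) : Ω)) ∧
      ∀ c : ↥(Y ⊔ centralizerIn S Y), (c : Ω) ∈ centralizerIn S Y →
        (c : Ω)⁻¹ * ((β c : ↥(Y ⊔ centralizerIn S Y)) : Ω) ∈
          Y ⊓ Subgroup.centralizer (Y : Set Ω) := by
  obtain ⟨φ, hφ, hφY, hφC⟩ := h
  have hmaps := cs_mapsTo hφ hφY
  have hcent : ∀ x ∈ centralizerIn S Y, φ x ∈ centralizerIn S Y :=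
    fun x hx => cs_cent_mem_aut hφ hφY hx
  have himg := hφ.img_eq_of_mapsTo hmaps
  rw [sup_comm (centralizerIn S Y) Y] at hφ himg
  obtain ⟨β, hβ, hβφ⟩ := hφ.exists_aut himg
  refine ⟨β, hβ, fun x => ?_, fun c hc => ?_⟩
  · have h1 := hβφ (x : Ω) (Subgroup.mem_sup_left x.2)
    rw [autFun_apply' β (Subgroup.mem_sup_left x.2)] at h1
    have h2 := hφY (x : Ω) x.2
    rw [autFun_apply] at h2
    have e : Subgroup.inclusion (le_sup_left : Y ≤ Y ⊔ centralizerIn S Y) x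
        = ⟨(x : Ω), Subgroup.mem_sup_left x.2⟩ := rfl
    rw [e, h1, h2]
  · have h1 := hβφ (c : Ω) c.2
    rw [autFun_apply] at h1
    rw [h1]
    refine Subgroup.mem_inf.2 ⟨hφC _ hc, ?_⟩
    have hc' : (c : Ω) ∈ S ⊓ Subgroup.centralizer (Y : Set Ω) := hc
    have hφc' : φ (c : Ω) ∈ S ⊓ Subgroup.centralizer (Y : Set Ω) := hcent _ hc
    exact Subgroup.mul_mem _ (Subgroup.inv_mem _ (Subgroup.mem_inf.1 hc').2)
      (Subgroup.mem_inf.1 hφc').2

end Cfsg.Agent.Helper99.CECONV
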