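import Cfsg.Agent.Helper85.CEDefs

/-!
# helper99: CALL S5155 piece EXTC (`ce_extc`): from the `p'`-elements to all of `Aut_D(Y)`.
-/

set_option autoImplicit false

namespace Cfsg.Agent.Helper99.CEEXTC

open Cfsg Cfsg.FusionSystem Cfsg.Agent.Helper85 Cfsg.Agent.Helper88

variable {Ω : Type*} [Group Ω] {S : Subgroup Ω}

theorem ce_extc [Finite S] {p : ℕ} [Fact p.Prime] (hS : IsPGroup p S) {F : FusionSystem S}
    {Y : Subgroup Ω} (hYS : Y ≤ S) (D : FusionSystem Y) (hDs : D.IsSaturated p)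
    (hpp : ∀ a ∈ D.autGroup Y, ∀ m : ℕ, a ^ m = 1 → m.Coprime p → CGood F Y (autFun a)) :
    ∀ a ∈ D.autGroup Y, CGood F Y (autFun a) := by
  have hfinY : Finite Y := Helper88.finite_of_le hYS
  obtain ⟨P₀, hP₀⟩ := (top_fullyAutomized hDs).2
  have htop : cgSub F D Y hYS = ⊤ := by
    refine sup_pprime_sylow_eq_top p P₀ _ ?_ ?_
    · intro b hb
      rw [hP₀, Subgroup.mem_subgroupOf] at hb
      obtain ⟨t, ht, hbt⟩ := (Helper88.mem_autInducedBy_iff Y Y _).1 hb
      show CGood F Y (autFun (b : MulAut Y))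
      refine ⟨fun x => t * x * t⁻¹, isMap_conj F (sup_le inf_le_left hYS) (hYS ht),
        fun x hx => ?_, fun x hx => ?_⟩
      · rw [autFun_apply' _ hx]; exact (hbt ⟨x, hx⟩).symm
      · have h := (mem_centralizerIn_iff.1 hx).2 t ht
        have e : x⁻¹ * (t * x * t⁻¹) = 1 := by rw [h]; group
        show x⁻¹ * (t * x * t⁻¹) ∈ Y
        rw [e]; exact Y.one_mem
    · intro b m hmp hbm
      have hbm' : (b : MulAut Y) ^ m = 1 := by simpa using congrArg Subtype.val hbm
      exact hpp b b.2 m hbm' hmp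
  intro a ha
  have h : (⟨a, ha⟩ : D.autGroup Y) ∈ cgSub F D Y hYS := by
    rw [htop]; exact Subgroup.mem_top _
  exact h

end Cfsg.Agent.Helper99.CEEXTC
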