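import Cfsg.Prelude.Def_GeometricClasses
import Cfsg.Agent.Helper99.JordanA
import Cfsg.Agent.Helper99.JordanB

set_option autoImplicit false

namespace Cfsg.Agent.Helper99

open Module

/-- if a unipotent `u` of order `p` with Jordan type `μ` (parts at most `p`, fewer than `a`
parts equal to `p`) permutes the summands of a decomposition into `a`-spaces, then `μ`
contains a partition of `a` -/
theorem decomposition_sub_partition {F : Type*} [Field F] {p : ℕ} [Fact p.Prime] [CharP F p]
    {n a t : ℕ} (u : (Fin n → F) →ₗ[F] (Fin n → F)) (hup : u ^ p = 1)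
    (D : Fin t → Submodule F (Fin n → F)) (hD : Cfsg.Geo.IsMDecomposition a D)
    (σ : Equiv.Perm (Fin t)) (hσ : ∀ j, (D j).map u = D (σ j))
    (μ : Multiset ℕ) (hμ : ∀ b ∈ μ, b ≤ p) (hsum : μ.sum = n) (hcount : μ.count p < a)
    (hker : ∀ k, finrank F (LinearMap.ker ((u - 1) ^ k)) = (μ.map (min k)).sum) :
    ∃ ν : Multiset ℕ, ν ≤ μ ∧ ν.sum = a := by
  classical
  have hinj : Function.Injective D := hD.indep.injective (fun i h => by
    have h1 := hD.finrank_eq i
    rw [h, finrank_bot] at h1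
    have := hD.pos
    omega)
  have hpow : ∀ k j, (D j).map (u ^ k) = D ((σ ^ k) j) := by
    intro k
    induction k with
    | zero =>
      intro j
      rw [pow_zero, pow_zero, Module.End.one_eq_id, Submodule.map_id, Equiv.Perm.one_apply]
    | succ k ih =>
      intro j
      rw [pow_succ, Module.End.mul_eq_comp, Submodule.map_comp, hσ, ih, pow_succ,
        Equiv.Perm.mul_apply]
  have hσp : ∀ j, (σ ^ p) j = j := fun j => by
    apply hinj
    rw [← hpow, hup, Module.End.one_eq_id, Submodule.map_id]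
  by_cases hfix : ∃ j₀, σ j₀ = j₀
  · obtain ⟨j₀, hj₀⟩ := hfix
    have hX : ∀ v ∈ D j₀, (u - 1) v ∈ D j₀ := by
      intro v hv
      have h2 : u v ∈ D j₀ := by
        have h1 : u v ∈ (D j₀).map u := Submodule.mem_map_of_mem hv
        rw [hσ, hj₀] at h1
        exact h1
      rw [LinearMap.sub_apply, Module.End.one_apply]
      exact (D j₀).sub_mem h2 hv
    have hYu : ∀ v ∈ (⨆ (k) (_ : k ≠ j₀), D k), u v ∈ (⨆ (k) (_ : k ≠ j₀), D k) := by
      intro v hv
      have h1 : u v ∈ (⨆ (k) (_ : k ≠ j₀), D k).map u := Submodule.mem_map_of_mem hv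
      simp only [Submodule.map_iSup, hσ] at h1
      refine (iSup₂_le ?_ : (⨆ k, ⨆ (_ : k ≠ j₀), D (σ k)) ≤ _) h1
      intro k hk
      exact le_iSup₂ (f := fun k (_ : k ≠ j₀) => D k) (σ k)
        (fun h => hk (σ.injective (h.trans hj₀.symm)))
    have hY : ∀ v ∈ (⨆ (k) (_ : k ≠ j₀), D k), (u - 1) v ∈ (⨆ (k) (_ : k ≠ j₀), D k) := by
      intro v hv
      rw [LinearMap.sub_apply, Module.End.one_apply]
      exact Submodule.sub_mem _ (hYu v hv) hv
    have hcompl : IsCompl (D j₀) (⨆ (k) (_ : k ≠ j₀), D k) := by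
      refine ⟨hD.indep j₀, ?_⟩
      rw [codisjoint_iff, eq_top_iff, ← hD.iSup_eq_top]
      apply iSup_le
      intro k
      by_cases hk : k = j₀
      · rw [hk]; exact le_sup_left
      · exact le_sup_of_le_right (le_iSup₂ (f := fun k (_ : k ≠ j₀) => D k) k hk)
    obtain ⟨ν, hν, hνs⟩ := exists_sub_partition (u - 1) _ _ hcompl hX hY μ p hμ
      (by rw [hsum]; simp) hker
    exact ⟨ν, hν, by rw [hνs, hD.finrank_eq]⟩
  · exfalso
    push Not at hfix
    have hpp : p.Prime := Fact.out
    have ht : 0 < t := by have := hD.two_le; omega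
    let j : Fin t := ⟨0, ht⟩
    have ha : ∀ i, 1 ≤ i → i < p → (σ ^ i) j ≠ j := by
      intro i hi1 hip hij
      have hcop : Nat.Coprime i p :=
        Nat.Coprime.symm (hpp.coprime_iff_not_dvd.mpr (Nat.not_dvd_of_pos_of_lt hi1 hip))
      have h1 : σ ^ i ∈ MulAction.stabilizer (Equiv.Perm (Fin t)) j := hij
      have h2 : σ ^ p ∈ MulAction.stabilizer (Equiv.Perm (Fin t)) j := hσp j
      have h3 : σ ∈ MulAction.stabilizer (Equiv.Perm (Fin t)) j := by
        have hb := Int.gcd_eq_gcd_ab i p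
        have hg : Int.gcd (i : ℤ) (p : ℤ) = 1 := by
          rw [Int.gcd_natCast_natCast]; exact hcop
        have h4 : σ = (σ ^ i) ^ (Int.gcdA i p) * (σ ^ p) ^ (Int.gcdB i p) := by
          rw [← zpow_natCast σ i, ← zpow_natCast σ p, ← zpow_mul, ← zpow_mul, ← zpow_add, ← hb,
            hg]
          simp
        rw [h4]
        exact Subgroup.mul_mem _ (Subgroup.zpow_mem _ h1 _) (Subgroup.zpow_mem _ h2 _)
      exact hfix j h3
    have hpoly : ((Polynomial.X : Polynomial F) - 1) ^ (p - 1) =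
        ∑ i ∈ Finset.range p, Polynomial.X ^ i := by
      have h1 : ((Polynomial.X : Polynomial F) - 1) * ((Polynomial.X - 1) ^ (p - 1)) =
          (Polynomial.X - 1) * ∑ i ∈ Finset.range p, Polynomial.X ^ i := by
        rw [mul_geom_sum, ← pow_succ', Nat.sub_add_cancel hpp.one_le, sub_pow_char, one_pow]
      have hne : (Polynomial.X : Polynomial F) - 1 ≠ 0 := by
        have := Polynomial.X_sub_C_ne_zero (1 : F)
        simpa using this
      exact mul_left_cancel₀ hne h1
    have hT : (u - 1) ^ (p - 1) = ∑ i ∈ Finset.range p, u ^ i := by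
      have := congrArg (Polynomial.aeval u) hpoly
      simpa using this
    have hdisj : LinearMap.ker ((u - 1) ^ (p - 1)) ⊓ D j = ⊥ := by
      rw [eq_bot_iff]
      rintro v ⟨hv1, hv2⟩
      rw [SetLike.mem_coe, LinearMap.mem_ker, hT, LinearMap.sum_apply, Finset.range_eq_Ico,
        Finset.sum_eq_sum_Ico_succ_bot hpp.pos] at hv1
      have hrest : ∑ i ∈ Finset.Ico (0 + 1) p, (u ^ i) v ∈ ⨆ (k) (_ : k ≠ j), D k := by
        apply Submodule.sum_mem
        intro i hi
        rw [Finset.mem_Ico] at hi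
        have h1 : (u ^ i) v ∈ (D j).map (u ^ i) := Submodule.mem_map_of_mem hv2
        rw [hpow] at h1
        exact (le_iSup₂ (f := fun k (_ : k ≠ j) => D k) _ (ha i hi.1 hi.2)) h1
      have hv : v = -∑ i ∈ Finset.Ico (0 + 1) p, (u ^ i) v := by
        rw [pow_zero, Module.End.one_apply] at hv1
        exact eq_neg_of_add_eq_zero_left hv1
      have hvY : v ∈ ⨆ (k) (_ : k ≠ j), D k := by
        rw [hv]; exact Submodule.neg_mem _ hrest
      rw [Submodule.mem_bot]
      exact Submodule.disjoint_def.mp (hD.indep j) v hv2 hvY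
    have s := Submodule.finrank_sup_add_finrank_inf_eq (LinearMap.ker ((u - 1) ^ (p - 1))) (D j)
    rw [hdisj, finrank_bot, add_zero, hker, hD.finrank_eq] at s
    have hle : finrank F (LinearMap.ker ((u - 1) ^ (p - 1)) ⊔ D j : Submodule F (Fin n → F)) ≤
        finrank F (Fin n → F) := Submodule.finrank_le _
    rw [Module.finrank_fintype_fun_eq_card, Fintype.card_fin] at hle
    have h5 := minsum_pred μ p hμ hpp.one_le
    omega

end Cfsg.Agent.Helper99
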