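import Mathlib
import Cfsg.Prelude.Def_LocalEven
import Cfsg.Prelude.Def_ConjugacyFunctors
import Cfsg.Agent.Helper99.QdStable
import Cfsg.Agent.Helper99.QdSylow

set_option autoImplicit false
set_option linter.unusedSimpArgs false

/-!
# Isomorphism-invariant `p`-group functors do not control strong fusion in `Qd(p)`

* `qdfun_char_map`: the image of a characteristic subgroup under an isomorphism is characteristic;
* `qdfun_char_of_functor`: the values of an `IsCharPFunctor` at finite `p`-groups are characteristic;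
* `qdfun_not_controls`: if `X ≃* Qd(p)` and `W` is an `IsCharPFunctor`, then for every Sylow `p`-subgroup
  `T` of `X` the subgroup `W(T)` does not control strong fusion in `X` (any prime `p`).
-/

namespace Cfsg.Agent.Helper99

open Cfsg

universe u

/-- the image of a characteristic subgroup under an isomorphism is characteristic -/
theorem qdfun_char_map {A B : Type*} [Group A] [Group B] (φ : A ≃* B) (C : Subgroup A)
    (hC : C.Characteristic) : (C.map φ.toMonoidHom).Characteristic := by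
  rw [Subgroup.characteristic_iff_map_eq]
  intro ψ
  have h1 := Subgroup.characteristic_iff_map_eq.1 hC (φ.trans (ψ.trans φ.symm))
  ext y
  constructor
  · rintro ⟨_, ⟨x, hx, rfl⟩, rfl⟩
    refine ⟨(φ.trans (ψ.trans φ.symm)) x, ?_, ?_⟩
    · rw [← h1]; exact ⟨x, hx, rfl⟩
    · show φ (φ.symm (ψ (φ x))) = ψ (φ x)
      rw [MulEquiv.apply_symm_apply]
  · rintro ⟨x, hx, rfl⟩
    rw [← h1] at hx
    obtain ⟨x', hx', rfl⟩ := hx
    refine ⟨φ x', ⟨x', hx', rfl⟩, ?_⟩
    show ψ (φ x') = φ (φ.symm (ψ (φ x')))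
    rw [MulEquiv.apply_symm_apply]

/-- the values of an isomorphism-invariant `p`-group functor at finite `p`-groups are characteristic -/
theorem qdfun_char_of_functor {p : ℕ} (W : ∀ (Q : Type u) [Group Q], Subgroup Q)
    (hW : Cfsg.IsCharPFunctor.{u} p W) (Q : Type u) [Group Q] [Finite Q] (hQ : IsPGroup p Q) :
    (W Q).Characteristic := by
  rw [Subgroup.characteristic_iff_map_eq]
  intro φ
  exact hW.2 Q Q hQ φ

section

variable {p : ℕ} [Fact p.Prime]

/-- an element of the Borel subgroup does not conjugate the translation `(1, 0)` to the translation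
`(0, -1)` -/
theorem qdfun_borel_ne (b : ↥(Cfsg.qd p)) (hb : b ∈ qdB p) :
    b * qdu p 0 1 0 * b⁻¹ ≠ qdu p 0 0 (-1) := by
  intro h
  rw [mul_inv_eq_iff_eq_mul] at h
  obtain ⟨a, b', d, s, t, hdet, rfl⟩ := hb
  unfold qdu at h
  rw [qdMk_mul, qdMk_mul] at h
  obtain ⟨-, -, -, -, -, e6⟩ := qdMk_inj p _ _ h
  have : (1 : ZMod p) = 0 := by linear_combination e6
  exact one_ne_zero this

theorem qdfun_weyl_conj : qdN p * qdu p 0 1 0 * (qdN p)⁻¹ = qdu p 0 0 (-1) := by
  rw [mul_inv_eq_iff_eq_mul]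
  unfold qdN qdu
  rw [qdMk_mul, qdMk_mul]
  apply qdMk_congr <;> ring

/-- **No isomorphism-invariant `p`-group functor controls strong fusion in `Qd(p)`.** -/
theorem qdfun_not_controls {X : Type u} [Group X] [Finite X] (e : X ≃* ↥(Cfsg.qd p))
    (W : ∀ (Q : Type u) [Group Q], Subgroup Q) (hW : Cfsg.IsCharPFunctor.{u} p W)
    (T : Sylow p X) :
    ¬ Cfsg.ControlsStrongFusion p (Cfsg.inducedFunctor W (T : Subgroup X)) := by
  classical
  -- the corresponding Sylow subgroup of `Qd(p)`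
  let S : Sylow p ↥(Cfsg.qd p) := T.comapOfInjective e.symm.toMonoidHom e.symm.injective
    (by
      intro x _
      exact ⟨e x, e.symm_apply_apply x⟩)
  have hSmem : ∀ y : ↥(Cfsg.qd p), y ∈ (S : Subgroup ↥(Cfsg.qd p)) ↔ e.symm y ∈ (T : Subgroup X) :=
    fun y => Iff.rfl
  obtain ⟨g₀, hg₀⟩ := qdsyl_eq_conj p S
  -- the isomorphism `T ≃* S`
  let ē : ↥(T : Subgroup X) ≃* ↥(S : Subgroup ↥(Cfsg.qd p)) :=
    { toFun := fun x => ⟨e x, (hSmem _).2 (by rw [e.symm_apply_apply]; exact x.2)⟩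
      invFun := fun y => ⟨e.symm y, (hSmem _).1 y.2⟩
      left_inv := fun x => Subtype.ext (e.symm_apply_apply _)
      right_inv := fun y => Subtype.ext (e.apply_symm_apply _)
      map_mul' := fun x y => Subtype.ext (map_mul e _ _) }
  have hTp : IsPGroup p ↥(T : Subgroup X) := T.isPGroup'
  -- `T` is nontrivial
  have hSnt : Nontrivial ↥(S : Subgroup ↥(Cfsg.qd p)) := by
    have hW' : qdW p ≤ (S : Subgroup ↥(Cfsg.qd p)) := by
      have := qdW_normal p
      exact (qdW_isPGroup p).le_sylow_of_normal S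
    refine ⟨⟨⟨qdu p 0 1 0, hW' (qdu_mem_qdW p 1 0)⟩, 1, ?_⟩⟩
    intro h
    have h1 : qdu p 0 1 0 = 1 := congrArg Subtype.val h
    rw [← qdu_one] at h1
    obtain ⟨-, h2, -⟩ := qdu_inj p h1
    exact one_ne_zero h2
  have hTnt : Nontrivial ↥(T : Subgroup X) := ē.toEquiv.nontrivial
  have hC1 : W ↥(T : Subgroup X) ≠ ⊥ := hW.1 _ hTp hTnt
  have hC2 : (W ↥(T : Subgroup X)).Characteristic := qdfun_char_of_functor W hW _ hTp
  -- transport to `S`
  have hT''1 : (W ↥(T : Subgroup X)).map ē.toMonoidHom ≠ ⊥ := by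
    intro h
    exact hC1 ((Subgroup.map_eq_bot_iff_of_injective _ ē.injective).1 h)
  have hT''2 : ((W ↥(T : Subgroup X)).map ē.toMonoidHom).Characteristic :=
    qdfun_char_map ē _ hC2
  have key := qdsyl_char_transport (qdU p)
    (fun T' hT' hT'c => qdU_char_normalizer p T' hT' hT'c) g₀ _ hg₀ _ hT''1 hT''2
  have hmap : (Cfsg.inducedFunctor W (T : Subgroup X)).map e.toMonoidHom =
      ((W ↥(T : Subgroup X)).map ē.toMonoidHom).map (S : Subgroup ↥(Cfsg.qd p)).subtype := by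
    unfold Cfsg.inducedFunctor
    rw [Subgroup.map_map, Subgroup.map_map]
    rfl
  -- the normalizer of `W(T)` corresponds to a conjugate of the Borel subgroup
  have hnorm : ∀ x : X, x ∈ Subgroup.normalizer
      ((Cfsg.inducedFunctor W (T : Subgroup X) : Subgroup X) : Set X) →
      ∃ b ∈ qdB p, e x = g₀ * b * g₀⁻¹ := by
    intro x hx
    have h1 : e x ∈ (Subgroup.normalizer
        ((Cfsg.inducedFunctor W (T : Subgroup X) : Subgroup X) : Set X)).map e.toMonoidHom :=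
      ⟨x, hx, rfl⟩
    rw [Subgroup.map_equiv_normalizer_eq, hmap, key, hg₀, ← Subgroup.map_equiv_normalizer_eq,
      qdU_normalizer_eq] at h1
    obtain ⟨b, hb, hbe⟩ := h1
    exact ⟨b, hb, hbe.symm⟩
  -- the normal subgroup of translations
  rintro ⟨T', -, hctl⟩
  have hWn : ((qdW p).comap e.toMonoidHom).Normal := by
    have := qdW_normal p
    infer_instance
  have hWp : IsPGroup p ↥((qdW p).comap e.toMonoidHom) :=
    (qdW_isPGroup p).comap_of_injective _ e.injective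
  have hWT' : (qdW p).comap e.toMonoidHom ≤ (T' : Subgroup X) := hWp.le_sylow_of_normal T'
  have hz₁ : e.symm (g₀ * qdu p 0 1 0 * g₀⁻¹) ∈ (T' : Subgroup X) := by
    apply hWT'
    show e (e.symm (g₀ * qdu p 0 1 0 * g₀⁻¹)) ∈ qdW p
    rw [e.apply_symm_apply]
    exact (qdW_normal p).conj_mem _ (qdu_mem_qdW p 1 0) g₀
  obtain ⟨-, hA⟩ := hctl {e.symm (g₀ * qdu p 0 1 0 * g₀⁻¹)} (by
    intro a ha
    rw [Set.mem_singleton_iff] at ha
    rw [ha]; exact hz₁)
  obtain ⟨x, hx, hxa⟩ := hA (e.symm (g₀ * qdN p * g₀⁻¹)) (by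
    rintro _ ⟨a, ha, rfl⟩
    rw [Set.mem_singleton_iff] at ha
    rw [ha]
    apply hWT'
    show e (e.symm (g₀ * qdN p * g₀⁻¹) * e.symm (g₀ * qdu p 0 1 0 * g₀⁻¹) *
      (e.symm (g₀ * qdN p * g₀⁻¹))⁻¹) ∈ qdW p
    rw [map_mul, map_mul, map_inv, e.apply_symm_apply, e.apply_symm_apply]
    have e1 : g₀ * qdN p * g₀⁻¹ * (g₀ * qdu p 0 1 0 * g₀⁻¹) * (g₀ * qdN p * g₀⁻¹)⁻¹ =
        g₀ * (qdN p * qdu p 0 1 0 * (qdN p)⁻¹) * g₀⁻¹ := by group
    rw [e1, qdfun_weyl_conj]
    exact (qdW_normal p).conj_mem _ (qdu_mem_qdW p 0 (-1)) g₀)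
  have h2 := hxa _ (Set.mem_singleton _)
  obtain ⟨b, hb, hbe⟩ := hnorm x hx
  have h3 := congrArg e h2
  simp only [map_mul, map_inv, MulEquiv.apply_symm_apply] at h3
  rw [hbe] at h3
  have e1 : g₀ * qdN p * g₀⁻¹ * (g₀ * qdu p 0 1 0 * g₀⁻¹) * (g₀ * qdN p * g₀⁻¹)⁻¹ =
      g₀ * (qdN p * qdu p 0 1 0 * (qdN p)⁻¹) * g₀⁻¹ := by group
  have e2 : g₀ * b * g₀⁻¹ * (g₀ * qdu p 0 1 0 * g₀⁻¹) * (g₀ * b * g₀⁻¹)⁻¹ =
      g₀ * (b * qdu p 0 1 0 * b⁻¹) * g₀⁻¹ := by group
  rw [e1, e2, qdfun_weyl_conj] at h3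
  have h4 : qdu p 0 0 (-1) = b * qdu p 0 1 0 * b⁻¹ := by
    have := congrArg (fun y => g₀⁻¹ * y * g₀) h3
    simpa [mul_assoc] using this
  exact qdfun_borel_ne b hb h4.symm

end

end Cfsg.Agent.Helper99
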