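import Cfsg.Agent.Helper99.TwoByTwo

set_option autoImplicit false

namespace Cfsg.Agent.Helper99

open Matrix

theorem quat_rel1 : (QuaternionGroup.a 1 : QuaternionGroup 2) * QuaternionGroup.xa 0 *
    QuaternionGroup.a 1 = QuaternionGroup.xa 0 := by decide

theorem quat_rel2 : (QuaternionGroup.a 1 : QuaternionGroup 2) * QuaternionGroup.a 1 =
    QuaternionGroup.xa 0 * QuaternionGroup.xa 0 := by decide

theorem quat_rel3 : (QuaternionGroup.a 1 : QuaternionGroup 2) * QuaternionGroup.a 1 *
    (QuaternionGroup.a 1 * QuaternionGroup.a 1) = 1 := by decide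

theorem quat_rel4 : (QuaternionGroup.a 1 : QuaternionGroup 2) * QuaternionGroup.a 1 ≠ 1 := by
  decide

theorem quat_rel5 : ∀ g : QuaternionGroup 2, ∃ k : Fin 4,
    g = QuaternionGroup.a 1 ^ (k : ℕ) ∨
      g = QuaternionGroup.xa 0 * QuaternionGroup.a 1 ^ (k : ℕ) := by decide

/-- generators and relations of a subgroup isomorphic to `Q_8` -/
theorem quat_gens {G : Type*} [Group G] (R : Subgroup G)
    (hR : Nonempty (↥R ≃* QuaternionGroup 2)) :
    ∃ I J : G, I ∈ R ∧ J ∈ R ∧ I * J * I = J ∧ I * I = J * J ∧ I * I * (I * I) = 1 ∧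
      I * I ≠ 1 ∧ ∀ n ∈ R, ∃ k : ℕ, n = I ^ k ∨ n = J * I ^ k := by
  obtain ⟨e⟩ := hR
  refine ⟨(e.symm (QuaternionGroup.a 1) : G), (e.symm (QuaternionGroup.xa 0) : G),
    (e.symm (QuaternionGroup.a 1)).2, (e.symm (QuaternionGroup.xa 0)).2, ?_, ?_, ?_, ?_, ?_⟩
  · have h := congrArg (fun g => ((e.symm g : ↥R) : G)) quat_rel1
    simp only [map_mul, Subgroup.coe_mul] at h
    exact h
  · have h := congrArg (fun g => ((e.symm g : ↥R) : G)) quat_rel2
    simp only [map_mul, Subgroup.coe_mul] at h
    exact h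
  · have h := congrArg (fun g => ((e.symm g : ↥R) : G)) quat_rel3
    simp only [map_mul, Subgroup.coe_mul, map_one, Subgroup.coe_one] at h
    exact h
  · intro h
    apply quat_rel4
    apply e.symm.injective
    apply Subtype.ext
    simp only [map_mul, Subgroup.coe_mul, map_one, Subgroup.coe_one]
    exact h
  · intro n hn
    obtain ⟨k, hk⟩ := quat_rel5 (e ⟨n, hn⟩)
    refine ⟨k, ?_⟩
    rcases hk with hk | hk
    · left
      have h := congrArg (fun g => ((e.symm g : ↥R) : G)) hk
      simp only [map_pow, Subgroup.coe_pow, MulEquiv.symm_apply_apply] at h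
      exact h
    · right
      have h := congrArg (fun g => ((e.symm g : ↥R) : G)) hk
      simp only [map_mul, Subgroup.coe_mul, map_pow, Subgroup.coe_pow,
        MulEquiv.symm_apply_apply] at h
      exact h

section QuatMatrix

variable {F : Type*} [Field F]

/-- quaternion relations for matrices generating a copy of `Q_8` -/
theorem quat_matrix_rel (A B : Matrix (Fin 2) (Fin 2) F) (h1 : A * B * A = B)
    (h2 : A * A = B * B) (h3 : A * A * (A * A) = 1) (h4 : A * A ≠ 1) :
    A * A = -1 ∧ B * B = -1 ∧ B * A = -(A * B) ∧ A * B ≠ B * A := by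
  have hBinv : B * (A * A) * B = 1 := by
    calc B * (A * A) * B = B * (B * B) * B := by rw [h2]
      _ = (B * B) * (B * B) := by simp only [mul_assoc]
      _ = (A * A) * (A * A) := by rw [h2]
      _ = 1 := h3
  have hAB : A * B ≠ B * A := by
    intro hcomm
    apply h4
    have h5 : B = B * (A * A) := by
      calc B = A * B * A := h1.symm
        _ = B * A * A := by rw [hcomm]
        _ = B * (A * A) := by rw [mul_assoc]
    calc A * A = (B * (A * A) * B) * (A * A) := by rw [hBinv, one_mul]
      _ = B * (A * A) * (B * (A * A)) := by simp only [mul_assoc]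
      _ = B * (A * A) * B := by rw [← h5]
      _ = 1 := hBinv
  have hcA : A * (A * A) = (A * A) * A := by rw [mul_assoc]
  have hcB : B * (A * A) = (A * A) * B := by rw [h2, mul_assoc]
  obtain ⟨c, hc⟩ := m2_scalar_of_comm A B (A * A) hcA hcB hAB
  have hcc : c * c = 1 := by
    have h5 := h3
    rw [hc] at h5
    have h6 := congrFun (congrFun h5 0) 0
    simpa using h6
  have hc1 : c = -1 := by
    have h7 : (c - 1) * (c + 1) = 0 := by linear_combination hcc
    rcases mul_eq_zero.mp h7 with h8 | h8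
    · exfalso
      apply h4
      rw [hc, sub_eq_zero.mp h8, one_smul]
    · exact eq_neg_of_add_eq_zero_left h8
  have hA : A * A = -1 := by rw [hc, hc1, neg_smul, one_smul]
  have hB : B * B = -1 := by rw [← h2, hA]
  refine ⟨hA, hB, ?_, hAB⟩
  have h9 : A * (A * B * A) = A * B := by rw [h1]
  have h10 : A * (A * B * A) = -(B * A) := by
    rw [← mul_assoc, ← mul_assoc, hA]
    simp [mul_assoc]
  rw [h10] at h9
  rw [← h9, neg_neg]

/-- the Hurwitz unit `(-1 + A + B + AB)/2` normalizes the quaternion group -/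
theorem quat_hurwitz (A B : Matrix (Fin 2) (Fin 2) F) (hA : A * A = -1) (hB : B * B = -1)
    (hBA : B * A = -(A * B)) (h : F) (hh : h + h = 1) :
    ∃ Y : Matrix (Fin 2) (Fin 2) F,
      Y * Y = (-1 : F) • Y - (1 : F) • (1 : Matrix (Fin 2) (Fin 2) F) ∧
      Y * A = A * B * Y ∧ Y * B = A * Y ∧ Y * (Y * Y) = 1 ∧ (Y * Y) * Y = 1 := by
  have hA' : ∀ M : Matrix (Fin 2) (Fin 2) F, A * (A * M) = -M := fun M => by
    rw [← mul_assoc, hA, neg_mul, one_mul]
  have hB' : ∀ M : Matrix (Fin 2) (Fin 2) F, B * (B * M) = -M := fun M => by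
    rw [← mul_assoc, hB, neg_mul, one_mul]
  have hBA' : ∀ M : Matrix (Fin 2) (Fin 2) F, B * (A * M) = -(A * (B * M)) := fun M => by
    rw [← mul_assoc, hBA, neg_mul, mul_assoc]
  set W : Matrix (Fin 2) (Fin 2) F := -1 + A + B + A * B with hW
  have hWW : W * W = -(W + W) - (1 + 1 + 1 + 1) := by
    simp only [hW, mul_add, add_mul, mul_neg, neg_mul, mul_one, one_mul, mul_assoc, hA, hB, hBA,
      hA', hB', hBA', neg_neg]
    abel
  have hWA : W * A = A * B * W := by
    simp only [hW, mul_add, add_mul, mul_neg, neg_mul, mul_one, one_mul, mul_assoc, hA, hB, hBA,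
      hA', hB', hBA', neg_neg]
    abel
  have hWB : W * B = A * W := by
    simp only [hW, mul_add, add_mul, mul_neg, neg_mul, mul_one, one_mul, mul_assoc, hA, hB, hBA,
      hA', hB', hBA', neg_neg]
    abel
  have hYY : (h • W) * (h • W) = (-1 : F) • (h • W) - (1 : F) • (1 : Matrix (Fin 2) (Fin 2) F) := by
    rw [smul_mul_smul_comm, hWW]
    have e1 : h * h + h * h = h := by linear_combination h * hh
    have e2 : h * h + h * h + (h * h + h * h) = 1 := by linear_combination (2 * h + 1) * hh
    have e3 : (h * h) • (W + W) = h • W := by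
      rw [smul_add, ← add_smul, e1]
    have e4 : (h * h) • ((1 : Matrix (Fin 2) (Fin 2) F) + 1 + 1 + 1) = 1 := by
      rw [smul_add, smul_add, smul_add, ← add_smul, ← add_smul, ← add_smul]
      have : h * h + h * h + h * h + h * h = 1 := by linear_combination e2
      rw [this, one_smul]
    rw [smul_sub, smul_neg, e3, e4]
    simp
  refine ⟨h • W, hYY, ?_, ?_, ?_, ?_⟩
  · rw [smul_mul_assoc, hWA, mul_smul_comm]
  · rw [smul_mul_assoc, hWB, mul_smul_comm]
  · rw [hYY]
    simp only [mul_sub, mul_smul_comm, mul_one, hYY]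
    simp
  · rw [hYY]
    simp only [sub_mul, smul_mul_assoc, one_mul, hYY]
    simp

end QuatMatrix

end Cfsg.Agent.Helper99
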