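import Cfsg.Prelude.Def_GeometricClasses
import Cfsg.Agent.Helper99.QuatNorm

set_option autoImplicit false

namespace Cfsg.Agent.Helper99

open Matrix

section QuatMain

variable {F : Type*} [Field F]

theorem mem_specialLinear_two_iff (x : GL (Fin 2) F) :
    x ∈ Cfsg.Geo.specialLinear (Fin 2) F ↔ (x : Matrix (Fin 2) (Fin 2) F).det = 1 := by
  unfold Cfsg.Geo.specialLinear
  rw [MonoidHom.mem_ker]
  constructor
  · intro h
    have := congrArg Units.val h
    simpa using this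
  · intro h
    apply Units.ext
    simpa using h

theorem univ_sq_add_sq [Fintype F] (hodd : Fintype.card F % 2 = 1) (δ : F) :
    ∃ α β : F, α ^ 2 + 0 * α * β + 1 * β ^ 2 = δ := by
  obtain ⟨a, b, hab⟩ := FiniteField.exists_root_sum_quadratic
    (f := (Polynomial.X : Polynomial F) ^ 2) (g := Polynomial.X ^ 2 - Polynomial.C δ)
    (Polynomial.degree_X_pow 2) (Polynomial.degree_X_pow_sub_C (by norm_num) δ) hodd
  refine ⟨a, b, ?_⟩
  simp at hab
  linear_combination hab

theorem univ_eisenstein [Fintype F] (hodd : Fintype.card F % 2 = 1) (h2 : (2 : F) ≠ 0)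
    (h3 : (3 : F) ≠ 0) (δ : F) :
    ∃ α β : F, α ^ 2 + (-1) * α * β + 1 * β ^ 2 = δ := by
  have h34 : (3 / 4 : F) ≠ 0 := by
    have h4 : (4 : F) ≠ 0 := by
      have : (4 : F) = 2 * 2 := by norm_num
      rw [this]; exact mul_ne_zero h2 h2
    exact div_ne_zero h3 h4
  have hdeg : (Polynomial.C (3 / 4 : F) * Polynomial.X ^ 2 - Polynomial.C δ).degree = 2 := by
    have h1 : (Polynomial.C (3 / 4 : F) * Polynomial.X ^ 2).degree = 2 := by
      rw [Polynomial.degree_C_mul_X_pow 2 h34]; rfl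
    rw [Polynomial.degree_sub_C (by rw [h1]; norm_num), h1]
  obtain ⟨a, b, hab⟩ := FiniteField.exists_root_sum_quadratic
    (f := (Polynomial.X : Polynomial F) ^ 2)
    (g := Polynomial.C (3 / 4 : F) * Polynomial.X ^ 2 - Polynomial.C δ)
    (Polynomial.degree_X_pow 2) hdeg hodd
  refine ⟨a + b / 2, b, ?_⟩
  simp at hab
  have h4 : (4 : F) ≠ 0 := by
    have : (4 : F) = 2 * 2 := by norm_num
    rw [this]; exact mul_ne_zero h2 h2
  field_simp
  field_simp at hab
  linear_combination hab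

/-- conjugacy in `SL_2` of non-scalar matrices with the same quadratic relation -/
theorem gl2_conj_sl (x y : GL (Fin 2) F) (t d : F)
    (hX : (x : Matrix (Fin 2) (Fin 2) F) * (x : Matrix (Fin 2) (Fin 2) F) =
      t • (x : Matrix (Fin 2) (Fin 2) F) - d • (1 : Matrix (Fin 2) (Fin 2) F))
    (hY : (y : Matrix (Fin 2) (Fin 2) F) * (y : Matrix (Fin 2) (Fin 2) F) =
      t • (y : Matrix (Fin 2) (Fin 2) F) - d • (1 : Matrix (Fin 2) (Fin 2) F))
    (hxns : ∀ z : F, (x : Matrix (Fin 2) (Fin 2) F) ≠ z • (1 : Matrix (Fin 2) (Fin 2) F))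
    (hyns : ∀ z : F, (y : Matrix (Fin 2) (Fin 2) F) ≠ z • (1 : Matrix (Fin 2) (Fin 2) F))
    (huniv : ∀ δ : F, δ ≠ 0 → ∃ α β : F, α ^ 2 + t * α * β + d * β ^ 2 = δ) :
    ∃ g ∈ Cfsg.Geo.specialLinear (Fin 2) F, g⁻¹ * x * g = y := by
  obtain ⟨P, hP, hXP⟩ := m2_conj_sl _ _ t d hX hY hxns hyns huniv
  let g : GL (Fin 2) F := Matrix.GeneralLinearGroup.mkOfDetNeZero P (by rw [hP]; exact one_ne_zero)
  have hgP : (g : Matrix (Fin 2) (Fin 2) F) = P := rfl
  refine ⟨g, (mem_specialLinear_two_iff g).mpr (by rw [hgP, hP]), ?_⟩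
  have hxg : x * g = g * y := by
    apply Units.ext
    rw [Units.val_mul, Units.val_mul, hgP]
    exact hXP
  rw [mul_assoc, hxg, ← mul_assoc, inv_mul_cancel, one_mul]

theorem hurwitz_mem_normalizer {G : Type*} [Group G] (R : Subgroup G) (I J y : G) (hI : I ∈ R)
    (hJ : J ∈ R) (hgen : ∀ n ∈ R, ∃ k : ℕ, n = I ^ k ∨ n = J * I ^ k)
    (hyI : y * I = I * J * y) (hyJ : y * J = I * y) (hy3 : y * (y * y) = 1) :
    y ∈ Subgroup.normalizer (R : Set G) := by
  have hcI : y * I * y⁻¹ = I * J := by rw [hyI, mul_inv_cancel_right]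
  have hcJ : y * J * y⁻¹ = I := by rw [hyJ, mul_inv_cancel_right]
  have hfwd : ∀ n ∈ R, y * n * y⁻¹ ∈ R := by
    intro n hn
    obtain ⟨k, rfl | rfl⟩ := hgen n hn
    · have h1 : y * I ^ k * y⁻¹ = (I * J) ^ k := by rw [← hcI, conj_pow]
      rw [h1]
      exact R.pow_mem (R.mul_mem hI hJ) k
    · have h1 : y * (J * I ^ k) * y⁻¹ = I * (I * J) ^ k := by
        have e1 : y * (J * I ^ k) * y⁻¹ = (y * J * y⁻¹) * (y * I ^ k * y⁻¹) := by group
        rw [e1, hcJ, ← conj_pow, hcI]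
      rw [h1]
      exact R.mul_mem hI (R.pow_mem (R.mul_mem hI hJ) k)
  rw [Subgroup.mem_set_normalizer_iff]
  intro n
  refine ⟨fun hn => hfwd n hn, fun hn => ?_⟩
  have h2 := hfwd _ (hfwd _ hn)
  have h3 : y * (y * (y * n * y⁻¹) * y⁻¹) * y⁻¹ = (y * (y * y)) * n * (y * (y * y))⁻¹ := by
    group
  rw [h3, hy3] at h2
  simpa using h2

/-- matrix form of the quaternion relations for generators of a copy of `Q_8` in `GL_2(F)` -/
theorem quat_gens_matrix (R : Subgroup (GL (Fin 2) F)) (hR : Nonempty (↥R ≃* QuaternionGroup 2)) :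
    ∃ I J : GL (Fin 2) F, I ∈ R ∧ J ∈ R ∧
      (∀ n ∈ R, ∃ k : ℕ, n = I ^ k ∨ n = J * I ^ k) ∧ I * I ≠ 1 ∧
      (I : Matrix (Fin 2) (Fin 2) F) * (I : Matrix (Fin 2) (Fin 2) F) = -1 ∧
      (J : Matrix (Fin 2) (Fin 2) F) * (J : Matrix (Fin 2) (Fin 2) F) = -1 ∧
      (J : Matrix (Fin 2) (Fin 2) F) * (I : Matrix (Fin 2) (Fin 2) F) =
        -((I : Matrix (Fin 2) (Fin 2) F) * (J : Matrix (Fin 2) (Fin 2) F)) ∧
      (I : Matrix (Fin 2) (Fin 2) F) * (J : Matrix (Fin 2) (Fin 2) F) ≠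
        (J : Matrix (Fin 2) (Fin 2) F) * (I : Matrix (Fin 2) (Fin 2) F) := by
  obtain ⟨I, J, hI, hJ, h1, h2, h3, h4, hgen⟩ := quat_gens R hR
  have m1 : (I : Matrix (Fin 2) (Fin 2) F) * (J : Matrix (Fin 2) (Fin 2) F) *
      (I : Matrix (Fin 2) (Fin 2) F) = (J : Matrix (Fin 2) (Fin 2) F) := by
    rw [← Units.val_mul, ← Units.val_mul, h1]
  have m2 : (I : Matrix (Fin 2) (Fin 2) F) * (I : Matrix (Fin 2) (Fin 2) F) =
      (J : Matrix (Fin 2) (Fin 2) F) * (J : Matrix (Fin 2) (Fin 2) F) := by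
    rw [← Units.val_mul, ← Units.val_mul, h2]
  have m3 : (I : Matrix (Fin 2) (Fin 2) F) * (I : Matrix (Fin 2) (Fin 2) F) *
      ((I : Matrix (Fin 2) (Fin 2) F) * (I : Matrix (Fin 2) (Fin 2) F)) = 1 := by
    rw [← Units.val_mul, ← Units.val_mul, h3, Units.val_one]
  have m4 : (I : Matrix (Fin 2) (Fin 2) F) * (I : Matrix (Fin 2) (Fin 2) F) ≠ 1 := by
    intro h
    apply h4
    apply Units.ext
    rw [Units.val_mul, Units.val_one]
    exact h
  obtain ⟨hA, hB, hBA, hAB⟩ := quat_matrix_rel _ _ m1 m2 m3 m4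
  exact ⟨I, J, hI, hJ, hgen, h4, hA, hB, hBA, hAB⟩

/-- every non-scalar `x ∈ SL_2(F)` with `x²` or `x³` scalar is `SL_2`-conjugate into the
normalizer of a quaternion subgroup -/
theorem quat_conj_into [Fintype F] (R : Subgroup (GL (Fin 2) F))
    (hR : Nonempty (↥R ≃* QuaternionGroup 2)) (hodd : Fintype.card F % 2 = 1)
    (h2 : (2 : F) ≠ 0) (h3 : (3 : F) ≠ 0) (x : GL (Fin 2) F)
    (hx : x ∈ Cfsg.Geo.specialLinear (Fin 2) F)
    (hns : ∀ z : F, (x : Matrix (Fin 2) (Fin 2) F) ≠ z • (1 : Matrix (Fin 2) (Fin 2) F))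
    (r : ℕ) (hr : r = 2 ∨ r = 3)
    (hxr : ∃ z : F, ((x ^ r : GL (Fin 2) F) : Matrix (Fin 2) (Fin 2) F) =
      z • (1 : Matrix (Fin 2) (Fin 2) F)) :
    ∃ g ∈ Cfsg.Geo.specialLinear (Fin 2) F, g⁻¹ * x * g ∈ Cfsg.Geo.subgroupNormalizer R := by
  obtain ⟨I, J, hI, hJ, hgen, h4, hA, hB, hBA, hAB⟩ := quat_gens_matrix R hR
  have hdet : (x : Matrix (Fin 2) (Fin 2) F).det = 1 := (mem_specialLinear_two_iff x).mp hx
  have hCH := m2_sq (x : Matrix (Fin 2) (Fin 2) F)
  rw [hdet] at hCH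
  have hRN : R ≤ Cfsg.Geo.subgroupNormalizer R := Subgroup.le_normalizer
  have hAns : ∀ z : F, (I : Matrix (Fin 2) (Fin 2) F) ≠ z • (1 : Matrix (Fin 2) (Fin 2) F) := by
    intro z hz
    apply hAB
    rw [hz]
    simp
  obtain ⟨z, hz⟩ := hxr
  rcases hr with rfl | rfl
  · have hXX : (x : Matrix (Fin 2) (Fin 2) F) * (x : Matrix (Fin 2) (Fin 2) F) =
        z • (1 : Matrix (Fin 2) (Fin 2) F) := by
      rw [← hz, Units.val_pow_eq_pow_val, pow_two]
    have htr : (x : Matrix (Fin 2) (Fin 2) F).trace = 0 := by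
      by_contra hne
      apply hns ((x : Matrix (Fin 2) (Fin 2) F).trace⁻¹ * (z + 1))
      have h5 : (x : Matrix (Fin 2) (Fin 2) F).trace • (x : Matrix (Fin 2) (Fin 2) F) =
          (z + 1) • (1 : Matrix (Fin 2) (Fin 2) F) := by
        rw [add_smul, ← hXX, hCH]
        abel
      rw [mul_smul, ← h5, smul_smul, inv_mul_cancel₀ hne, one_smul]
    have hX2 : (x : Matrix (Fin 2) (Fin 2) F) * (x : Matrix (Fin 2) (Fin 2) F) =
        (0 : F) • (x : Matrix (Fin 2) (Fin 2) F) - (1 : F) • (1 : Matrix (Fin 2) (Fin 2) F) := by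
      rw [hCH, htr]
    have hA2 : (I : Matrix (Fin 2) (Fin 2) F) * (I : Matrix (Fin 2) (Fin 2) F) =
        (0 : F) • (I : Matrix (Fin 2) (Fin 2) F) - (1 : F) • (1 : Matrix (Fin 2) (Fin 2) F) := by
      rw [hA]
      simp
    obtain ⟨g, hg, hgx⟩ := gl2_conj_sl x I 0 1 hX2 hA2 hns hAns
      (fun δ _ => univ_sq_add_sq hodd δ)
    exact ⟨g, hg, by rw [hgx]; exact hRN hI⟩
  · have hX3 : (x : Matrix (Fin 2) (Fin 2) F) *
        ((x : Matrix (Fin 2) (Fin 2) F) * (x : Matrix (Fin 2) (Fin 2) F)) =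
        z • (1 : Matrix (Fin 2) (Fin 2) F) := by
      rw [← hz, Units.val_pow_eq_pow_val, pow_succ', pow_two]
    have hexp : (x : Matrix (Fin 2) (Fin 2) F) *
        ((x : Matrix (Fin 2) (Fin 2) F) * (x : Matrix (Fin 2) (Fin 2) F)) =
        ((x : Matrix (Fin 2) (Fin 2) F).trace * (x : Matrix (Fin 2) (Fin 2) F).trace - 1) •
          (x : Matrix (Fin 2) (Fin 2) F) -
        (x : Matrix (Fin 2) (Fin 2) F).trace • (1 : Matrix (Fin 2) (Fin 2) F) := by
      have e1 : (x : Matrix (Fin 2) (Fin 2) F) *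
          ((x : Matrix (Fin 2) (Fin 2) F) * (x : Matrix (Fin 2) (Fin 2) F)) =
          (x : Matrix (Fin 2) (Fin 2) F).trace •
            ((x : Matrix (Fin 2) (Fin 2) F) * (x : Matrix (Fin 2) (Fin 2) F)) -
          (x : Matrix (Fin 2) (Fin 2) F) := by
        conv_lhs => rw [hCH]
        rw [mul_sub, mul_smul_comm, mul_smul_comm, mul_one, one_smul]
      rw [e1, hCH, smul_sub, smul_smul, sub_smul, one_smul, one_smul]
      abel
    have ht : ((x : Matrix (Fin 2) (Fin 2) F).trace * (x : Matrix (Fin 2) (Fin 2) F).trace - 1) •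
        (x : Matrix (Fin 2) (Fin 2) F) =
        (z + (x : Matrix (Fin 2) (Fin 2) F).trace) • (1 : Matrix (Fin 2) (Fin 2) F) := by
      rw [add_smul, ← hX3, hexp]
      abel
    have ht2 : (x : Matrix (Fin 2) (Fin 2) F).trace * (x : Matrix (Fin 2) (Fin 2) F).trace - 1 =
        0 := by
      by_contra hne
      apply hns (((x : Matrix (Fin 2) (Fin 2) F).trace *
        (x : Matrix (Fin 2) (Fin 2) F).trace - 1)⁻¹ * (z + (x : Matrix (Fin 2) (Fin 2) F).trace))
      rw [mul_smul, ← ht, smul_smul, inv_mul_cancel₀ hne, one_smul]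
    have ht' : (x : Matrix (Fin 2) (Fin 2) F).trace = 1 ∨
        (x : Matrix (Fin 2) (Fin 2) F).trace = -1 := by
      have h5 : ((x : Matrix (Fin 2) (Fin 2) F).trace - 1) *
          ((x : Matrix (Fin 2) (Fin 2) F).trace + 1) = 0 := by linear_combination ht2
      rcases mul_eq_zero.mp h5 with h | h
      · left; exact sub_eq_zero.mp h
      · right; exact eq_neg_of_add_eq_zero_left h
    obtain ⟨Y, hYY, hYA, hYB, hY3, hY3'⟩ := quat_hurwitz _ _ hA hB hBA (2⁻¹ : F)
      (by field_simp; norm_num)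
    let y : GL (Fin 2) F := ⟨Y, Y * Y, hY3, hY3'⟩
    have hyY : (y : Matrix (Fin 2) (Fin 2) F) = Y := rfl
    have hyN : y ∈ Cfsg.Geo.subgroupNormalizer R := by
      apply hurwitz_mem_normalizer R I J y hI hJ hgen
      · apply Units.ext
        simp only [Units.val_mul]
        exact hYA
      · apply Units.ext
        simp only [Units.val_mul]
        exact hYB
      · apply Units.ext
        simp only [Units.val_mul, Units.val_one]
        exact hY3
    have hYns : ∀ z : F, (y : Matrix (Fin 2) (Fin 2) F) ≠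
        z • (1 : Matrix (Fin 2) (Fin 2) F) := by
      intro w hw
      rw [hyY] at hw
      have hw0 : w ≠ 0 := by
        rintro rfl
        rw [hw] at hY3
        simp at hY3
      have e1 : w • (J : Matrix (Fin 2) (Fin 2) F) = w • (I : Matrix (Fin 2) (Fin 2) F) := by
        have h6 := hYB
        rw [hw] at h6
        simpa using h6
      have e2 : (J : Matrix (Fin 2) (Fin 2) F) = (I : Matrix (Fin 2) (Fin 2) F) := by
        have h7 := congrArg (fun M => w⁻¹ • M) e1
        simpa [smul_smul, inv_mul_cancel₀ hw0] using h7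
      apply hAB
      rw [e2]
    rcases ht' with ht1 | ht1
    · -- trace 1: pass to `x * (I * I)`, whose matrix is `-x`
      have hmm : ((I * I : GL (Fin 2) F) : Matrix (Fin 2) (Fin 2) F) = -1 := by
        rw [Units.val_mul, hA]
      have hx' : ((x * (I * I) : GL (Fin 2) F) : Matrix (Fin 2) (Fin 2) F) =
          -(x : Matrix (Fin 2) (Fin 2) F) := by
        rw [Units.val_mul, hmm, mul_neg, mul_one]
      have hX2 : ((x * (I * I) : GL (Fin 2) F) : Matrix (Fin 2) (Fin 2) F) *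
          ((x * (I * I) : GL (Fin 2) F) : Matrix (Fin 2) (Fin 2) F) =
          (-1 : F) • ((x * (I * I) : GL (Fin 2) F) : Matrix (Fin 2) (Fin 2) F) -
            (1 : F) • (1 : Matrix (Fin 2) (Fin 2) F) := by
        rw [hx', neg_mul_neg, hCH, ht1]
        simp
      have hns' : ∀ w : F, ((x * (I * I) : GL (Fin 2) F) : Matrix (Fin 2) (Fin 2) F) ≠
          w • (1 : Matrix (Fin 2) (Fin 2) F) := by
        intro w hw
        apply hns (-w)
        rw [hx'] at hw
        rw [neg_smul, ← hw, neg_neg]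
      obtain ⟨g, hg, hgx⟩ := gl2_conj_sl (x * (I * I)) y (-1) 1 hX2 hYY hns' hYns
        (fun δ _ => univ_eisenstein hodd h2 h3 δ)
      refine ⟨g, hg, ?_⟩
      have hcomm : (I * I) * g = g * (I * I) := by
        apply Units.ext
        show ((I * I : GL (Fin 2) F) : Matrix (Fin 2) (Fin 2) F) *
          (g : Matrix (Fin 2) (Fin 2) F) = (g : Matrix (Fin 2) (Fin 2) F) *
          ((I * I : GL (Fin 2) F) : Matrix (Fin 2) (Fin 2) F)
        rw [hmm]
        simp
      have h8 : g⁻¹ * x * g = y * (I * I)⁻¹ := by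
        rw [← hgx]
        calc g⁻¹ * x * g = g⁻¹ * x * (g * (I * I)) * (I * I)⁻¹ := by group
          _ = g⁻¹ * x * ((I * I) * g) * (I * I)⁻¹ := by rw [hcomm]
          _ = g⁻¹ * (x * (I * I)) * g * (I * I)⁻¹ := by group
      rw [h8]
      exact Subgroup.mul_mem _ hyN (Subgroup.inv_mem _ (hRN (R.mul_mem hI hI)))
    · have hX2 : (x : Matrix (Fin 2) (Fin 2) F) * (x : Matrix (Fin 2) (Fin 2) F) =
          (-1 : F) • (x : Matrix (Fin 2) (Fin 2) F) - (1 : F) • (1 : Matrix (Fin 2) (Fin 2) F) := by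
        rw [hCH, ht1]
      obtain ⟨g, hg, hgx⟩ := gl2_conj_sl x y (-1) 1 hX2 hYY hns hYns
        (fun δ _ => univ_eisenstein hodd h2 h3 δ)
      exact ⟨g, hg, by rw [hgx]; exact hyN⟩

/-- an element of prime order `r ≥ 5` normalizing a quaternion subgroup of `GL_2(F)` is scalar -/
theorem quat_normalizer_prime [Fintype F] (R : Subgroup (GL (Fin 2) F))
    (hR : Nonempty (↥R ≃* QuaternionGroup 2)) (r : ℕ) [Fact r.Prime] (hr : 5 ≤ r)
    (y : GL (Fin 2) F) (hy : y ∈ Cfsg.Geo.subgroupNormalizer R) (hyr : y ^ r = 1) :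
    ∃ z : F, (y : Matrix (Fin 2) (Fin 2) F) = z • (1 : Matrix (Fin 2) (Fin 2) F) := by
  classical
  obtain ⟨I, J, hI, hJ, hgen, h4, hA, hB, hBA, hAB⟩ := quat_gens_matrix R hR
  suffices hcomm : ∀ n ∈ R, y * n = n * y by
    have cI := congrArg Units.val (hcomm I hI)
    have cJ := congrArg Units.val (hcomm J hJ)
    rw [Units.val_mul, Units.val_mul] at cI cJ
    exact m2_scalar_of_comm _ _ _ cI.symm cJ.symm hAB
  have hcardR : Nat.card ↥R = 8 := by
    obtain ⟨e⟩ := hR
    rw [Nat.card_congr e.toEquiv, Nat.card_eq_fintype_card, QuaternionGroup.card]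
  have hzp : Subgroup.zpowers y ≤ Cfsg.Geo.subgroupNormalizer R :=
    (Subgroup.zpowers_le).mpr hy
  have hz : ∀ (g : ↥(Subgroup.zpowers y)) (n : ↥R),
      (g : GL (Fin 2) F) * n * (g : GL (Fin 2) F)⁻¹ ∈ R := fun g n =>
    ((Subgroup.mem_set_normalizer_iff).mp (hzp g.2) n).mp n.2
  let act : MulAction ↥(Subgroup.zpowers y) ↥R :=
    { smul := fun g n => ⟨(g : GL (Fin 2) F) * n * (g : GL (Fin 2) F)⁻¹, hz g n⟩
      one_smul := fun n => Subtype.ext (by
        show ((1 : ↥(Subgroup.zpowers y)) : GL (Fin 2) F) * n *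
          ((1 : ↥(Subgroup.zpowers y)) : GL (Fin 2) F)⁻¹ = n
        simp)
      mul_smul := fun g h n => Subtype.ext (by
        show ((g * h : ↥(Subgroup.zpowers y)) : GL (Fin 2) F) * n *
          ((g * h : ↥(Subgroup.zpowers y)) : GL (Fin 2) F)⁻¹ =
          (g : GL (Fin 2) F) * ((h : GL (Fin 2) F) * n * (h : GL (Fin 2) F)⁻¹) *
            (g : GL (Fin 2) F)⁻¹
        rw [Subgroup.coe_mul]
        group) }
  have hsmul : ∀ (g : ↥(Subgroup.zpowers y)) (n : ↥R),
      ((g • n : ↥R) : GL (Fin 2) F) = (g : GL (Fin 2) F) * n * (g : GL (Fin 2) F)⁻¹ :=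
    fun _ _ => rfl
  have hP : IsPGroup r ↥(Subgroup.zpowers y) := by
    rintro ⟨g, hg⟩
    refine ⟨1, ?_⟩
    obtain ⟨k, rfl⟩ := Subgroup.mem_zpowers_iff.mp hg
    apply Subtype.ext
    rw [pow_one, Subgroup.coe_pow, Subgroup.coe_one]
    show (y ^ k) ^ r = 1
    rw [← zpow_natCast, ← _root_.zpow_mul, mul_comm, _root_.zpow_mul, zpow_natCast, hyr,
      _root_.one_zpow]
  have hmod := hP.card_modEq_card_fixedPoints ↥R
  let K : Subgroup ↥R := (Subgroup.centralizer {y}).subgroupOf R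
  have hKfix : (MulAction.fixedPoints ↥(Subgroup.zpowers y) ↥R) = (K : Set ↥R) := by
    ext n
    rw [MulAction.mem_fixedPoints]
    constructor
    · intro h
      have h1 := congrArg Subtype.val (h ⟨y, Subgroup.mem_zpowers y⟩)
      rw [hsmul] at h1
      show (n : GL (Fin 2) F) ∈ Subgroup.centralizer {y}
      rw [Subgroup.mem_centralizer_iff]
      intro h' hh
      rw [Set.mem_singleton_iff] at hh
      subst hh
      exact mul_inv_eq_iff_eq_mul.mp h1
    · intro h g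
      have hn : (n : GL (Fin 2) F) ∈ Subgroup.centralizer {y} := h
      have hle : Subgroup.zpowers y ≤ Subgroup.centralizer {(n : GL (Fin 2) F)} := by
        rw [Subgroup.zpowers_le, Subgroup.mem_centralizer_iff]
        intro h' hh
        rw [Set.mem_singleton_iff] at hh
        subst hh
        exact ((Subgroup.mem_centralizer_iff.mp hn) y rfl).symm
      have hc : (g : GL (Fin 2) F) * n = n * g :=
        ((Subgroup.mem_centralizer_iff.mp (hle g.2)) n rfl).symm
      apply Subtype.ext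
      rw [hsmul, hc, mul_inv_cancel_right]
  have hcardK : Nat.card (MulAction.fixedPoints ↥(Subgroup.zpowers y) ↥R) = Nat.card K := by
    rw [hKfix]
    rfl
  have hKdvd : Nat.card K ∣ 8 := hcardR ▸ Subgroup.card_subgroup_dvd_card K
  have hKne : Nat.card K ≠ 1 := by
    intro h1'
    have hbot : K = ⊥ := Subgroup.card_eq_one.mp h1'
    have hm : (⟨I * I, R.mul_mem hI hI⟩ : ↥R) ∈ K := by
      show I * I ∈ Subgroup.centralizer {y}
      rw [Subgroup.mem_centralizer_iff]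
      intro h' hh
      rw [Set.mem_singleton_iff] at hh
      subst hh
      apply Units.ext
      show (h' : Matrix (Fin 2) (Fin 2) F) * ((I * I : GL (Fin 2) F) : Matrix (Fin 2) (Fin 2) F) =
        ((I * I : GL (Fin 2) F) : Matrix (Fin 2) (Fin 2) F) * (h' : Matrix (Fin 2) (Fin 2) F)
      rw [Units.val_mul, hA]
      simp
    rw [hbot, Subgroup.mem_bot] at hm
    exact h4 (congrArg Subtype.val hm)
  rw [hcardR, hcardK] at hmod
  have hpr : r.Prime := Fact.out
  have hK8 : Nat.card K = 8 := by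
    have hle : Nat.card K ≤ 8 := Nat.le_of_dvd (by norm_num) hKdvd
    have hcases : Nat.card K = 1 ∨ Nat.card K = 2 ∨ Nat.card K = 4 ∨ Nat.card K = 8 := by
      generalize Nat.card K = c at hKdvd hle
      interval_cases c <;> simp_all
    rcases hcases with h | h | h | h
    · exact absurd h hKne
    · exfalso
      rw [h] at hmod
      have h6 : r ∣ 8 - 2 := (Nat.modEq_iff_dvd' (by norm_num)).mp hmod.symm
      have h7 : r ≤ 6 := Nat.le_of_dvd (by norm_num) h6
      interval_cases r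
      · omega
      · exact absurd hpr (by decide)
    · exfalso
      rw [h] at hmod
      have h6 : r ∣ 8 - 4 := (Nat.modEq_iff_dvd' (by norm_num)).mp hmod.symm
      have h7 : r ≤ 4 := Nat.le_of_dvd (by norm_num) h6
      omega
    · exact h
  have hKtop : K = ⊤ := Subgroup.eq_top_of_card_eq K (by rw [hK8, hcardR])
  intro n hn
  have hnK : (⟨n, hn⟩ : ↥R) ∈ K := by rw [hKtop]; exact Subgroup.mem_top _
  have hc : n ∈ Subgroup.centralizer {y} := hnK
  exact (Subgroup.mem_centralizer_iff.mp hc) y rfl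

end QuatMain

end Cfsg.Agent.Helper99
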