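import Cfsg.Agent.Helper99.SixA

set_option autoImplicit false

namespace Cfsg.Agent.Helper99

open Equiv

theorem six_card_type2 :
    (Finset.univ.filter fun g : Perm (Fin 6) => g.cycleType = {2}).card = 15 := by
  rw [Equiv.Perm.card_of_cycleType]
  simp
  decide

theorem six_card_type22 :
    (Finset.univ.filter fun g : Perm (Fin 6) => g.cycleType = {2, 2}).card = 45 := by
  rw [Equiv.Perm.card_of_cycleType]
  simp
  decide

theorem six_card_cycleType_aut (α : Perm (Fin 6) ≃* Perm (Fin 6)) (g : Perm (Fin 6)) :
    (Finset.univ.filter fun h : Perm (Fin 6) => h.cycleType = (α g).cycleType).card =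
    (Finset.univ.filter fun h : Perm (Fin 6) => h.cycleType = g.cycleType).card := by
  symm
  apply Finset.card_equiv α.toEquiv
  intro h
  simp only [Finset.mem_filter, Finset.mem_univ, true_and, MulEquiv.toEquiv_eq_coe,
    EquivLike.coe_coe]
  rw [← Equiv.Perm.isConj_iff_cycleType_eq, ← Equiv.Perm.isConj_iff_cycleType_eq]
  constructor
  · intro hc
    exact α.toMonoidHom.map_isConj hc
  · intro hc
    have := α.symm.toMonoidHom.map_isConj hc
    simpa using this

/-- an automorphism of `S_6` maps transpositions to transpositions or triple transpositions -/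
theorem six_cycleType_aut (α : Perm (Fin 6) ≃* Perm (Fin 6)) (g : Perm (Fin 6))
    (hg : g.cycleType = {2}) :
    (α g).cycleType = {2} ∨ (α g).cycleType = {2, 2, 2} := by
  have ho : orderOf (α g) = 2 := by
    rw [MulEquiv.orderOf_eq, ← Equiv.Perm.lcm_cycleType, hg]
    simp
  have hp : (orderOf (α g)).Prime := by rw [ho]; exact Nat.prime_two
  obtain ⟨n, hn⟩ := Equiv.Perm.cycleType_prime_order hp
  rw [ho] at hn
  have hsum := Equiv.Perm.sum_cycleType_le (α g)
  rw [hn, Multiset.sum_replicate, Fintype.card_fin] at hsum
  have hn2 : n ≤ 2 := by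
    simp at hsum
    omega
  have hcard := six_card_cycleType_aut α g
  rw [hg, six_card_type2] at hcard
  interval_cases n
  · left; simpa using hn
  · exfalso
    have h22 : (α g).cycleType = {2, 2} := by simpa using hn
    rw [h22, six_card_type22] at hcard
    omega
  · right; rw [hn]; rfl

end Cfsg.Agent.Helper99
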