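import Cfsg.Agent.Helper99.SixB
import Cfsg.Agent.Helper99.SixC

set_option autoImplicit false

namespace Cfsg.Agent.Helper99

open Equiv

theorem six_five_cycle (σ : Perm (Fin 6)) (hσ : orderOf σ = 5) :
    ∃ c : Fin 6, σ c = c ∧ ∀ x y : Fin 6, x ≠ c → y ≠ c → ∃ k : ℤ, (σ ^ k) x = y := by
  have hp : (orderOf σ).Prime := by rw [hσ]; norm_num
  obtain ⟨n, hn⟩ := Equiv.Perm.cycleType_prime_order hp
  rw [hσ] at hn
  have hsum := Equiv.Perm.sum_cycleType_le σ
  rw [hn, Multiset.sum_replicate, Fintype.card_fin] at hsum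
  have hn0 : n = 0 := by simp at hsum; omega
  subst hn0
  have hcyc : σ.IsCycle := by
    rw [← Equiv.Perm.card_cycleType_eq_one, hn]; simp
  have hsupp : σ.support.card = 5 := by
    rw [← Equiv.Perm.sum_cycleType, hn]; simp
  have hcompl : (σ.supportᶜ).card = 1 := by
    rw [Finset.card_compl, hsupp, Fintype.card_fin]
  obtain ⟨c, hc⟩ := Finset.card_eq_one.mp hcompl
  have hmem : ∀ x, x ≠ c → σ x ≠ x := by
    intro x hx
    rw [← Equiv.Perm.mem_support]
    by_contra h
    have : x ∈ σ.supportᶜ := Finset.mem_compl.mpr h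
    rw [hc, Finset.mem_singleton] at this
    exact hx this
  refine ⟨c, ?_, fun x y hx hy => hcyc.sameCycle (hmem x hx) (hmem y hy)⟩
  have : c ∈ σ.supportᶜ := by rw [hc]; exact Finset.mem_singleton_self c
  rw [Finset.mem_compl, Equiv.Perm.mem_support, not_not] at this
  exact this

/-- an index-6 subgroup of `S_6` containing a transposition is a point stabilizer -/
theorem six_swap_mem (H : Subgroup (Perm (Fin 6))) (hH : H.index = 6) (a b : Fin 6) (hab : a ≠ b)
    (hs : swap a b ∈ H) : ∃ c : Fin 6, H = MulAction.stabilizer (Perm (Fin 6)) c := by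
  have hcard := six_card_of_index H hH
  haveI : Fact (Nat.Prime 5) := ⟨by norm_num⟩
  obtain ⟨σ, hσ⟩ := exists_prime_orderOf_dvd_card' (G := H) 5 (by rw [hcard]; norm_num)
  have hσ' : orderOf (σ : Perm (Fin 6)) = 5 := by rw [Subgroup.orderOf_coe]; exact hσ
  obtain ⟨c, hc, htr⟩ := six_five_cycle _ hσ'
  by_cases hfix : ∀ h ∈ H, h c = c
  · refine ⟨c, ?_⟩
    apply Subgroup.eq_of_le_of_card_ge
    · intro h hh; rw [MulAction.mem_stabilizer_iff]; exact hfix h hh
    · rw [six_card_stab, hcard]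
  · exfalso
    push Not at hfix
    obtain ⟨h₀, hh₀, hh₀c⟩ := hfix
    have hpow : ∀ k : ℤ, (σ : Perm (Fin 6)) ^ k ∈ H := fun k => H.zpow_mem σ.2 k
    have hpowc : ∀ k : ℤ, ((σ : Perm (Fin 6)) ^ k) c = c := fun k =>
      Equiv.Perm.zpow_apply_eq_self_of_apply_eq_self hc k
    have htrans : ∀ x, ∃ h ∈ H, h x = c := by
      intro x
      by_cases hx : x = c
      · exact ⟨1, H.one_mem, by simp [hx]⟩
      · have h1 : h₀⁻¹ c ≠ c := by
          intro h
          apply hh₀c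
          have := congrArg h₀ h
          simpa using this.symm
        obtain ⟨k, hk⟩ := htr x (h₀⁻¹ c) hx h1
        exact ⟨h₀ * (σ : Perm (Fin 6)) ^ k, H.mul_mem hh₀ (hpow k), by simp [Perm.mul_apply, hk]⟩
    obtain ⟨d₀, hd₀⟩ : ∃ d₀ : Fin 6, d₀ ≠ c := exists_ne c
    have h2 : ∀ x y, x ≠ y → ∃ h ∈ H, h x = c ∧ h y = d₀ := by
      intro x y hxy
      obtain ⟨h, hh, hx⟩ := htrans x
      have hy : h y ≠ c := by rw [← hx]; exact fun e => hxy (h.injective e).symm
      obtain ⟨k, hk⟩ := htr (h y) d₀ hy hd₀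
      refine ⟨(σ : Perm (Fin 6)) ^ k * h, H.mul_mem (hpow k) hh, ?_, ?_⟩
      · rw [Perm.mul_apply, hx]; exact hpowc k
      · rw [Perm.mul_apply, hk]
    have hall : ∀ x y, x ≠ y → swap x y ∈ H := by
      intro x y hxy
      obtain ⟨h1, hh1, h1a, h1b⟩ := h2 a b hab
      obtain ⟨h2', hh2, h2x, h2y⟩ := h2 x y hxy
      have hg : h2'⁻¹ * h1 ∈ H := H.mul_mem (H.inv_mem hh2) hh1
      have hx : (h2'⁻¹ * h1) a = x := by
        rw [Perm.mul_apply, h1a, ← h2x]; simp
      have hy : (h2'⁻¹ * h1) b = y := by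
        rw [Perm.mul_apply, h1b, ← h2y]; simp
      have : swap x y = (h2'⁻¹ * h1) * swap a b * (h2'⁻¹ * h1)⁻¹ := by
        rw [← Equiv.swap_apply_apply, hx, hy]
      rw [this]
      exact H.mul_mem (H.mul_mem hg hs) (H.inv_mem hg)
    have htop : H = ⊤ := by
      rw [eq_top_iff, ← Equiv.Perm.closure_isSwap, Subgroup.closure_le]
      rintro s ⟨x, y, hxy, rfl⟩
      exact hall x y hxy
    rw [htop, Subgroup.index_top] at hH
    omega

end Cfsg.Agent.Helper99
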