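import Cfsg.Agent.Helper99.SixD

set_option autoImplicit false

namespace Cfsg.Agent.Helper99

open Equiv

theorem five_card_perm : Nat.card (Perm (Fin 5)) = 120 := by
  rw [Nat.card_perm, Nat.card_fin]; rfl

theorem five_normal (N : Subgroup (Perm (Fin 5))) [N.Normal] (hN : N ≠ ⊥) :
    alternatingGroup (Fin 5) ≤ N :=
  Equiv.Perm.alternatingGroup_le_of_normal (by simp) ((Subgroup.nontrivial_iff_ne_bot _).mpr hN)

theorem five_card_alt : Nat.card (alternatingGroup (Fin 5)) = 60 := by
  have h := (alternatingGroup (Fin 5)).index_mul_card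
  rw [alternatingGroup.index_eq_two, five_card_perm] at h
  omega

/-- `S_5` has exactly six Sylow 5-subgroups -/
theorem five_card_sylow [Fact (Nat.Prime 5)] :
    Nat.card (Sylow 5 (Perm (Fin 5))) = 6 := by
  obtain ⟨P⟩ : Nonempty (Sylow 5 (Perm (Fin 5))) := inferInstance
  have hP : Nat.card P = 5 := by
    rw [Sylow.card_eq_multiplicity, five_card_perm]
    have : (120 : ℕ).factorization 5 = 1 := by
      decide +kernel
    rw [this]; rfl
  have hidx : (P : Subgroup (Perm (Fin 5))).index = 24 := by
    have h := (P : Subgroup (Perm (Fin 5))).index_mul_card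
    rw [five_card_perm] at h
    have hP' : Nat.card (P : Subgroup (Perm (Fin 5))) = 5 := hP
    rw [hP'] at h
    omega
  have hdvd := Sylow.card_dvd_index P
  rw [hidx] at hdvd
  have hmod := card_sylow_modEq_one 5 (Perm (Fin 5))
  have hne1 : Nat.card (Sylow 5 (Perm (Fin 5))) ≠ 1 := by
    intro h1
    have hsub : Subsingleton (Sylow 5 (Perm (Fin 5))) := by
      rw [← Finite.card_le_one_iff_subsingleton, h1]
    have hnorm : (P : Subgroup (Perm (Fin 5))).Normal := Sylow.normal_of_subsingleton P
    have hne : (P : Subgroup (Perm (Fin 5))) ≠ ⊥ := by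
      intro hb
      have hP' : Nat.card (P : Subgroup (Perm (Fin 5))) = 5 := hP
      rw [hb, Subgroup.card_bot] at hP'
      omega
    have hle := five_normal _ hne
    have := Subgroup.card_le_of_le hle
    have hP' : Nat.card (P : Subgroup (Perm (Fin 5))) = 5 := hP
    rw [five_card_alt, hP'] at this
    omega
  have hle : Nat.card (Sylow 5 (Perm (Fin 5))) ≤ 24 := Nat.le_of_dvd (by norm_num) hdvd
  have hmod' : Nat.card (Sylow 5 (Perm (Fin 5))) % 5 = 1 := hmod
  generalize Nat.card (Sylow 5 (Perm (Fin 5))) = n at *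
  interval_cases n <;> omega

/-- an index-6 subgroup of `S_6` that is transitive, hence not a point stabilizer -/
theorem six_exists_exotic : ∃ K : Subgroup (Perm (Fin 6)), K.index = 6 ∧
    ∀ a : Fin 6, K ≠ MulAction.stabilizer (Perm (Fin 6)) a := by
  classical
  have hp5 : Fact (Nat.Prime 5) := ⟨by norm_num⟩
  have hcard := five_card_sylow
  let e : Sylow 5 (Perm (Fin 5)) ≃ Fin 6 := Finite.equivFinOfCardEq hcard
  let φ : Perm (Fin 5) →* Perm (Sylow 5 (Perm (Fin 5))) := MulAction.toPermHom _ _
  have hφ : Function.Injective φ := by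
    rw [← MonoidHom.ker_eq_bot_iff]
    by_contra hne
    have hle := five_normal _ hne
    obtain ⟨P⟩ : Nonempty (Sylow 5 (Perm (Fin 5))) := inferInstance
    have hks : φ.ker ≤ MulAction.stabilizer (Perm (Fin 5)) P := by
      intro g hg
      rw [MonoidHom.mem_ker] at hg
      rw [MulAction.mem_stabilizer_iff]
      have : φ g P = P := by rw [hg]; rfl
      exact this
    have h := Subgroup.index_dvd_of_le (hle.trans hks)
    rw [alternatingGroup.index_eq_two, MulAction.index_stabilizer_of_transitive, hcard] at h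
    omega
  let ψ : Perm (Fin 5) →* Perm (Fin 6) := (e.permCongrHom : _ →* _).comp φ
  have hψ : Function.Injective ψ := e.permCongrHom.injective.comp hφ
  refine ⟨ψ.range, ?_, ?_⟩
  · have hr : Nat.card ψ.range = 120 := by
      rw [Nat.card_congr (MonoidHom.ofInjective hψ).toEquiv.symm, five_card_perm]
    have h := ψ.range.index_mul_card
    rw [hr, six_card_perm] at h
    omega
  · intro a hK
    obtain ⟨b, hb⟩ : ∃ b : Fin 6, b ≠ a := exists_ne a
    obtain ⟨g, hg⟩ := MulAction.exists_smul_eq (Perm (Fin 5)) (e.symm a) (e.symm b)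
    have hmem : ψ g ∈ ψ.range := ⟨g, rfl⟩
    rw [hK, MulAction.mem_stabilizer_iff, Equiv.Perm.smul_def] at hmem
    have h2 : ψ g a = e (g • e.symm a) := rfl
    rw [h2, hg, Equiv.apply_symm_apply] at hmem
    exact hb hmem

end Cfsg.Agent.Helper99
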