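import Cfsg.Agent.Helper99.SixE

set_option autoImplicit false

namespace Cfsg.Agent.Helper99

open Equiv

theorem six_stab_injective (c d : Fin 6)
    (h : MulAction.stabilizer (Perm (Fin 6)) c = MulAction.stabilizer (Perm (Fin 6)) d) :
    c = d := by
  by_contra hcd
  have key : ∀ c d : Fin 6, ∃ x : Fin 6, x ≠ c ∧ x ≠ d := by decide
  obtain ⟨x, hx⟩ := key c d
  have h1 : swap d x ∈ MulAction.stabilizer (Perm (Fin 6)) c := by
    rw [MulAction.mem_stabilizer_iff, Equiv.Perm.smul_def]
    exact Equiv.swap_apply_of_ne_of_ne hcd (Ne.symm hx.1)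
  rw [h, MulAction.mem_stabilizer_iff, Equiv.Perm.smul_def, Equiv.swap_apply_left] at h1
  exact hx.2 h1

theorem six_stab_swap (c : Fin 6) : ∃ x y : Fin 6, x ≠ y ∧
    swap x y ∈ MulAction.stabilizer (Perm (Fin 6)) c := by
  obtain ⟨x, y, hxy, hx, hy⟩ : ∃ x y : Fin 6, x ≠ y ∧ c ≠ x ∧ c ≠ y := by
    revert c; decide
  refine ⟨x, y, hxy, ?_⟩
  rw [MulAction.mem_stabilizer_iff, Equiv.Perm.smul_def]
  exact Equiv.swap_apply_of_ne_of_ne hx hy

/-- `S_6` has exactly twelve subgroups of index 6 -/
theorem six_count : Nat.card {H : Subgroup (Perm (Fin 6)) // H.index = 6} = 12 := by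
  classical
  obtain ⟨K, hK6, hKne⟩ := six_exists_exotic
  obtain ⟨θ, hθ⟩ := six_exists_aut K hK6
  -- F1: `K` contains no swap
  have F1 : ∀ x y : Fin 6, x ≠ y → swap x y ∉ K := by
    intro x y hxy hmem
    obtain ⟨c, hc⟩ := six_swap_mem K hK6 x y hxy hmem
    exact hKne c hc
  -- F1': no preimage of a stabilizer contains a swap
  have F1' : ∀ d x y : Fin 6, x ≠ y →
      swap x y ∉ (MulAction.stabilizer (Perm (Fin 6)) d).comap (θ : Perm (Fin 6) →* Perm (Fin 6)) := by
    intro d x y hxy hmem
    rw [Subgroup.mem_comap, MulAction.mem_stabilizer_iff, Equiv.Perm.smul_def] at hmem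
    obtain ⟨g, hg⟩ := MulAction.exists_smul_eq (Perm (Fin 6)) (0 : Fin 6) d
    rw [Equiv.Perm.smul_def] at hg
    have h1 : θ ((θ.symm g)⁻¹ * swap x y * ((θ.symm g)⁻¹)⁻¹) 0 = 0 := by
      have hm : (θ : Perm (Fin 6) →* Perm (Fin 6)) (swap x y) = θ (swap x y) := rfl
      rw [hm] at hmem
      simp only [map_mul, map_inv, MulEquiv.apply_symm_apply, inv_inv, Perm.mul_apply, hg, hmem]
      rw [← hg]; simp
    rw [← Equiv.swap_apply_apply, ← hθ] at h1
    exact F1 _ _ (fun h => hxy ((θ.symm g)⁻¹.injective h)) h1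
  have hsw12 : (swap (1 : Fin 6) 2).cycleType = {2} :=
    Equiv.Perm.isSwap_iff_cycleType.mp ⟨1, 2, by decide, rfl⟩
  -- F2: the preimage of a swap under `θ` is a triple transposition
  have F2 : (θ.symm (swap (1 : Fin 6) 2)).cycleType = {2, 2, 2} := by
    rcases six_cycleType_aut θ.symm _ hsw12 with h | h
    · exfalso
      obtain ⟨x, y, hxy, hsw⟩ := Equiv.Perm.isSwap_iff_cycleType.mpr h
      have hmem : θ.symm (swap (1 : Fin 6) 2) ∈ K := by
        rw [hθ, MulEquiv.apply_symm_apply]; decide
      rw [hsw] at hmem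
      exact F1 x y hxy hmem
    · exact h
  -- F3: `θ` maps triple transpositions to swaps
  have F3 : ∀ v : Perm (Fin 6), v.cycleType = {2, 2, 2} → (θ v).cycleType = {2} := by
    intro v hv
    have hc : IsConj v (θ.symm (swap (1 : Fin 6) 2)) := by
      rw [Equiv.Perm.isConj_iff_cycleType_eq, hv, F2]
    have hc' := θ.toMonoidHom.map_isConj hc
    rw [Equiv.Perm.isConj_iff_cycleType_eq] at hc'
    have : θ.toMonoidHom (θ.symm (swap (1 : Fin 6) 2)) = swap (1 : Fin 6) 2 := by simp
    rw [this, hsw12] at hc'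
    exact hc'
  -- the twelve subgroups
  let f : Fin 6 ⊕ Fin 6 → {H : Subgroup (Perm (Fin 6)) // H.index = 6} := fun s =>
    Sum.elim (fun c => ⟨MulAction.stabilizer (Perm (Fin 6)) c, by
        rw [MulAction.index_stabilizer_of_transitive, Nat.card_fin]⟩)
      (fun c => ⟨(MulAction.stabilizer (Perm (Fin 6)) c).comap (θ : Perm (Fin 6) →* Perm (Fin 6)), by
        have h := Subgroup.index_comap_of_surjective (f := (θ : Perm (Fin 6) →* Perm (Fin 6)))
          (H := MulAction.stabilizer (Perm (Fin 6)) c) θ.surjective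
        rw [MulAction.index_stabilizer_of_transitive, Nat.card_fin] at h
        exact h⟩) s
  have hf : Function.Bijective f := by
    constructor
    · rintro (c | c) (d | d) h
      · have h' := congrArg Subtype.val h
        simp only [f, Sum.elim_inl] at h'
        rw [six_stab_injective c d h']
      · exfalso
        have h' := congrArg Subtype.val h
        simp only [f, Sum.elim_inl, Sum.elim_inr] at h'
        obtain ⟨x, y, hxy, hmem⟩ := six_stab_swap c
        rw [h'] at hmem
        exact F1' d x y hxy hmem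
      · exfalso
        have h' := congrArg Subtype.val h
        simp only [f, Sum.elim_inl, Sum.elim_inr] at h'
        obtain ⟨x, y, hxy, hmem⟩ := six_stab_swap d
        rw [← h'] at hmem
        exact F1' c x y hxy hmem
      · have h' := congrArg Subtype.val h
        simp only [f, Sum.elim_inr] at h'
        have h'' := Subgroup.comap_injective θ.surjective h'
        rw [six_stab_injective c d h'']
    · rintro ⟨H, hH⟩
      obtain ⟨α, hα⟩ := six_exists_aut H hH
      have hwmem : α.symm (swap (1 : Fin 6) 2) ∈ H := by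
        rw [hα, MulEquiv.apply_symm_apply]; decide
      rcases six_cycleType_aut α.symm _ hsw12 with h | h
      · obtain ⟨x, y, hxy, hsw⟩ := Equiv.Perm.isSwap_iff_cycleType.mpr h
        rw [hsw] at hwmem
        obtain ⟨c, hc⟩ := six_swap_mem H hH x y hxy hwmem
        exact ⟨Sum.inl c, Subtype.ext hc.symm⟩
      · have h3 := F3 _ h
        obtain ⟨x, y, hxy, hsw⟩ := Equiv.Perm.isSwap_iff_cycleType.mpr h3
        have hmap : (H.map (θ : Perm (Fin 6) →* Perm (Fin 6))).index = 6 := by
          rw [Subgroup.index_map_equiv, hH]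
        have hmem : swap x y ∈ H.map (θ : Perm (Fin 6) →* Perm (Fin 6)) :=
          ⟨_, hwmem, hsw⟩
        obtain ⟨c, hc⟩ := six_swap_mem _ hmap x y hxy hmem
        refine ⟨Sum.inr c, Subtype.ext ?_⟩
        simp only [f, Sum.elim_inr]
        rw [← hc, Subgroup.comap_map_eq_self_of_injective θ.injective]
  rw [← Nat.card_congr (Equiv.ofBijective f hf)]
  simp

end Cfsg.Agent.Helper99
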