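import Mathlib
import Cfsg.Agent.Helper99.Blocks

set_option autoImplicit false

namespace Cfsg.Agent.Helper99

open Module

section symp

variable {F : Type*} [Field F] {V : Type*} [AddCommGroup V] [Module F V]

/-- An alternating form is skew-symmetric. -/
theorem alt_skew (B : LinearMap.BilinForm F V) (hB : ∀ u, B u u = 0) (u v : V) : B u v = - B v u := by
  have h := hB (u + v)
  simp only [map_add, LinearMap.add_apply, hB, zero_add, add_zero] at h
  exact eq_neg_of_add_eq_zero_right h

/-- A hyperbolic system `e, f` spanning `K`, adapted to the isometry `x` with `x² = z`: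
`x` permutes the hyperbolic planes through the involution `p`; on a plane fixed by `p` it either
fixes the two lines (`sw = false`) or swaps them (`sw = true`). -/
structure IsSympData (B : LinearMap.BilinForm F V) (x : V →ₗ[F] V) (K : Submodule F V) {ι : Type}
    (e f : ι → V) (p : ι → ι) (sw : ι → Bool) (c c' : ι → F) : Prop where
  span_eq : Submodule.span F (Set.range e ∪ Set.range f) = K
  ef_same : ∀ y, B (e y) (f y) = 1
  ef_ne : ∀ y y', y ≠ y' → B (e y) (f y') = 0
  ee : ∀ y y', B (e y) (e y') = 0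
  ff : ∀ y y', B (f y) (f y') = 0
  p_inv : ∀ y, p (p y) = y
  sw_fix : ∀ y, sw y = true → p y = y
  c_ne : ∀ y, c y ≠ 0
  c'_ne : ∀ y, c' y ≠ 0
  xe_sw : ∀ y, sw y = true → x (e y) = c y • f y
  xe_ns : ∀ y, sw y = false → x (e y) = c y • e (p y)
  xf_sw : ∀ y, sw y = true → x (f y) = c' y • e y
  xf_ns : ∀ y, sw y = false → x (f y) = c' y • f (p y)

namespace IsSympData

variable {B : LinearMap.BilinForm F V} {x : V →ₗ[F] V} {K : Submodule F V} {ι : Type}
  {e f : ι → V} {p : ι → ι} {sw : ι → Bool} {c c' : ι → F}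

theorem e_mem (h : IsSympData B x K e f p sw c c') (y : ι) : e y ∈ K := by
  rw [← h.span_eq]
  exact Submodule.subset_span (Or.inl ⟨y, rfl⟩)

theorem f_mem (h : IsSympData B x K e f p sw c c') (y : ι) : f y ∈ K := by
  rw [← h.span_eq]
  exact Submodule.subset_span (Or.inr ⟨y, rfl⟩)

theorem fe_same (h : IsSympData B x K e f p sw c c') (hB : ∀ u, B u u = 0) (y : ι) :
    B (f y) (e y) = -1 := by
  rw [alt_skew B hB, h.ef_same]

theorem fe_ne (h : IsSympData B x K e f p sw c c') (hB : ∀ u, B u u = 0) (y y' : ι) (hy : y ≠ y') :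
    B (f y) (e y') = 0 := by
  rw [alt_skew B hB, h.ef_ne y' y (Ne.symm hy), neg_zero]

theorem xe_mem (h : IsSympData B x K e f p sw c c') (y : ι) : x (e y) ∈ K := by
  cases hs : sw y with
  | true => rw [h.xe_sw y hs]; exact K.smul_mem _ (h.f_mem y)
  | false => rw [h.xe_ns y hs]; exact K.smul_mem _ (h.e_mem _)

theorem xf_mem (h : IsSympData B x K e f p sw c c') (y : ι) : x (f y) ∈ K := by
  cases hs : sw y with
  | true => rw [h.xf_sw y hs]; exact K.smul_mem _ (h.e_mem y)
  | false => rw [h.xf_ns y hs]; exact K.smul_mem _ (h.f_mem _)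

theorem x_mem (h : IsSympData B x K e f p sw c c') (w : V) (hw : w ∈ K) : x w ∈ K := by
  rw [← h.span_eq] at hw
  induction hw using Submodule.span_induction with
  | mem w hw =>
    rcases hw with ⟨y, rfl⟩ | ⟨y, rfl⟩
    · exact h.xe_mem y
    · exact h.xf_mem y
  | zero => rw [map_zero]; exact K.zero_mem
  | add a b _ _ ha hb => rw [map_add]; exact K.add_mem ha hb
  | smul r a _ ha => rw [map_smul]; exact K.smul_mem r ha

theorem sw_p (h : IsSympData B x K e f p sw c c') (y : ι) : sw (p y) = sw y := by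
  cases hs : sw (p y) with
  | true =>
    have h1 := h.sw_fix (p y) hs
    rw [h.p_inv] at h1
    rw [← h1] at hs
    exact hs.symm
  | false =>
    cases hs' : sw y with
    | true =>
      have h1 := h.sw_fix y hs'
      rw [h1, hs'] at hs
      exact absurd hs (by simp)
    | false => rfl

/-- Orthogonal sum of two adapted hyperbolic systems. -/
theorem combine {ι₁ ι₂ : Type} {K₁ K₂ : Submodule F V}
    {e₁ f₁ : ι₁ → V} {p₁ : ι₁ → ι₁} {sw₁ : ι₁ → Bool} {c₁ c₁' : ι₁ → F}
    {e₂ f₂ : ι₂ → V} {p₂ : ι₂ → ι₂} {sw₂ : ι₂ → Bool} {c₂ c₂' : ι₂ → F}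
    (h₁ : IsSympData B x K₁ e₁ f₁ p₁ sw₁ c₁ c₁') (h₂ : IsSympData B x K₂ e₂ f₂ p₂ sw₂ c₂ c₂')
    (horth : ∀ u ∈ K₁, ∀ w ∈ K₂, B u w = 0) (horth' : ∀ u ∈ K₁, ∀ w ∈ K₂, B w u = 0)
    (hK : K₁ ⊔ K₂ = K) :
    IsSympData B x K (Sum.elim e₁ e₂) (Sum.elim f₁ f₂) (Sum.map p₁ p₂) (Sum.elim sw₁ sw₂)
      (Sum.elim c₁ c₂) (Sum.elim c₁' c₂') where
  span_eq := by
    rw [Set.Sum.elim_range, Set.Sum.elim_range, ← hK, ← h₁.span_eq, ← h₂.span_eq,
      ← Submodule.span_union]
    congr 1
    ext v
    simp only [Set.mem_union]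
    tauto
  ef_same := by
    rintro (y | y)
    · exact h₁.ef_same y
    · exact h₂.ef_same y
  ef_ne := by
    rintro (y | y) (y' | y') hne
    · exact h₁.ef_ne y y' (fun h => hne (by rw [h]))
    · exact horth _ (h₁.e_mem y) _ (h₂.f_mem y')
    · exact horth' _ (h₁.f_mem y') _ (h₂.e_mem y)
    · exact h₂.ef_ne y y' (fun h => hne (by rw [h]))
  ee := by
    rintro (y | y) (y' | y')
    · exact h₁.ee y y'
    · exact horth _ (h₁.e_mem y) _ (h₂.e_mem y')
    · exact horth' _ (h₁.e_mem y') _ (h₂.e_mem y)
    · exact h₂.ee y y'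
  ff := by
    rintro (y | y) (y' | y')
    · exact h₁.ff y y'
    · exact horth _ (h₁.f_mem y) _ (h₂.f_mem y')
    · exact horth' _ (h₁.f_mem y') _ (h₂.f_mem y)
    · exact h₂.ff y y'
  p_inv := by
    rintro (y | y)
    · simp [h₁.p_inv]
    · simp [h₂.p_inv]
  sw_fix := by
    rintro (y | y) hs
    · simp [h₁.sw_fix y hs]
    · simp [h₂.sw_fix y hs]
  c_ne := by
    rintro (y | y)
    · exact h₁.c_ne y
    · exact h₂.c_ne y
  c'_ne := by
    rintro (y | y)
    · exact h₁.c'_ne y
    · exact h₂.c'_ne y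
  xe_sw := by
    rintro (y | y) hs
    · exact h₁.xe_sw y hs
    · exact h₂.xe_sw y hs
  xe_ns := by
    rintro (y | y) hs
    · exact h₁.xe_ns y hs
    · exact h₂.xe_ns y hs
  xf_sw := by
    rintro (y | y) hs
    · exact h₁.xf_sw y hs
    · exact h₂.xf_sw y hs
  xf_ns := by
    rintro (y | y) hs
    · exact h₁.xf_ns y hs
    · exact h₂.xf_ns y hs

/-- The orthogonal complement inside `K` of an adapted hyperbolic system spanning `W ≤ K`. -/
theorem exists_compl [Fintype ι] {W : Submodule F V} (h : IsSympData B x W e f p sw c c')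
    (hB : ∀ u, B u u = 0) (K : Submodule F V) (hWK : W ≤ K) (hKx : ∀ u ∈ K, x u ∈ K)
    (hnd : ∀ u ∈ K, u ≠ 0 → ∃ v ∈ K, B u v ≠ 0)
    (z : F) (hz : z ≠ 0) (hx : ∀ u v, B (x u) (x v) = B u v) (hxx : ∀ u, x (x u) = z • u) :
    ∃ K' : Submodule F V, K' ≤ K ∧ (∀ u ∈ K', ∀ w ∈ W, B u w = 0) ∧ (∀ u ∈ K', ∀ w ∈ W, B w u = 0) ∧
      K' ⊔ W = K ∧ (∀ u ∈ K', x u ∈ K') ∧ (∀ u ∈ K', u ≠ 0 → ∃ v ∈ K', B u v ≠ 0) ∧
      (Nonempty ι → K' ≠ K) := by
  classical
  let K' : Submodule F V :=
    { carrier := {u | u ∈ K ∧ ∀ y, B u (e y) = 0 ∧ B u (f y) = 0}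
      add_mem' := by
        rintro a b ⟨ha, ha'⟩ ⟨hb, hb'⟩
        refine ⟨K.add_mem ha hb, fun y => ?_⟩
        simp [(ha' y).1, (ha' y).2, (hb' y).1, (hb' y).2]
      zero_mem' := ⟨K.zero_mem, fun y => by simp⟩
      smul_mem' := by
        rintro r a ⟨ha, ha'⟩
        refine ⟨K.smul_mem r ha, fun y => ?_⟩
        simp [(ha' y).1, (ha' y).2] }
  have hK'K : K' ≤ K := fun u hu => hu.1
  have horth : ∀ u ∈ K', ∀ w ∈ W, B u w = 0 := by
    intro u hu w hw
    rw [← h.span_eq] at hw
    induction hw using Submodule.span_induction with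
    | mem w hw =>
      rcases hw with ⟨y, rfl⟩ | ⟨y, rfl⟩
      · exact (hu.2 y).1
      · exact (hu.2 y).2
    | zero => simp
    | add a b _ _ ha hb => rw [map_add, ha, hb, add_zero]
    | smul r a _ ha => rw [map_smul, ha, smul_zero]
  have horth' : ∀ u ∈ K', ∀ w ∈ W, B w u = 0 := by
    intro u hu w hw
    rw [alt_skew B hB, horth u hu w hw, neg_zero]
  have hsup : K' ⊔ W = K := by
    apply le_antisymm (sup_le hK'K hWK)
    intro k hk
    set w : V := ∑ y, (B k (f y) • e y - B k (e y) • f y) with hw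
    have hwW : w ∈ W := by
      rw [hw]
      refine Submodule.sum_mem _ (fun y _ => ?_)
      exact W.sub_mem (W.smul_mem _ (h.e_mem y)) (W.smul_mem _ (h.f_mem y))
    have hkw : k - w ∈ K' := by
      refine ⟨K.sub_mem hk (hWK hwW), fun y' => ⟨?_, ?_⟩⟩
      · rw [map_sub, LinearMap.sub_apply, hw, map_sum, LinearMap.sum_apply]
        rw [Finset.sum_eq_single y']
        · rw [map_sub, LinearMap.sub_apply, map_smul, map_smul, LinearMap.smul_apply,
            LinearMap.smul_apply, h.ee, h.fe_same hB]
          simp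
        · intro y _ hy
          rw [map_sub, LinearMap.sub_apply, map_smul, map_smul, LinearMap.smul_apply,
            LinearMap.smul_apply, h.ee, h.fe_ne hB y y' hy]
          simp
        · intro hy
          exact absurd (Finset.mem_univ y') hy
      · rw [map_sub, LinearMap.sub_apply, hw, map_sum, LinearMap.sum_apply]
        rw [Finset.sum_eq_single y']
        · rw [map_sub, LinearMap.sub_apply, map_smul, map_smul, LinearMap.smul_apply,
            LinearMap.smul_apply, h.ff, h.ef_same]
          simp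
        · intro y _ hy
          rw [map_sub, LinearMap.sub_apply, map_smul, map_smul, LinearMap.smul_apply,
            LinearMap.smul_apply, h.ff, h.ef_ne y y' hy]
          simp
        · intro hy
          exact absurd (Finset.mem_univ y') hy
    have : k = (k - w) + w := by abel
    rw [this]
    exact Submodule.add_mem _ (Submodule.mem_sup_left hkw) (Submodule.mem_sup_right hwW)
  have hxinv : ∀ w : V, w = x (z⁻¹ • x w) := by
    intro w
    rw [map_smul, hxx, smul_smul, inv_mul_cancel₀ hz, one_smul]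
  have hK'x : ∀ u ∈ K', x u ∈ K' := by
    intro u hu
    refine ⟨hKx u hu.1, fun y => ⟨?_, ?_⟩⟩
    · rw [hxinv (e y), hx]
      exact horth u hu _ (W.smul_mem _ (h.xe_mem y))
    · rw [hxinv (f y), hx]
      exact horth u hu _ (W.smul_mem _ (h.xf_mem y))
  refine ⟨K', hK'K, horth, horth', hsup, hK'x, ?_, ?_⟩
  · intro u hu hu0
    obtain ⟨v, hvK, hv⟩ := hnd u (hK'K hu) hu0
    rw [← hsup, Submodule.mem_sup] at hvK
    obtain ⟨v', hv', w, hw, rfl⟩ := hvK
    refine ⟨v', hv', ?_⟩
    rwa [map_add, horth u hu w hw, add_zero] at hv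
  · rintro ⟨y⟩ hKK
    have h1 : e y ∈ K' := by rw [hKK]; exact hWK (h.e_mem y)
    have h2 := (h1.2 y).2
    rw [h.ef_same] at h2
    exact one_ne_zero h2

end IsSympData

/-- A hyperbolic plane on which `x` fixes the two lines. -/
theorem IsSympData.planeA (B : LinearMap.BilinForm F V) (x : V →ₗ[F] V) (hB : ∀ u, B u u = 0)
    (u v : V) (μ ν : F) (huv : B u v = 1) (hμ : μ ≠ 0) (hν : ν ≠ 0)
    (hxu : x u = μ • u) (hxv : x v = ν • v) :
    IsSympData B x (Submodule.span F (Set.range (fun _ : Unit => u) ∪ Set.range (fun _ : Unit => v)))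
      (fun _ : Unit => u) (fun _ => v) id (fun _ => false) (fun _ => μ) (fun _ => ν) where
  span_eq := rfl
  ef_same := fun _ => huv
  ef_ne := fun y y' h => absurd (Subsingleton.elim y y') h
  ee := fun _ _ => hB u
  ff := fun _ _ => hB v
  p_inv := fun _ => rfl
  sw_fix := fun _ h => by simp at h
  c_ne := fun _ => hμ
  c'_ne := fun _ => hν
  xe_sw := fun _ h => by simp at h
  xe_ns := fun _ _ => hxu
  xf_sw := fun _ h => by simp at h
  xf_ns := fun _ _ => hxv

/-- A hyperbolic plane on which `x` swaps the two lines. -/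
theorem IsSympData.planeB (B : LinearMap.BilinForm F V) (x : V →ₗ[F] V) (hB : ∀ u, B u u = 0)
    (u v : V) (β γ : F) (huv : B u v = 1) (hβ : β ≠ 0) (hγ : γ ≠ 0)
    (hxu : x u = β • v) (hxv : x v = γ • u) :
    IsSympData B x (Submodule.span F (Set.range (fun _ : Unit => u) ∪ Set.range (fun _ : Unit => v)))
      (fun _ : Unit => u) (fun _ => v) id (fun _ => true) (fun _ => β) (fun _ => γ) where
  span_eq := rfl
  ef_same := fun _ => huv
  ef_ne := fun y y' h => absurd (Subsingleton.elim y y') h
  ee := fun _ _ => hB u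
  ff := fun _ _ => hB v
  p_inv := fun _ => rfl
  sw_fix := fun _ _ => rfl
  c_ne := fun _ => hβ
  c'_ne := fun _ => hγ
  xe_sw := fun _ _ => hxu
  xe_ns := fun _ h => by simp at h
  xf_sw := fun _ _ => hxv
  xf_ns := fun _ h => by simp at h

/-- Two orthogonal hyperbolic planes swapped by `x`. -/
theorem IsSympData.planeC (B : LinearMap.BilinForm F V) (x : V →ₗ[F] V) (hB : ∀ u, B u u = 0)
    (u v u' v' : V) (z : F) (hz : z ≠ 0) (huv : B u v = 1) (hu'v' : B u' v' = 1)
    (h1 : B u u' = 0) (h2 : B u v' = 0) (h3 : B v u' = 0) (h4 : B v v' = 0)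
    (hxu : x u = u') (hxv : x v = v') (hxu' : x u' = z • u) (hxv' : x v' = z • v) :
    IsSympData B x
      (Submodule.span F (Set.range (fun b : Bool => cond b u' u) ∪ Set.range (fun b : Bool => cond b v' v)))
      (fun b : Bool => cond b u' u) (fun b : Bool => cond b v' v) not (fun _ => false)
      (fun b : Bool => cond b z 1) (fun b : Bool => cond b z 1) where
  span_eq := rfl
  ef_same := by
    intro y
    cases y
    · exact huv
    · exact hu'v'
  ef_ne := by
    intro y y' h
    cases y <;> cases y'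
    · exact absurd rfl h
    · exact h2
    · show B u' v = 0
      rw [alt_skew B hB, h3, neg_zero]
    · exact absurd rfl h
  ee := by
    intro y y'
    cases y <;> cases y'
    · exact hB u
    · exact h1
    · show B u' u = 0
      rw [alt_skew B hB, h1, neg_zero]
    · exact hB u'
  ff := by
    intro y y'
    cases y <;> cases y'
    · exact hB v
    · exact h4
    · show B v' v = 0
      rw [alt_skew B hB, h4, neg_zero]
    · exact hB v'
  p_inv := fun y => Bool.not_not y
  sw_fix := fun _ h => by simp at h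
  c_ne := by
    intro y
    cases y
    · exact one_ne_zero
    · exact hz
  c'_ne := by
    intro y
    cases y
    · exact one_ne_zero
    · exact hz
  xe_sw := fun _ h => by simp at h
  xe_ns := by
    intro y _
    cases y
    · show x u = (1 : F) • u'
      rw [one_smul, hxu]
    · exact hxu'
  xf_sw := fun _ h => by simp at h
  xf_ns := by
    intro y _
    cases y
    · show x v = (1 : F) • v'
      rw [one_smul, hxv]
    · exact hxv'

/-- Structure theorem: a nondegenerate `x`-invariant subspace has an adapted hyperbolic system.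
If `z` is a square and the characteristic is not 2, no plane is of swapped type. -/
theorem exists_sympData [FiniteDimensional F V] (B : LinearMap.BilinForm F V) (hB : ∀ u, B u u = 0)
    (x : V →ₗ[F] V) (z : F) (hz : z ≠ 0) (hx : ∀ u v, B (x u) (x v) = B u v)
    (hxx : ∀ u, x (x u) = z • u) :
    ∀ (n : ℕ) (K : Submodule F V), Module.finrank F K = n → (∀ u ∈ K, x u ∈ K) →
      (∀ u ∈ K, u ≠ 0 → ∃ v ∈ K, B u v ≠ 0) →
      ∃ (ι : Type) (_ : Fintype ι) (e f : ι → V) (p : ι → ι) (sw : ι → Bool) (c c' : ι → F),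
        IsSympData B x K e f p sw c c' ∧
        (((∃ μ : F, μ * μ = z) ∧ (2 : F) ≠ 0) → ∀ y, sw y = false) := by
  intro n
  induction n using Nat.strong_induction_on with
  | _ n ih =>
  intro K hn hKx hnd
  by_cases hK0 : K = ⊥
  · refine ⟨Empty, inferInstance, Empty.elim, Empty.elim, id, Empty.elim, Empty.elim, Empty.elim,
      ?_, fun _ y => y.elim⟩
    exact
      { span_eq := by
          rw [hK0]
          have h1 : Set.range (Empty.elim : Empty → V) = ∅ := Set.range_eq_empty _
          rw [h1, Set.union_self, Submodule.span_empty]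
        ef_same := fun y => y.elim
        ef_ne := fun y => y.elim
        ee := fun y => y.elim
        ff := fun y => y.elim
        p_inv := fun y => y.elim
        sw_fix := fun y => y.elim
        c_ne := fun y => y.elim
        c'_ne := fun y => y.elim
        xe_sw := fun y => y.elim
        xe_ns := fun y => y.elim
        xf_sw := fun y => y.elim
        xf_ns := fun y => y.elim }
  · have key : ∃ (ι₂ : Type) (_ : Fintype ι₂) (_ : Nonempty ι₂) (W : Submodule F V) (e₂ f₂ : ι₂ → V)
        (p₂ : ι₂ → ι₂) (sw₂ : ι₂ → Bool) (c₂ c₂' : ι₂ → F),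
        W ≤ K ∧ IsSympData B x W e₂ f₂ p₂ sw₂ c₂ c₂' ∧
        (((∃ μ : F, μ * μ = z) ∧ (2 : F) ≠ 0) → ∀ y, sw₂ y = false) := by
      by_cases hc1 : ∃ u ∈ K, B u (x u) ≠ 0
      · obtain ⟨u, huK, hu⟩ := hc1
        by_cases hsq : (∃ μ : F, μ * μ = z) ∧ (2 : F) ≠ 0
        · obtain ⟨⟨μ, hμ⟩, h2⟩ := hsq
          have hμ0 : μ ≠ 0 := by
            intro h
            rw [h, mul_zero] at hμ
            exact hz hμ.symm
          set E : V := x u + μ • u with hE
          set G : V := x u - μ • u with hG
          have hδ : B E G = 2 * μ * B u (x u) := by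
            rw [hE, hG]
            simp only [map_add, map_sub, map_smul, LinearMap.add_apply,
              LinearMap.smul_apply, smul_eq_mul, hB, mul_zero]
            rw [alt_skew B hB (x u) u]
            ring
          have hδ0 : B E G ≠ 0 := by
            rw [hδ]
            exact mul_ne_zero (mul_ne_zero h2 hμ0) hu
          have hxE : x E = μ • E := by
            rw [hE, map_add, map_smul, hxx, smul_add, smul_smul, hμ, add_comm]
          have hxG : x G = (-μ) • G := by
            rw [hG, map_sub, map_smul, hxx, smul_sub, smul_smul, neg_mul, hμ, neg_smul, neg_smul,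
              sub_neg_eq_add, add_comm, ← sub_eq_add_neg]
          have hEK : E ∈ K := K.add_mem (hKx u huK) (K.smul_mem _ huK)
          have hGK : G ∈ K := K.sub_mem (hKx u huK) (K.smul_mem _ huK)
          refine ⟨Unit, inferInstance, ⟨()⟩, _, _, _, _, _, _, _, ?_,
            IsSympData.planeA B x hB E ((B E G)⁻¹ • G) μ (-μ) ?_ hμ0 (neg_ne_zero.mpr hμ0) hxE ?_,
            fun _ _ => rfl⟩
          · rw [Submodule.span_le]
            rintro w (⟨_, rfl⟩ | ⟨_, rfl⟩)
            · exact hEK
            · exact K.smul_mem _ hGK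
          · rw [map_smul, smul_eq_mul, inv_mul_cancel₀ hδ0]
          · rw [map_smul, hxG, smul_comm]
        · set β : F := B u (x u) with hβ
          have hγ : β⁻¹ * z ≠ 0 := mul_ne_zero (inv_ne_zero hu) hz
          refine ⟨Unit, inferInstance, ⟨()⟩, _, _, _, _, _, _, _, ?_,
            IsSympData.planeB B x hB u (β⁻¹ • x u) β (β⁻¹ * z) ?_ hu hγ ?_ ?_,
            fun h => absurd h hsq⟩
          · rw [Submodule.span_le]
            rintro w (⟨_, rfl⟩ | ⟨_, rfl⟩)
            · exact huK
            · exact K.smul_mem _ (hKx u huK)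
          · rw [map_smul, smul_eq_mul, inv_mul_cancel₀ hu]
          · rw [smul_smul, mul_inv_cancel₀ hu, one_smul]
          · rw [map_smul, hxx, smul_smul]
      · push Not at hc1
        by_cases hc2 : ∃ v ∈ K, ∀ μ : F, x v ≠ μ • v
        · obtain ⟨v, hvK, hv⟩ := hc2
          have hv0 : v ≠ 0 := by
            intro h
            exact hv 0 (by rw [h, map_zero, smul_zero])
          obtain ⟨m₁, hm₁K, hm₁⟩ := hnd v hvK hv0
          have hm₁' : B m₁ v ≠ 0 := by
            rw [alt_skew B hB]
            exact neg_ne_zero.mpr hm₁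
          set w' : V := B m₁ (x v) • v - B m₁ v • x v with hw'
          have hw'0 : w' ≠ 0 := by
            intro h
            apply hv ((B m₁ v)⁻¹ * B m₁ (x v))
            have h5 : B m₁ v • x v = B m₁ (x v) • v := (sub_eq_zero.mp h).symm
            rw [← smul_smul, ← h5, smul_smul, inv_mul_cancel₀ hm₁', one_smul]
          have hw'K : w' ∈ K := K.sub_mem (K.smul_mem _ hvK) (K.smul_mem _ (hKx v hvK))
          obtain ⟨m₂, hm₂K, hm₂⟩ := hnd w' hw'K hw'0
          set Δ : F := B m₁ v * B m₂ (x v) - B m₂ v * B m₁ (x v) with hΔ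
          have hΔ0 : Δ ≠ 0 := by
            have h5 : B w' m₂ = Δ := by
              rw [hw', hΔ]
              simp only [map_sub, map_smul, LinearMap.sub_apply, LinearMap.smul_apply, smul_eq_mul]
              rw [alt_skew B hB v m₂, alt_skew B hB (x v) m₂]
              ring
            rw [← h5]
            exact hm₂
          set u : V := Δ⁻¹ • (B m₂ (x v) • m₁ - B m₁ (x v) • m₂) with hu
          have huK : u ∈ K := K.smul_mem _ (K.sub_mem (K.smul_mem _ hm₁K) (K.smul_mem _ hm₂K))
          have huv : B u v = 1 := by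
            rw [hu]
            simp only [map_sub, map_smul, LinearMap.sub_apply, LinearMap.smul_apply, smul_eq_mul]
            have h5 : B m₂ (x v) * B m₁ v - B m₁ (x v) * B m₂ v = Δ := by rw [hΔ]; ring
            rw [h5, inv_mul_cancel₀ hΔ0]
          have huxv : B u (x v) = 0 := by
            rw [hu]
            simp only [map_sub, map_smul, LinearMap.sub_apply, LinearMap.smul_apply, smul_eq_mul]
            ring
          have hvxu : B v (x u) = 0 := by
            have h5 := hc1 (u + v) (K.add_mem huK hvK)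
            simp only [map_add, LinearMap.add_apply, hc1 u huK, hc1 v hvK, huxv, zero_add,
              add_zero] at h5
            exact h5
          refine ⟨Bool, inferInstance, ⟨false⟩, _, _, _, _, _, _, _, ?_,
            IsSympData.planeC B x hB u v (x u) (x v) z hz huv (by rw [hx, huv]) (hc1 u huK) huxv
              hvxu (hc1 v hvK) rfl rfl (hxx u) (hxx v),
            fun _ _ => rfl⟩
          rw [Submodule.span_le]
          rintro w (⟨b, rfl⟩ | ⟨b, rfl⟩)
          · cases b
            · exact huK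
            · exact hKx u huK
          · cases b
            · exact hvK
            · exact hKx v hvK
        · push Not at hc2
          obtain ⟨u, huK, hu0⟩ := Submodule.exists_mem_ne_zero_of_ne_bot hK0
          obtain ⟨v₀, hv₀K, hv₀⟩ := hnd u huK hu0
          set v : V := (B u v₀)⁻¹ • v₀ with hv
          have hvK : v ∈ K := K.smul_mem _ hv₀K
          have huv : B u v = 1 := by
            rw [hv, map_smul, smul_eq_mul, inv_mul_cancel₀ hv₀]
          have hv0 : v ≠ 0 := by
            intro h
            rw [h, map_zero] at huv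
            exact zero_ne_one huv
          obtain ⟨μ, hμ⟩ := hc2 u huK
          obtain ⟨ν, hν⟩ := hc2 v hvK
          have hμ0 : μ ≠ 0 := by
            intro h
            have h5 := hxx u
            rw [hμ, h, zero_smul, map_zero] at h5
            exact hu0 ((smul_eq_zero.mp h5.symm).resolve_left hz)
          have hν0 : ν ≠ 0 := by
            intro h
            have h5 := hxx v
            rw [hν, h, zero_smul, map_zero] at h5
            exact hv0 ((smul_eq_zero.mp h5.symm).resolve_left hz)
          refine ⟨Unit, inferInstance, ⟨()⟩, _, _, _, _, _, _, _, ?_,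
            IsSympData.planeA B x hB u v μ ν huv hμ0 hν0 hμ hν, fun _ _ => rfl⟩
          rw [Submodule.span_le]
          rintro w (⟨_, rfl⟩ | ⟨_, rfl⟩)
          · exact huK
          · exact hvK
    obtain ⟨ι₂, _, hne, W, e₂, f₂, p₂, sw₂, c₂, c₂', hWK, hW, hsw₂⟩ := key
    obtain ⟨K', hK'K, horth, horth', hsup, hK'x, hK'nd, hK'ne⟩ :=
      hW.exists_compl hB K hWK hKx hnd z hz hx hxx
    have hlt : Module.finrank F K' < n := by
      rw [← hn]
      exact Submodule.finrank_lt_finrank_of_lt (lt_of_le_of_ne hK'K (hK'ne hne))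
    obtain ⟨ι₁, _, e₁, f₁, p₁, sw₁, c₁, c₁', h₁, hsw₁⟩ := ih _ hlt K' rfl hK'x hK'nd
    refine ⟨ι₁ ⊕ ι₂, inferInstance, _, _, _, _, _, _, h₁.combine hW horth horth' hsup, ?_⟩
    intro hsq
    rintro (y | y)
    · exact hsw₁ hsq y
    · exact hsw₂ hsq y

end symp

end Cfsg.Agent.Helper99
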