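import Mathlib
import Cfsg.Agent.Helper99.Blocks
import Cfsg.Agent.Helper99.SympInvol

set_option autoImplicit false

namespace Cfsg.Agent.Helper99

open Module

section sympapp

variable {F : Type*} [Field F] {V : Type*} [AddCommGroup V] [Module F V]

/-- Image under `T` of the span of a set of basis vectors, when `T` permutes the basis lines. -/
theorem map_span_basis_image {κ : Type*} (b : Basis κ F V) (T : V →ₗ[F] V) (π : κ → κ) (c : κ → F)
    (hc : ∀ i, c i ≠ 0) (hb : ∀ i, T (b i) = c i • b (π i)) (S S' : Set κ) (hS : π '' S = S') :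
    (Submodule.span F (b '' S)).map T = Submodule.span F (b '' S') := by
  rw [Submodule.map_span]
  apply le_antisymm
  · rw [Submodule.span_le]
    rintro _ ⟨_, ⟨i, hi, rfl⟩, rfl⟩
    rw [hb i]
    refine Submodule.smul_mem _ _ (Submodule.subset_span ⟨π i, ?_, rfl⟩)
    rw [← hS]
    exact ⟨i, hi, rfl⟩
  · rw [Submodule.span_le]
    rintro _ ⟨j, hj, rfl⟩
    rw [← hS] at hj
    obtain ⟨i, hi, rfl⟩ := hj
    have h4 : b (π i) = (c i)⁻¹ • T (b i) := by
      rw [hb i, smul_smul, inv_mul_cancel₀ (hc i), one_smul]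
    rw [h4]
    exact Submodule.smul_mem _ _ (Submodule.subset_span ⟨b i, ⟨i, hi, rfl⟩, rfl⟩)

/-- Spans of a partition of a basis. -/
theorem span_partition {κ : Type*} {t : ℕ} (b : Basis κ F V) (S : Fin t → Set κ)
    (hdisj : ∀ k k', k ≠ k' → Disjoint (S k) (S k')) (hcover : ∀ i, ∃ k, i ∈ S k) :
    iSupIndep (fun k => Submodule.span F (b '' S k)) ∧ (⨆ k, Submodule.span F (b '' S k)) = ⊤ := by
  refine ⟨?_, ?_⟩
  · rw [iSupIndep_def]
    intro k
    have h1 : (⨆ j, ⨆ (_ : j ≠ k), Submodule.span F (b '' S j)) =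
        Submodule.span F (b '' (⋃ j, ⋃ (_ : j ≠ k), S j)) := by
      rw [Set.image_iUnion₂, Submodule.span_iUnion₂]
    rw [h1]
    apply b.linearIndependent.disjoint_span_image
    rw [Set.disjoint_left]
    intro i hi hi'
    simp only [Set.mem_iUnion] at hi'
    obtain ⟨j, hj, hij⟩ := hi'
    exact Set.disjoint_left.mp (hdisj k j (Ne.symm hj)) hi hij
  · rw [← Submodule.span_iUnion, ← Set.image_iUnion]
    have : (⋃ k, S k) = Set.univ := by
      ext i
      simp only [Set.mem_iUnion, Set.mem_univ, iff_true]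
      exact hcover i
    rw [this, Set.image_univ, b.span_eq]

/-- The dimension of the span of a finite set of basis vectors. -/
theorem finrank_span_basis_image {κ : Type*} (b : Basis κ F V) (S : Finset κ) :
    Module.finrank F (Submodule.span F (b '' (S : Set κ))) = S.card := by
  classical
  have hli : LinearIndependent F (fun i : S => b i.1) :=
    b.linearIndependent.comp _ Subtype.val_injective
  have hrange : Set.range (fun i : S => b i.1) = b '' (S : Set κ) := by
    ext y
    constructor
    · rintro ⟨i, rfl⟩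
      exact ⟨i.1, i.2, rfl⟩
    · rintro ⟨i, hi, rfl⟩
      exact ⟨⟨i, hi⟩, rfl⟩
  rw [← hrange, finrank_span_eq_card hli, Fintype.card_coe]

/-- The permutation of the index set `ι ⊕ ι` of an adapted hyperbolic basis induced by `x`. -/
def piMap {ι : Type} (p : ι → ι) (sw : ι → Bool) : ι ⊕ ι → ι ⊕ ι :=
  Sum.elim (fun y => cond (sw y) (Sum.inr y) (Sum.inl (p y)))
    (fun y => cond (sw y) (Sum.inl y) (Sum.inr (p y)))

/-- The plane index of a basis index. -/
def plIdx {ι : Type} : ι ⊕ ι → ι := Sum.elim id id

namespace IsSympData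

variable {B : LinearMap.BilinForm F V} {x : V →ₗ[F] V} {K : Submodule F V} {ι : Type}
  {e f : ι → V} {p : ι → ι} {sw : ι → Bool} {c c' : ι → F}

theorem linearIndependent [Fintype ι] (h : IsSympData B x K e f p sw c c') (hB : ∀ u, B u u = 0) :
    LinearIndependent F (Sum.elim e f) := by
  classical
  rw [Fintype.linearIndependent_iff]
  intro g hg
  rw [Fintype.sum_sum_type] at hg
  simp only [Sum.elim_inl, Sum.elim_inr] at hg
  rintro (y | y)
  · have h1 := congrArg (fun w => B w (f y)) hg
    simp only [map_add, map_sum, map_smul, LinearMap.add_apply, LinearMap.sum_apply,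
      LinearMap.smul_apply, map_zero, LinearMap.zero_apply, h.ff, smul_zero,
      Finset.sum_const_zero, add_zero] at h1
    rw [Finset.sum_eq_single y] at h1
    · simpa [h.ef_same] using h1
    · intro y' _ hy'
      rw [h.ef_ne y' y hy', smul_zero]
    · intro hy
      exact absurd (Finset.mem_univ y) hy
  · have h1 := congrArg (fun w => B w (e y)) hg
    simp only [map_add, map_sum, map_smul, LinearMap.add_apply, LinearMap.sum_apply,
      LinearMap.smul_apply, map_zero, LinearMap.zero_apply, h.ee, smul_zero,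
      Finset.sum_const_zero, zero_add] at h1
    rw [Finset.sum_eq_single y] at h1
    · simpa [h.fe_same hB] using h1
    · intro y' _ hy'
      rw [h.fe_ne hB y' y hy', smul_zero]
    · intro hy
      exact absurd (Finset.mem_univ y) hy

/-- The adapted basis and its properties. -/
theorem exists_basis [Fintype ι] (h : IsSympData B x ⊤ e f p sw c c') (hB : ∀ u, B u u = 0) :
    ∃ b : Basis (ι ⊕ ι) F V, (∀ y, b (Sum.inl y) = e y) ∧ (∀ y, b (Sum.inr y) = f y) ∧
      (∀ i, x (b i) = Sum.elim c c' i • b (piMap p sw i)) ∧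
      (∀ i i', plIdx i ≠ plIdx i' → B (b i) (b i') = 0) := by
  have hsp : ⊤ ≤ Submodule.span F (Set.range (Sum.elim e f)) := by
    rw [Set.Sum.elim_range, h.span_eq]
  refine ⟨Basis.mk (h.linearIndependent hB) hsp, fun y => by simp, fun y => by simp, ?_, ?_⟩
  · rintro (y | y)
    · cases hs : sw y with
      | true => simp [piMap, hs, h.xe_sw y hs]
      | false => simp [piMap, hs, h.xe_ns y hs]
    · cases hs : sw y with
      | true => simp [piMap, hs, h.xf_sw y hs]
      | false => simp [piMap, hs, h.xf_ns y hs]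
  · rintro (y | y) (y' | y') hne
    · simpa using h.ee y y'
    · simpa using h.ef_ne y y' hne
    · simpa using h.fe_ne hB y y' hne
    · simpa using h.ff y y'

theorem plIdx_piMap (h : IsSympData B x K e f p sw c c') (i : ι ⊕ ι) :
    plIdx (piMap p sw i) = p (plIdx i) := by
  rcases i with y | y
  · cases hs : sw y with
    | true => simp [piMap, plIdx, hs, h.sw_fix y hs]
    | false => simp [piMap, plIdx, hs]
  · cases hs : sw y with
    | true => simp [piMap, plIdx, hs, h.sw_fix y hs]
    | false => simp [piMap, plIdx, hs]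

theorem piMap_piMap (h : IsSympData B x K e f p sw c c') (i : ι ⊕ ι) :
    piMap p sw (piMap p sw i) = i := by
  rcases i with y | y
  · cases hs : sw y with
    | true => simp [piMap, hs]
    | false =>
      have h1 : sw (p y) = false := by rw [h.sw_p, hs]
      simp [piMap, hs, h1, h.p_inv]
  · cases hs : sw y with
    | true => simp [piMap, hs]
    | false =>
      have h1 : sw (p y) = false := by rw [h.sw_p, hs]
      simp [piMap, hs, h1, h.p_inv]

end IsSympData

/-- An isometry `x` with `x² = z ≠ 0` of a nondegenerate alternating space of dimension `2at`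
permutes the members of an orthogonal decomposition into `t` nondegenerate subspaces of
dimension `2a`. -/
theorem exists_symp_decomposition [FiniteDimensional F V] (B : LinearMap.BilinForm F V)
    (hB : ∀ u, B u u = 0) (hnd : ∀ u, u ≠ 0 → ∃ v, B u v ≠ 0) (x : V →ₗ[F] V) (z : F) (hz : z ≠ 0)
    (hx : ∀ u v, B (x u) (x v) = B u v) (hxx : ∀ u, x (x u) = z • u)
    (a t : ℕ) (ha : 0 < a) (hdim : Module.finrank F V = 2 * a * t) :
    ∃ D : Fin t → Submodule F V, (∀ i, Module.finrank F (D i) = 2 * a) ∧ iSupIndep D ∧ iSup D = ⊤ ∧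
      (∀ j, ∀ u ∈ D j, u ≠ 0 → ∃ v ∈ D j, B u v ≠ 0) ∧
      (∀ j j', j ≠ j' → ∀ u ∈ D j, ∀ v ∈ D j', B u v = 0) ∧
      ∃ σ : Equiv.Perm (Fin t), ∀ j, (D j).map x = D (σ j) := by
  classical
  obtain ⟨ι, hι, e, f, p, sw, c, c', h, -⟩ := exists_sympData B hB x z hz hx hxx _ ⊤ rfl
    (fun _ _ => Submodule.mem_top) (fun u _ hu => by
      obtain ⟨v, hv⟩ := hnd u hu
      exact ⟨v, Submodule.mem_top, hv⟩)
  obtain ⟨b, hbe, hbf, hbx, hgram⟩ := h.exists_basis hB
  have hcard : Fintype.card ι = a * t := by
    have h1 := Module.finrank_eq_card_basis b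
    rw [Fintype.card_sum, hdim] at h1
    have h2 : 2 * a * t = 2 * (a * t) := by ring
    omega
  let _ : LinearOrder ι := LinearOrder.lift' (Fintype.equivFin ι) (Fintype.equivFin ι).injective
  obtain ⟨Bk, hB1, -, hB3, hB4, hB5⟩ := exists_blocks p h.p_inv a ha t (Finset.univ : Finset ι)
    (fun x _ => Finset.mem_univ _) (by rw [Finset.card_univ, hcard])
  let S : Fin t → Set (ι ⊕ ι) := fun k => {i | plIdx i ∈ Bk k}
  have hdisj : ∀ k k', k ≠ k' → Disjoint (S k) (S k') := by
    intro k k' hkk'
    rw [Set.disjoint_left]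
    intro i hi hi'
    exact Finset.disjoint_left.mp (hB3 k k' hkk') hi hi'
  have hcover : ∀ i, ∃ k, i ∈ S k := fun i => hB4 (plIdx i) (Finset.mem_univ _)
  obtain ⟨hind, htop⟩ := span_partition b S hdisj hcover
  have hfin : ∀ k, Module.finrank F (Submodule.span F (b '' S k)) = 2 * a := by
    intro k
    have h1 : S k = ((Bk k).disjSum (Bk k) : Finset (ι ⊕ ι)) := by
      ext i
      rcases i with y | y <;> simp [S, plIdx]
    rw [h1, finrank_span_basis_image, Finset.card_disjSum, hB1]
    ring
  have horth : ∀ j j', j ≠ j' → ∀ u ∈ Submodule.span F (b '' S j),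
      ∀ v ∈ Submodule.span F (b '' S j'), B u v = 0 := by
    intro j j' hjj' u hu v hv
    induction hu using Submodule.span_induction with
    | mem u hu =>
      obtain ⟨i, hi, rfl⟩ := hu
      induction hv using Submodule.span_induction with
      | mem v hv =>
        obtain ⟨i', hi', rfl⟩ := hv
        apply hgram
        intro heq
        have hi2 : plIdx i ∈ Bk j := hi
        have hi2' : plIdx i' ∈ Bk j' := hi'
        rw [← heq] at hi2'
        exact Finset.disjoint_left.mp (hB3 j j' hjj') hi2 hi2'
      | zero => simp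
      | add a b _ _ ha hb => rw [map_add, ha, hb, add_zero]
      | smul r a _ ha => rw [map_smul, ha, smul_zero]
    | zero => simp
    | add a b _ _ ha hb => rw [map_add, LinearMap.add_apply, ha, hb, add_zero]
    | smul r a _ ha => rw [map_smul, LinearMap.smul_apply, ha, smul_zero]
  have hnondeg : ∀ j, ∀ u ∈ Submodule.span F (b '' S j), u ≠ 0 →
      ∃ v ∈ Submodule.span F (b '' S j), B u v ≠ 0 := by
    intro j u hu hu0
    by_contra hall
    push Not at hall
    have hzero : ∀ v ∈ Submodule.span F (Set.range b), B u v = 0 := by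
      intro v hvtop
      induction hvtop using Submodule.span_induction with
      | mem v hv' =>
        obtain ⟨i, rfl⟩ := hv'
        obtain ⟨k, hk⟩ := hcover i
        by_cases hkj : k = j
        · subst hkj
          exact hall _ (Submodule.subset_span ⟨i, hk, rfl⟩)
        · exact horth j k (Ne.symm hkj) u hu _ (Submodule.subset_span ⟨i, hk, rfl⟩)
      | zero => simp
      | add a b _ _ ha hb => rw [map_add, ha, hb, add_zero]
      | smul r a _ ha => rw [map_smul, ha, smul_zero]
    obtain ⟨v, hv⟩ := hnd u hu0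
    exact hv (hzero v (by rw [b.span_eq]; exact Submodule.mem_top))
  choose σ₀ hσ₀ using hB5
  have hpinj : Function.Injective p := fun y y' hyy' => by rw [← h.p_inv y, ← h.p_inv y', hyy']
  have hσinj : Function.Injective σ₀ := by
    intro k j hkj
    by_contra hne
    have h4 : (Bk k).image p = (Bk j).image p := by rw [hσ₀ k, hσ₀ j, hkj]
    have h5 : Bk k = Bk j := Finset.image_injective hpinj h4
    have h6 := hB3 k j hne
    rw [h5, Finset.disjoint_self_iff_empty] at h6
    have h7 := hB1 j
    rw [h6, Finset.card_empty] at h7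
    omega
  have hc : ∀ i, Sum.elim c c' i ≠ 0 := by
    rintro (y | y)
    · exact h.c_ne y
    · exact h.c'_ne y
  refine ⟨fun k => Submodule.span F (b '' S k), hfin, hind, htop, hnondeg, horth,
    Equiv.ofBijective σ₀ (Finite.injective_iff_bijective.mp hσinj), ?_⟩
  intro k
  rw [Equiv.ofBijective_apply]
  apply map_span_basis_image b x (piMap p sw) (Sum.elim c c') hc hbx
  ext j
  constructor
  · rintro ⟨i, hi, rfl⟩
    show plIdx (piMap p sw i) ∈ Bk (σ₀ k)
    rw [h.plIdx_piMap, ← hσ₀ k]
    exact Finset.mem_image_of_mem p hi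
  · intro hj
    refine ⟨piMap p sw j, ?_, h.piMap_piMap j⟩
    show plIdx (piMap p sw j) ∈ Bk k
    have hj' : plIdx j ∈ Bk (σ₀ k) := hj
    rw [← hσ₀ k] at hj'
    obtain ⟨y, hy, hyj⟩ := Finset.mem_image.mp hj'
    rw [h.plIdx_piMap, ← hyj, h.p_inv]
    exact hy

/-- An isometry `x` with `x² = z ≠ 0` of a nondegenerate alternating space in characteristic
not 2 fixes or swaps the members of some pair of complementary totally isotropic subspaces. -/
theorem exists_lagrangian_pair [FiniteDimensional F V] (B : LinearMap.BilinForm F V)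
    (hB : ∀ u, B u u = 0) (hnd : ∀ u, u ≠ 0 → ∃ v, B u v ≠ 0) (x : V →ₗ[F] V) (z : F) (hz : z ≠ 0)
    (hx : ∀ u v, B (x u) (x v) = B u v) (hxx : ∀ u, x (x u) = z • u) (h2 : (2 : F) ≠ 0) :
    ∃ U W : Submodule F V, IsCompl U W ∧ (∀ u ∈ U, ∀ v ∈ U, B u v = 0) ∧
      (∀ u ∈ W, ∀ v ∈ W, B u v = 0) ∧
      ((U.map x = U ∧ W.map x = W) ∨ (U.map x = W ∧ W.map x = U)) := by
  classical
  obtain ⟨ι, hι, e, f, p, sw, c, c', h, hsw⟩ := exists_sympData B hB x z hz hx hxx _ ⊤ rfl
    (fun _ _ => Submodule.mem_top) (fun u _ hu => by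
      obtain ⟨v, hv⟩ := hnd u hu
      exact ⟨v, Submodule.mem_top, hv⟩)
  obtain ⟨b, hbe, hbf, hbx, hgram⟩ := h.exists_basis hB
  have hc : ∀ i, Sum.elim c c' i ≠ 0 := by
    rintro (y | y)
    · exact h.c_ne y
    · exact h.c'_ne y
  -- the general construction from a set of indices
  have fin : ∀ S : Set (ι ⊕ ι), (∀ i ∈ S, ∀ i' ∈ S, B (b i) (b i') = 0) →
      (∀ i ∈ Sᶜ, ∀ i' ∈ Sᶜ, B (b i) (b i') = 0) →
      ((piMap p sw '' S = S ∧ piMap p sw '' Sᶜ = Sᶜ) ∨ (piMap p sw '' S = Sᶜ ∧ piMap p sw '' Sᶜ = S)) →
      ∃ U W : Submodule F V, IsCompl U W ∧ (∀ u ∈ U, ∀ v ∈ U, B u v = 0) ∧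
        (∀ u ∈ W, ∀ v ∈ W, B u v = 0) ∧
        ((U.map x = U ∧ W.map x = W) ∨ (U.map x = W ∧ W.map x = U)) := by
    intro S hiso hiso' himg
    have hisoS : ∀ T : Set (ι ⊕ ι), (∀ i ∈ T, ∀ i' ∈ T, B (b i) (b i') = 0) →
        ∀ u ∈ Submodule.span F (b '' T), ∀ v ∈ Submodule.span F (b '' T), B u v = 0 := by
      intro T hT u hu v hv
      induction hu using Submodule.span_induction with
      | mem u hu =>
        obtain ⟨i, hi, rfl⟩ := hu
        induction hv using Submodule.span_induction with
        | mem v hv =>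
          obtain ⟨i', hi', rfl⟩ := hv
          exact hT i hi i' hi'
        | zero => simp
        | add a b _ _ ha hb => rw [map_add, ha, hb, add_zero]
        | smul r a _ ha => rw [map_smul, ha, smul_zero]
      | zero => simp
      | add a b _ _ ha hb => rw [map_add, LinearMap.add_apply, ha, hb, add_zero]
      | smul r a _ ha => rw [map_smul, LinearMap.smul_apply, ha, smul_zero]
    refine ⟨Submodule.span F (b '' S), Submodule.span F (b '' Sᶜ), ⟨?_, ?_⟩, hisoS S hiso,
      hisoS Sᶜ hiso', ?_⟩
    · exact b.linearIndependent.disjoint_span_image disjoint_compl_right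
    · rw [codisjoint_iff, ← Submodule.span_union, ← Set.image_union, Set.union_compl_self,
        Set.image_univ, b.span_eq]
    · rcases himg with ⟨h1, h2⟩ | ⟨h1, h2⟩
      · exact Or.inl ⟨map_span_basis_image b x _ _ hc hbx S S h1,
          map_span_basis_image b x _ _ hc hbx Sᶜ Sᶜ h2⟩
      · exact Or.inr ⟨map_span_basis_image b x _ _ hc hbx S Sᶜ h1,
          map_span_basis_image b x _ _ hc hbx Sᶜ S h2⟩
  by_cases hsq : ∃ μ : F, μ * μ = z
  · -- no swapped planes: `U` spanned by the `e`, `W` by the `f`
    have hsw' : ∀ y, sw y = false := hsw ⟨hsq, h2⟩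
    have hcompl : ∀ i, i ∈ (Set.range (Sum.inl : ι → ι ⊕ ι))ᶜ ↔ ∃ y, i = Sum.inr y := by
      rintro (y | y)
      · simp
      · simp
    apply fin (Set.range Sum.inl)
    · rintro _ ⟨y, rfl⟩ _ ⟨y', rfl⟩
      rw [hbe, hbe]
      exact h.ee y y'
    · intro i hi i' hi'
      obtain ⟨y, rfl⟩ := (hcompl i).mp hi
      obtain ⟨y', rfl⟩ := (hcompl i').mp hi'
      rw [hbf, hbf]
      exact h.ff y y'
    · left
      constructor
      · ext i
        constructor
        · rintro ⟨_, ⟨y, rfl⟩, rfl⟩
          exact ⟨p y, by simp [piMap, hsw' y]⟩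
        · rintro ⟨y, rfl⟩
          exact ⟨Sum.inl (p y), ⟨p y, rfl⟩, by simp [piMap, hsw' (p y), h.p_inv]⟩
      · ext i
        rw [hcompl]
        constructor
        · rintro ⟨j, hj, rfl⟩
          obtain ⟨y, rfl⟩ := (hcompl j).mp hj
          exact ⟨p y, by simp [piMap, hsw' y]⟩
        · rintro ⟨y, rfl⟩
          exact ⟨Sum.inr (p y), (hcompl _).mpr ⟨p y, rfl⟩, by simp [piMap, hsw' (p y), h.p_inv]⟩
  · -- no plane with two fixed lines
    have htype : ∀ y, sw y = true ∨ p y ≠ y := by
      intro y
      by_contra hcon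
      push Not at hcon
      obtain ⟨hs, hp⟩ := hcon
      have hs' : sw y = false := by simpa using hs
      apply hsq
      refine ⟨c y, ?_⟩
      have h1 := hxx (e y)
      rw [h.xe_ns y hs', hp, map_smul, h.xe_ns y hs', hp, smul_smul] at h1
      have h3 : (c y * c y - z) • e y = 0 := by rw [sub_smul, h1, sub_self]
      have he0 : e y ≠ 0 := by
        intro h0
        have := h.ef_same y
        rw [h0, map_zero, LinearMap.zero_apply] at this
        exact zero_ne_one this
      exact sub_eq_zero.mp ((smul_eq_zero.mp h3).resolve_right he0)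
    let _ : LinearOrder ι := LinearOrder.lift' (Fintype.equivFin ι) (Fintype.equivFin ι).injective
    let S : Set (ι ⊕ ι) := {i | Sum.elim (fun y => y ≤ p y) (fun y => p y < y) i}
    have hSl : ∀ y, Sum.inl y ∈ S ↔ y ≤ p y := fun y => Iff.rfl
    have hSr : ∀ y, Sum.inr y ∈ S ↔ p y < y := fun y => Iff.rfl
    have hSl' : ∀ y, Sum.inl y ∈ Sᶜ ↔ p y < y := fun y => by
      rw [Set.mem_compl_iff, hSl, not_le]
    have hSr' : ∀ y, Sum.inr y ∈ Sᶜ ↔ y ≤ p y := fun y => by
      rw [Set.mem_compl_iff, hSr, not_lt]
    have hsub1 : ∀ i ∈ S, piMap p sw i ∈ Sᶜ := by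
      rintro (y | y) hi
      · have hy : y ≤ p y := (hSl y).mp hi
        cases hs : sw y with
        | true =>
          have : piMap p sw (Sum.inl y) = Sum.inr y := by simp [piMap, hs]
          rw [this, hSr']
          exact hy
        | false =>
          have : piMap p sw (Sum.inl y) = Sum.inl (p y) := by simp [piMap, hs]
          rw [this, hSl', h.p_inv]
          rcases htype y with h5 | h5
          · rw [hs] at h5; exact absurd h5 (by simp)
          · exact lt_of_le_of_ne hy (Ne.symm h5)
      · have hy : p y < y := (hSr y).mp hi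
        cases hs : sw y with
        | true =>
          have := h.sw_fix y hs
          rw [this] at hy
          exact absurd hy (lt_irrefl _)
        | false =>
          have : piMap p sw (Sum.inr y) = Sum.inr (p y) := by simp [piMap, hs]
          rw [this, hSr', h.p_inv]
          exact hy.le
    have hsub2 : ∀ i ∈ Sᶜ, piMap p sw i ∈ S := by
      rintro (y | y) hi
      · have hy : p y < y := (hSl' y).mp hi
        cases hs : sw y with
        | true =>
          have := h.sw_fix y hs
          rw [this] at hy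
          exact absurd hy (lt_irrefl _)
        | false =>
          have : piMap p sw (Sum.inl y) = Sum.inl (p y) := by simp [piMap, hs]
          rw [this, hSl, h.p_inv]
          exact hy.le
      · have hy : y ≤ p y := (hSr' y).mp hi
        cases hs : sw y with
        | true =>
          have : piMap p sw (Sum.inr y) = Sum.inl y := by simp [piMap, hs]
          rw [this, hSl]
          exact hy
        | false =>
          have : piMap p sw (Sum.inr y) = Sum.inr (p y) := by simp [piMap, hs]
          rw [this, hSr, h.p_inv]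
          rcases htype y with h5 | h5
          · rw [hs] at h5; exact absurd h5 (by simp)
          · exact lt_of_le_of_ne hy (Ne.symm h5)
    apply fin S
    · rintro (y | y) hi (y' | y') hi'
      · rw [hbe, hbe]; exact h.ee y y'
      · rw [hbe, hbf]
        by_cases hyy' : y = y'
        · subst hyy'
          exact absurd ((hSr y).mp hi') (not_lt.mpr ((hSl y).mp hi))
        · exact h.ef_ne y y' hyy'
      · rw [hbf, hbe]
        by_cases hyy' : y = y'
        · subst hyy'
          exact absurd ((hSr y).mp hi) (not_lt.mpr ((hSl y).mp hi'))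
        · exact h.fe_ne hB y y' hyy'
      · rw [hbf, hbf]; exact h.ff y y'
    · rintro (y | y) hi (y' | y') hi'
      · rw [hbe, hbe]; exact h.ee y y'
      · rw [hbe, hbf]
        by_cases hyy' : y = y'
        · subst hyy'
          exact absurd ((hSl' y).mp hi) (not_lt.mpr ((hSr' y).mp hi'))
        · exact h.ef_ne y y' hyy'
      · rw [hbf, hbe]
        by_cases hyy' : y = y'
        · subst hyy'
          exact absurd ((hSl' y).mp hi') (not_lt.mpr ((hSr' y).mp hi))
        · exact h.fe_ne hB y y' hyy'
      · rw [hbf, hbf]; exact h.ff y y'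
    · right
      constructor
      · ext i
        constructor
        · rintro ⟨j, hj, rfl⟩
          exact hsub1 j hj
        · intro hi
          exact ⟨piMap p sw i, hsub2 i hi, h.piMap_piMap i⟩
      · ext i
        constructor
        · rintro ⟨j, hj, rfl⟩
          exact hsub2 j hj
        · intro hi
          exact ⟨piMap p sw i, hsub1 i hi, h.piMap_piMap i⟩

end sympapp

end Cfsg.Agent.Helper99
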