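import Mathlib
import Cfsg.Prelude.Def_ClassicalGeometry
import Cfsg.Agent.Helper99.SympApp

set_option autoImplicit false

namespace Cfsg.Agent.Helper99

section bridge

open scoped Matrix

variable {F : Type*} [Field F] (d : ℕ)

/-- The form `Cfsg.sympForm` as a bundled bilinear form. -/
noncomputable def sympB : LinearMap.BilinForm F (Fin d ⊕ Fin d → F) :=
  Matrix.toBilin' (Matrix.J (Fin d) F)

theorem sympB_apply (u v : Fin d ⊕ Fin d → F) : sympB d u v = Cfsg.sympForm d F u v := by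
  rw [sympB, Matrix.toBilin'_apply']
  rfl

theorem sympB_alt (u : Fin d ⊕ Fin d → F) : sympB d u u = 0 := by
  rw [sympB_apply, Cfsg.sympForm, Matrix.J, dotProduct, Fintype.sum_sum_type]
  simp only [Matrix.mulVec, Matrix.fromBlocks_apply₁₁, Matrix.fromBlocks_apply₁₂,
    Matrix.fromBlocks_apply₂₁, Matrix.fromBlocks_apply₂₂, dotProduct, Fintype.sum_sum_type,
    Matrix.zero_apply, zero_mul, Finset.sum_const_zero, zero_add, add_zero, Matrix.neg_apply,
    Matrix.one_apply, neg_mul, ite_mul, one_mul, Finset.sum_neg_distrib,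
    Finset.sum_ite_eq, Finset.mem_univ, if_true]
  rw [← Finset.sum_add_distrib]
  apply Finset.sum_eq_zero
  intro i _
  ring

theorem sympB_nondeg (u : Fin d ⊕ Fin d → F) (hu : u ≠ 0) : ∃ v, sympB d u v ≠ 0 := by
  classical
  obtain ⟨i, hi⟩ := Function.ne_iff.mp hu
  refine ⟨(-Matrix.J (Fin d) F) *ᵥ Pi.single i 1, ?_⟩
  rw [sympB_apply, Cfsg.sympForm, Matrix.mulVec_mulVec, Matrix.mul_neg, Matrix.J_squared, neg_neg,
    Matrix.one_mulVec, dotProduct_single, mul_one]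
  exact hi

theorem sympB_isometry (A : Matrix (Fin d ⊕ Fin d) (Fin d ⊕ Fin d) F)
    (hA : A ∈ Matrix.symplecticGroup (Fin d) F) (u v : Fin d ⊕ Fin d → F) :
    sympB d (Matrix.toLin' A u) (Matrix.toLin' A v) = sympB d u v := by
  rw [sympB_apply, sympB_apply, Cfsg.sympForm, Cfsg.sympForm, Matrix.toLin'_apply, Matrix.toLin'_apply]
  have hA' := SymplecticGroup.mem_iff'.mp hA
  rw [← Matrix.vecMul_transpose, ← Matrix.dotProduct_mulVec, Matrix.mulVec_mulVec,
    Matrix.mulVec_mulVec, hA']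

/-- A symplectic matrix whose square is the scalar `z`: `z ≠ 0` and the linear map squares to `z`. -/
theorem symp_sq_data (hd : 1 ≤ d) (x : ↥(Matrix.symplecticGroup (Fin d) F)) (z : F)
    (hz : ((x ^ 2 : ↥(Matrix.symplecticGroup (Fin d) F)) : Matrix (Fin d ⊕ Fin d) (Fin d ⊕ Fin d) F) =
      z • (1 : Matrix (Fin d ⊕ Fin d) (Fin d ⊕ Fin d) F)) :
    z ≠ 0 ∧ ∀ u : Fin d ⊕ Fin d → F,
      Matrix.toLin' (x : Matrix (Fin d ⊕ Fin d) (Fin d ⊕ Fin d) F)
        (Matrix.toLin' (x : Matrix (Fin d ⊕ Fin d) (Fin d ⊕ Fin d) F) u) = z • u := by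
  classical
  have hxx : (x : Matrix (Fin d ⊕ Fin d) (Fin d ⊕ Fin d) F) * (x : Matrix (Fin d ⊕ Fin d) (Fin d ⊕ Fin d) F) =
      z • (1 : Matrix (Fin d ⊕ Fin d) (Fin d ⊕ Fin d) F) := by
    rw [← hz, pow_two]
    rfl
  have hTT : ∀ u : Fin d ⊕ Fin d → F,
      Matrix.toLin' (x : Matrix (Fin d ⊕ Fin d) (Fin d ⊕ Fin d) F)
        (Matrix.toLin' (x : Matrix (Fin d ⊕ Fin d) (Fin d ⊕ Fin d) F) u) = z • u := by
    intro u
    rw [Matrix.toLin'_apply, Matrix.toLin'_apply, Matrix.mulVec_mulVec, hxx, Matrix.smul_mulVec,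
      Matrix.one_mulVec]
  refine ⟨?_, hTT⟩
  intro h0
  have hu : (Pi.single (Sum.inl ⟨0, hd⟩) 1 : Fin d ⊕ Fin d → F) ≠ 0 := by
    intro h
    have := congrFun h (Sum.inl ⟨0, hd⟩)
    simp at this
  obtain ⟨v, hv⟩ := sympB_nondeg d _ hu
  apply hv
  rw [← sympB_isometry d x.1 x.2, ← sympB_isometry d x.1 x.2, hTT, h0, zero_smul, map_zero,
    LinearMap.zero_apply]

end bridge

end Cfsg.Agent.Helper99
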